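/-
helper84 library (S4482, Brauer's order formula for dihedral Sylow 2-subgroups with one class of
involutions): the two hypothesis packages used by all pieces of the proof.

* `Dih.Hyp n P σ τ`: the Sylow 2-subgroup `P = ⟨σ, τ⟩` is dihedral of order `2 ^ n`, `n ≥ 3`
  (`σ` of order `2 ^ (n - 1)`, `τ` an involution inverting `σ`).  The central involution is
  `σ ^ (2 ^ (n - 2))`.
* `Dih.Core n P σ X`: `X` is a normal `2`-complement of the centralizer of the central involution.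
-/
import Mathlib

set_option autoImplicit false

namespace Cfsg.Agent.H84.Dih

/-- The hypotheses of S4482 on the Sylow `2`-subgroup. -/
structure Hyp {G : Type*} [Group G] (n : ℕ) (P : Sylow 2 G) (σ τ : G) : Prop where
  hn : 3 ≤ n
  hσ : σ ∈ (P : Subgroup G)
  hτ : τ ∈ (P : Subgroup G)
  hσo : orderOf σ = 2 ^ (n - 1)
  hτo : orderOf τ = 2
  hrel : τ * σ * τ⁻¹ = σ⁻¹
  hgen : Subgroup.closure ({σ, τ} : Set G) = (P : Subgroup G)

/-- `X` is a normal `2`-complement of `C_G(J)`, `J = σ ^ (2 ^ (n - 2))`, and `C_G(J) = X P`. -/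
structure Core {G : Type*} [Group G] (n : ℕ) (P : Sylow 2 G) (σ : G) (X : Subgroup G) : Prop where
  le : X ≤ Subgroup.centralizer ({σ ^ (2 ^ (n - 2))} : Set G)
  norm : ∀ h ∈ Subgroup.centralizer ({σ ^ (2 ^ (n - 2))} : Set G), ∀ x ∈ X, h * x * h⁻¹ ∈ X
  odd : Odd (Nat.card X)
  card : Nat.card (Subgroup.centralizer ({σ ^ (2 ^ (n - 2))} : Set G)) = Nat.card X * 2 ^ n
  mul : ∀ g ∈ Subgroup.centralizer ({σ ^ (2 ^ (n - 2))} : Set G),
    ∃ x ∈ X, ∃ p ∈ (P : Subgroup G), g = x * p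
  oddmem : ∀ c ∈ Subgroup.centralizer ({σ ^ (2 ^ (n - 2))} : Set G), Odd (orderOf c) → c ∈ X

end Cfsg.Agent.H84.Dih
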