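import Mathlib
import Cfsg.Agent.H52.SpDefs

/-!
# S2944, piece SP-GLPA (helper84, for helper52 / helper66)

A central extension, with kernel of odd order, of a group generated by independent normal copies of
`SL(2,2)`: the elements of odd order commute.  The first part (the elements of odd order of the
quotient lie in the subgroup generated by the squares of the factors) follows helper89's SN-GLA.
-/

set_option autoImplicit false

namespace Cfsg.Agent.H84.Sn

open Cfsg.Agent.H52.Sn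

universe u

theorem sl22_sq_cases : ∀ A B : Matrix.SpecialLinearGroup (Fin 2) (ZMod 2),
    A * A = 1 ∨ B * B = 1 ∨ B * B = A * A ∨ B * B = (A * A) * (A * A) := by decide

theorem sl22_sq_inv : ∀ A : Matrix.SpecialLinearGroup (Fin 2) (ZMod 2),
    ∃ T : Matrix.SpecialLinearGroup (Fin 2) (ZMod 2), T * (A * A) * T⁻¹ * (A * A) = 1 := by
  decide

/-- Different independent factors, normalized by their join, commute elementwise. -/
theorem glpa_factors_comm {X : Type u} [Group X] {ι : Type u} (E : ι → Subgroup X)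
    (H : Subgroup X) (hN : ∀ i, H ≤ Subgroup.normalizer ((E i : Subgroup X) : Set X))
    (hind : iSupIndep E) (hsup : (⨆ i, E i) = H) :
    ∀ i j, i ≠ j → ∀ a ∈ E i, ∀ b ∈ E j, a * b = b * a := by
  have hEH : ∀ i, E i ≤ H := fun i => hsup ▸ le_iSup E i
  have hconj : ∀ i, ∀ h ∈ H, ∀ e ∈ E i, h * e * h⁻¹ ∈ E i := by
    intro i h hh e he
    exact (Subgroup.mem_normalizer_iff.mp (hN i hh) e).mp he
  intro i j hij a ha b hb
  have hd : Disjoint (E i) (E j) := hind.pairwiseDisjoint hij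
  have h1 : a * b * a⁻¹ * b⁻¹ ∈ E i := by
    have h0 := hconj i b (hEH j hb) a⁻¹ ((E i).inv_mem ha)
    have e : a * b * a⁻¹ * b⁻¹ = a * (b * a⁻¹ * b⁻¹) := by group
    rw [e]
    exact (E i).mul_mem ha h0
  have h2 : a * b * a⁻¹ * b⁻¹ ∈ E j := by
    have h0 := hconj j a (hEH i ha) b hb
    exact (E j).mul_mem h0 ((E j).inv_mem hb)
  have h3 := Subgroup.disjoint_def.mp hd h1 h2
  have e : a * b = (a * b * a⁻¹ * b⁻¹) * (b * a) := by group
  rw [e, h3, one_mul]

/-- The elements of odd order of the join lie in the subgroup generated by the squares of the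
elements of the factors (as in helper89's SN-GLA). -/
theorem glpa_odd_mem {X : Type u} [Group X] {ι : Type u} (E : ι → Subgroup X)
    (H : Subgroup X) (hN : ∀ i, H ≤ Subgroup.normalizer ((E i : Subgroup X) : Set X))
    (hind : iSupIndep E) (hsup : (⨆ i, E i) = H) :
    ∀ z ∈ H, Odd (orderOf z) →
      z ∈ Subgroup.closure {s : X | ∃ i, ∃ e ∈ E i, s = e * e} := by
  have hEH : ∀ i, E i ≤ H := fun i => hsup ▸ le_iSup E i
  have hconj : ∀ i, ∀ h ∈ H, ∀ e ∈ E i, h * e * h⁻¹ ∈ E i := by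
    intro i h hh e he
    exact (Subgroup.mem_normalizer_iff.mp (hN i hh) e).mp he
  have hcomm := glpa_factors_comm E H hN hind hsup
  obtain ⟨gens, hgens⟩ : ∃ gens : Set X, gens = {s : X | ∃ i, ∃ e ∈ E i, s = e * e} := ⟨_, rfl⟩
  obtain ⟨S, hSdef⟩ : ∃ S : Subgroup X, S = Subgroup.closure gens := ⟨_, rfl⟩
  have hsq : ∀ i, ∀ e ∈ E i, e * e ∈ S := by
    intro i e he
    rw [hSdef]
    apply Subgroup.subset_closure
    rw [hgens]
    exact ⟨i, e, he, rfl⟩
  have hSn : ∀ h ∈ H, ∀ s ∈ S, h * s * h⁻¹ ∈ S := by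
    intro h hh s hs
    rw [hSdef] at hs
    induction hs using Subgroup.closure_induction with
    | mem s hs =>
      rw [hgens] at hs
      obtain ⟨i, e, he, rfl⟩ := hs
      have e1 : h * (e * e) * h⁻¹ = (h * e * h⁻¹) * (h * e * h⁻¹) := by group
      rw [e1]
      exact hsq i _ (hconj i h hh e he)
    | one =>
      have e1 : h * 1 * h⁻¹ = 1 := by group
      rw [e1]
      exact S.one_mem
    | mul a b _ _ ha hb =>
      have e1 : h * (a * b) * h⁻¹ = (h * a * h⁻¹) * (h * b * h⁻¹) := by group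
      rw [e1]
      exact S.mul_mem ha hb
    | inv a _ ha =>
      have e1 : h * a⁻¹ * h⁻¹ = (h * a * h⁻¹)⁻¹ := by group
      rw [e1]
      exact S.inv_mem ha
  have hD : ∀ i, ∀ e ∈ E i, ∀ g ∈ H, g * e * g⁻¹ * e⁻¹ ∈ S := by
    intro i e he g hg
    have key : g ∈ H ∧ g * e * g⁻¹ * e⁻¹ ∈ S := by
      rw [← hsup] at hg
      refine Subgroup.iSup_induction E (C := fun g => g ∈ H ∧ g * e * g⁻¹ * e⁻¹ ∈ S) hg ?_ ?_ ?_
      · intro j g hg
        refine ⟨hEH j hg, ?_⟩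
        by_cases hij : j = i
        · subst hij
          have e1 : g * e * g⁻¹ * e⁻¹
              = (g * e) * (g * e) * (e⁻¹ * (g⁻¹ * g⁻¹) * e⁻¹⁻¹) * (e⁻¹ * e⁻¹) := by group
          rw [e1]
          refine S.mul_mem (S.mul_mem (hsq j _ ((E j).mul_mem hg he)) ?_)
            (hsq j _ ((E j).inv_mem he))
          exact hSn e⁻¹ (H.inv_mem (hEH j he)) _ (hsq j _ ((E j).inv_mem hg))
        · have hc := hcomm j i hij g hg e he
          have e1 : g * e * g⁻¹ * e⁻¹ = 1 := by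
            rw [hc]
            group
          rw [e1]
          exact S.one_mem
      · refine ⟨H.one_mem, ?_⟩
        have e1 : (1 : X) * e * 1⁻¹ * e⁻¹ = 1 := by group
        rw [e1]
        exact S.one_mem
      · rintro g1 g2 ⟨hg1, h1⟩ ⟨hg2, h2⟩
        refine ⟨H.mul_mem hg1 hg2, ?_⟩
        have e1 : g1 * g2 * e * (g1 * g2)⁻¹ * e⁻¹
            = (g1 * (g2 * e * g2⁻¹ * e⁻¹) * g1⁻¹) * (g1 * e * g1⁻¹ * e⁻¹) := by group
        rw [e1]
        exact S.mul_mem (hSn g1 hg1 _ h2) h1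
    exact key.2
  have hC : ∀ h ∈ H, h * h ∈ S := by
    intro h hh
    have key : h ∈ H ∧ h * h ∈ S ∧ ∀ g ∈ H, g * h * g⁻¹ * h⁻¹ ∈ S := by
      rw [← hsup] at hh
      refine Subgroup.iSup_induction E
        (C := fun h => h ∈ H ∧ h * h ∈ S ∧ ∀ g ∈ H, g * h * g⁻¹ * h⁻¹ ∈ S) hh ?_ ?_ ?_
      · intro i h hh
        exact ⟨hEH i hh, hsq i h hh, fun g hg => hD i h hh g hg⟩
      · refine ⟨H.one_mem, ?_, ?_⟩
        · rw [one_mul]
          exact S.one_mem
        · intro g _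
          have e1 : g * 1 * g⁻¹ * (1 : X)⁻¹ = 1 := by group
          rw [e1]
          exact S.one_mem
      · rintro h1 h2 ⟨hh1, hs1, hc1⟩ ⟨hh2, hs2, hc2⟩
        refine ⟨H.mul_mem hh1 hh2, ?_, ?_⟩
        · have e1 : h1 * h2 * (h1 * h2)
              = (h1 * (h2 * h1 * h2⁻¹ * h1⁻¹) * h1⁻¹) * (h1 * h1) * (h2 * h2) := by group
          rw [e1]
          exact S.mul_mem (S.mul_mem (hSn h1 hh1 _ (hc1 h2 hh2)) hs1) hs2
        · intro g hg
          have e1 : g * (h1 * h2) * g⁻¹ * (h1 * h2)⁻¹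
              = (g * h1 * g⁻¹ * h1⁻¹) * (h1 * (g * h2 * g⁻¹ * h2⁻¹) * h1⁻¹) := by group
          rw [e1]
          exact S.mul_mem (hc1 g hg) (hSn h1 hh1 _ (hc2 g hg))
    exact key.2.1
  intro z hz ho
  obtain ⟨m, hm⟩ := ho
  have e1 : z = (z * z) ^ (m + 1) := by
    rw [← pow_two, ← pow_mul]
    have e2 : 2 * (m + 1) = orderOf z + 1 := by omega
    rw [e2, pow_succ, pow_orderOf_eq_one, one_mul]
  rw [e1, ← hgens, ← hSdef]
  exact S.pow_mem (hC z hz) _

section Lift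

variable {Y X' : Type u} [Group Y] [Group X'] (f : Y →* X')

/-- If `f w = f (u ^ k)` and the kernel is central then `u` and `w` commute. -/
theorem glpa_comm_pow (hcent : ∀ z ∈ f.ker, ∀ y : Y, z * y = y * z) (u w : Y) (k : ℕ)
    (h : f w = f (u ^ k)) : u * w = w * u := by
  have hz : (u ^ k)⁻¹ * w ∈ f.ker := by
    rw [MonoidHom.mem_ker, map_mul, map_inv, h, inv_mul_cancel]
  have c := hcent _ hz u
  have hk : u * u ^ k = u ^ k * u := (Commute.self_pow u k).eq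
  calc u * w = (u * u ^ k) * ((u ^ k)⁻¹ * w) := by
        rw [mul_assoc, mul_inv_cancel_left]
    _ = u ^ k * (u * ((u ^ k)⁻¹ * w)) := by rw [hk, mul_assoc]
    _ = u ^ k * (((u ^ k)⁻¹ * w) * u) := by rw [c]
    _ = w * u := by rw [← mul_assoc, mul_inv_cancel_left]

/-- Central factors drop out of a commutator. -/
theorem glpa_comm_central (p q z₁ z₂ : Y) (h₁ : ∀ g : Y, z₁ * g = g * z₁)
    (h₂ : ∀ g : Y, z₂ * g = g * z₂) :
    (p * z₁) * (q * z₂) * (p * z₁)⁻¹ * (q * z₂)⁻¹ = p * q * p⁻¹ * q⁻¹ := by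
  calc (p * z₁) * (q * z₂) * (p * z₁)⁻¹ * (q * z₂)⁻¹
      = p * (z₁ * q) * (z₂ * (z₁⁻¹ * p⁻¹)) * z₂⁻¹ * q⁻¹ := by group
    _ = p * (q * z₁) * ((z₁⁻¹ * p⁻¹) * z₂) * z₂⁻¹ * q⁻¹ := by rw [h₁ q, h₂ (z₁⁻¹ * p⁻¹)]
    _ = p * q * p⁻¹ * q⁻¹ := by group

/-- Commutation with `w` lifts from generators to the closure. -/
theorem glpa_lift (gens : Set X') (hgr : ∀ g ∈ gens, g ∈ f.range)
    (hcent : ∀ z ∈ f.ker, ∀ y : Y, z * y = y * z) (w : Y)
    (hw : ∀ u : Y, f u ∈ gens → u * w = w * u) :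
    ∀ u : Y, f u ∈ Subgroup.closure gens → u * w = w * u := by
  have key : ∀ b ∈ Subgroup.closure gens,
      b ∈ f.range ∧ ∀ u : Y, f u = b → u * w = w * u := by
    intro b hb
    induction hb using Subgroup.closure_induction with
    | mem b hb => exact ⟨hgr b hb, fun u hu => hw u (by rw [hu]; exact hb)⟩
    | one => exact ⟨f.range.one_mem, fun u hu => hcent u (MonoidHom.mem_ker.mpr hu) w⟩
    | mul b₁ b₂ _ _ h₁ h₂ =>
      obtain ⟨⟨u₁, hu₁⟩, h₁'⟩ := h₁
      obtain ⟨hr₂, h₂'⟩ := h₂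
      refine ⟨f.range.mul_mem ⟨u₁, hu₁⟩ hr₂, fun u hu => ?_⟩
      have e2 : f (u₁⁻¹ * u) = b₂ := by rw [map_mul, map_inv, hu₁, hu, inv_mul_cancel_left]
      have c1 := h₁' u₁ hu₁
      have c2 := h₂' (u₁⁻¹ * u) e2
      calc u * w = u₁ * ((u₁⁻¹ * u) * w) := by group
        _ = u₁ * (w * (u₁⁻¹ * u)) := by rw [c2]
        _ = (u₁ * w) * (u₁⁻¹ * u) := by group
        _ = (w * u₁) * (u₁⁻¹ * u) := by rw [c1]
        _ = w * u := by group
    | inv b _ h =>
      obtain ⟨hr, h'⟩ := h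
      refine ⟨f.range.inv_mem hr, fun u hu => ?_⟩
      have e : f u⁻¹ = b := by rw [map_inv, hu, inv_inv]
      have c' : Commute u⁻¹ w := h' u⁻¹ e
      exact (Commute.inv_left_iff.mp c').eq
  intro u hu
  exact (key (f u) hu).2 u rfl

end Lift

/-- The base case: preimages of squares of elements of the factors commute. -/
theorem glpa_base {Y X' : Type u} [Group Y] [Group X'] (f : Y →* X')
    {ι : Type u} (E : ι → Subgroup X')
    (hcent : ∀ z ∈ f.ker, ∀ y : Y, z * y = y * z) (hodd : Odd (Nat.card ↥f.ker))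
    (hN : ∀ i, f.range ≤ Subgroup.normalizer ((E i : Subgroup X') : Set X'))
    (hiso : ∀ i, Nonempty (↥(E i) ≃* Matrix.SpecialLinearGroup (Fin 2) (ZMod 2)))
    (hind : iSupIndep E) (hsup : (⨆ i, E i) = f.range) (u w : Y)
    (hu : f u ∈ {s : X' | ∃ i, ∃ e ∈ E i, s = e * e})
    (hw : f w ∈ {s : X' | ∃ i, ∃ e ∈ E i, s = e * e}) : u * w = w * u := by
  obtain ⟨i, e, he, hue⟩ := hu
  obtain ⟨j, e', he', hwe⟩ := hw
  have hEr : ∀ i, E i ≤ f.range := fun i => hsup ▸ le_iSup E i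
  have hcomm := glpa_factors_comm E f.range hN hind hsup
  by_cases hij : i = j
  · subst hij
    obtain ⟨φ⟩ := hiso i
    rcases sl22_sq_cases (φ ⟨e, he⟩) (φ ⟨e', he'⟩) with h | h | h | h
    · have h1 : e * e = 1 := by
        have h2 : φ (⟨e, he⟩ * ⟨e, he⟩) = φ 1 := by rw [map_mul, map_one]; exact h
        exact congrArg Subtype.val (φ.injective h2)
      have h3 : f u = 1 := by rw [hue, h1]
      exact hcent u (MonoidHom.mem_ker.mpr h3) w
    · have h1 : e' * e' = 1 := by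
        have h2 : φ (⟨e', he'⟩ * ⟨e', he'⟩) = φ 1 := by rw [map_mul, map_one]; exact h
        exact congrArg Subtype.val (φ.injective h2)
      have h3 : f w = 1 := by rw [hwe, h1]
      exact (hcent w (MonoidHom.mem_ker.mpr h3) u).symm
    · have h1 : e' * e' = e * e := by
        have h2 : φ (⟨e', he'⟩ * ⟨e', he'⟩) = φ (⟨e, he⟩ * ⟨e, he⟩) := by
          rw [map_mul, map_mul]; exact h
        exact congrArg Subtype.val (φ.injective h2)
      exact glpa_comm_pow f hcent u w 1 (by rw [pow_one, hwe, hue, h1])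
    · have h1 : e' * e' = (e * e) * (e * e) := by
        have h2 : φ (⟨e', he'⟩ * ⟨e', he'⟩) = φ ((⟨e, he⟩ * ⟨e, he⟩) * (⟨e, he⟩ * ⟨e, he⟩)) := by
          rw [map_mul, map_mul, map_mul]; exact h
        exact congrArg Subtype.val (φ.injective h2)
      exact glpa_comm_pow f hcent u w 2 (by rw [pow_two, map_mul, hwe, hue, h1])
  · obtain ⟨φ⟩ := hiso i
    obtain ⟨T, hT⟩ := sl22_sq_inv (φ ⟨e, he⟩)
    obtain ⟨tt, htt⟩ : ∃ tt : E i, tt * (⟨e, he⟩ * ⟨e, he⟩) * tt⁻¹ * (⟨e, he⟩ * ⟨e, he⟩) = 1 := by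
      refine ⟨φ.symm T, ?_⟩
      apply φ.injective
      rw [map_mul, map_mul, map_mul, map_inv, map_mul, map_one, MulEquiv.apply_symm_apply]
      exact hT
    have ht : (tt : X') * (e * e) * (tt : X')⁻¹ * (e * e) = 1 := congrArg Subtype.val htt
    obtain ⟨s, hs⟩ := hEr i tt.2
    have hc1 : (tt : X') * (e' * e') = (e' * e') * (tt : X') :=
      hcomm i j hij (tt : X') tt.2 (e' * e') ((E j).mul_mem he' he')
    have hc2 : (e * e) * (e' * e') = (e' * e') * (e * e) :=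
      hcomm i j hij (e * e) ((E i).mul_mem he he) (e' * e') ((E j).mul_mem he' he')
    obtain ⟨θ, hθdef⟩ : ∃ θ : Y, θ = w * u * w⁻¹ * u⁻¹ := ⟨_, rfl⟩
    have hθ : θ ∈ f.ker := by
      rw [MonoidHom.mem_ker, hθdef, map_mul, map_mul, map_mul, map_inv, map_inv, hue, hwe, ← hc2]
      group
    have hz₁ : u * (s * u * s⁻¹) ∈ f.ker := by
      rw [MonoidHom.mem_ker, map_mul, map_mul, map_mul, map_inv, hue, hs]
      have e1 : (tt : X') * (e * e) * (tt : X')⁻¹ = (e * e)⁻¹ := eq_inv_of_mul_eq_one_left ht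
      rw [e1, mul_inv_cancel]
    have hz₂ : w⁻¹ * (s * w * s⁻¹) ∈ f.ker := by
      rw [MonoidHom.mem_ker, map_mul, map_mul, map_mul, map_inv, map_inv, hwe, hs, hc1]
      group
    have e1 : s * θ * s⁻¹ = (w * (w⁻¹ * (s * w * s⁻¹))) * (u⁻¹ * (u * (s * u * s⁻¹))) *
        (w * (w⁻¹ * (s * w * s⁻¹)))⁻¹ * (u⁻¹ * (u * (s * u * s⁻¹)))⁻¹ := by
      rw [hθdef]
      group
    rw [glpa_comm_central w u⁻¹ _ _ (hcent _ hz₂) (hcent _ hz₁)] at e1
    have e4 : s * θ * s⁻¹ = θ := by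
      have c := hcent θ hθ s
      rw [← c]
      group
    have e5 : w * u⁻¹ * w⁻¹ * u⁻¹⁻¹ = u⁻¹ * θ⁻¹ * u := by
      rw [hθdef]
      group
    have e6 : u⁻¹ * θ⁻¹ * u = θ⁻¹ := by
      have c := hcent θ⁻¹ (f.ker.inv_mem hθ) u⁻¹
      rw [← c]
      group
    have hθinv : θ = θ⁻¹ := e4.symm.trans (e1.trans (e5.trans e6))
    have hθθ : θ * θ = 1 := mul_eq_one_iff_eq_inv.mpr hθinv
    have hθ1 : θ = 1 := by
      have h2 : orderOf θ ∣ 2 := orderOf_dvd_of_pow_eq_one (by rw [pow_two]; exact hθθ)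
      have hn : orderOf θ ∣ Nat.card ↥f.ker := by
        have h3 := orderOf_dvd_natCard (⟨θ, hθ⟩ : f.ker)
        rwa [Subgroup.orderOf_mk] at h3
      have hco : Nat.Coprime 2 (Nat.card ↥f.ker) := Nat.coprime_two_left.mpr hodd
      have h4 := Nat.dvd_gcd h2 hn
      rw [hco.gcd_eq_one] at h4
      exact orderOf_eq_one_iff.mp (Nat.dvd_one.mp h4)
    have e7 : w * u = θ * (u * w) := by
      rw [hθdef]
      group
    rw [e7, hθ1, one_mul]

/-- **SP-GLPA**. -/
theorem glpA : StGLPA.{u} := by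
  intro Y X' _ _ _ _ f ι E hcent hodd hN hiso hind hsup x y hx hy
  have hgr : ∀ g ∈ {s : X' | ∃ i, ∃ e ∈ E i, s = e * e}, g ∈ f.range := by
    rintro g ⟨i, e, he, rfl⟩
    have hEr : E i ≤ f.range := hsup ▸ le_iSup E i
    exact f.range.mul_mem (hEr he) (hEr he)
  have hfx : f x ∈ Subgroup.closure {s : X' | ∃ i, ∃ e ∈ E i, s = e * e} :=
    glpa_odd_mem E f.range hN hind hsup (f x) ⟨x, rfl⟩ (Odd.of_dvd_nat hx (orderOf_map_dvd f x))
  have hfy : f y ∈ Subgroup.closure {s : X' | ∃ i, ∃ e ∈ E i, s = e * e} :=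
    glpa_odd_mem E f.range hN hind hsup (f y) ⟨y, rfl⟩ (Odd.of_dvd_nat hy (orderOf_map_dvd f y))
  -- step A: a preimage of a generator commutes with every preimage of the closure
  have stepA : ∀ u : Y, f u ∈ {s : X' | ∃ i, ∃ e ∈ E i, s = e * e} →
      ∀ w : Y, f w ∈ Subgroup.closure {s : X' | ∃ i, ∃ e ∈ E i, s = e * e} → w * u = u * w := by
    intro u hu
    exact glpa_lift f _ hgr hcent u
      (fun w hw => glpa_base f E hcent hodd hN hiso hind hsup w u hw hu)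
  exact glpa_lift f _ hgr hcent y (fun u hu => (stepA u hu y hfy).symm) x hfx

example : Cfsg.Agent.H52.Sn.StGLPA.{u} := glpA

example : Cfsg.Agent.H52.Sn.StGLPA.{u} =
    (∀ {Y X' : Type u} [Group Y] [Finite Y] [Group X'] [Finite X'] (f : Y →* X')
    {ι : Type u} (E : ι → Subgroup X'),
  (∀ z ∈ f.ker, ∀ y : Y, z * y = y * z) → Odd (Nat.card ↥f.ker) →
  (∀ i, f.range ≤ Subgroup.normalizer ((E i : Subgroup X') : Set X')) →
  (∀ i, Nonempty (↥(E i) ≃* Matrix.SpecialLinearGroup (Fin 2) (ZMod 2))) →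
  iSupIndep E → (⨆ i, E i) = f.range →
  ∀ x y : Y, Odd (orderOf x) → Odd (orderOf y) → x * y = y * x) := rfl

end Cfsg.Agent.H84.Sn
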