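import Mathlib

/-!
Abstract core of the "dichotomy" (F1) used in the J(T)-chain (S2951 / S2952, case (R)):
pure group theory.  `V` a subgroup of exponent 2 of a group `G`, `N = N_G(V)`, with
* (H1) `C_G(u) ≤ N` for every `u ≠ 1` in `V`;
* (H2) `V` is a TI-subgroup: `V ⊓ V^g ≠ ⊥ → g ∈ N`;
* (H3) no four-group of `N` acts on `V` with one common fixed-point set for its three involutions
  (if `b₁`, `b₂`, `b₁ * b₂` have the same fixed points on `V`, one of them centralizes `V`);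
* (H4) every involution of `N` fixes at least two distinct nontrivial elements of `V`.
Then for every `g`: `V^g ⊓ N ≠ ⊥ → [V, V^g] = 1`; and the two-sided form for `V^a`, `V^b`.
-/

set_option autoImplicit false

universe u

namespace Cfsg.Agent.H84.JtDich

variable {G : Type u} [Group G]

theorem mem_conj_iff (V : Subgroup G) (g x : G) :
    x ∈ V.map (MulAut.conj g).toMonoidHom ↔ g⁻¹ * x * g ∈ V := by
  rw [Subgroup.mem_map_equiv]
  simp [MulAut.conj_symm_apply]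

theorem mem_normalizer_conj_iff (V : Subgroup G) (g n : G) :
    n ∈ Subgroup.normalizer ((V.map (MulAut.conj g).toMonoidHom : Subgroup G) : Set G) ↔
      g⁻¹ * n * g ∈ Subgroup.normalizer (V : Set G) := by
  rw [← Subgroup.map_equiv_normalizer_eq, Subgroup.mem_map_equiv]
  simp [MulAut.conj_symm_apply]

theorem conj_comm_iff (g a x : G) :
    (g⁻¹ * a * g) * (g⁻¹ * x * g) = (g⁻¹ * x * g) * (g⁻¹ * a * g) ↔ a * x = x * a := by
  have e1 : (g⁻¹ * a * g) * (g⁻¹ * x * g) = g⁻¹ * (a * x) * g := by group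
  have e2 : (g⁻¹ * x * g) * (g⁻¹ * a * g) = g⁻¹ * (x * a) * g := by group
  rw [e1, e2]
  constructor
  · intro h
    exact mul_left_cancel (mul_right_cancel h)
  · intro h
    rw [h]

theorem conj_comm_iff' (g a v : G) :
    (g⁻¹ * a * g) * v = v * (g⁻¹ * a * g) ↔ a * (g * v * g⁻¹) = (g * v * g⁻¹) * a := by
  have e1 : (g⁻¹ * a * g) * v = g⁻¹ * (a * (g * v * g⁻¹)) * g := by group
  have e2 : v * (g⁻¹ * a * g) = g⁻¹ * ((g * v * g⁻¹) * a) * g := by group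
  rw [e1, e2]
  constructor
  · intro h
    exact mul_left_cancel (mul_right_cancel h)
  · intro h
    rw [h]

theorem comm_of_exp_two (V : Subgroup G) (hexp : ∀ v ∈ V, v * v = 1) :
    ∀ x ∈ V, ∀ y ∈ V, x * y = y * x := by
  intro x hx y hy
  have h1 : x⁻¹ = x := inv_eq_of_mul_eq_one_right (hexp x hx)
  have h2 : y⁻¹ = y := inv_eq_of_mul_eq_one_right (hexp y hy)
  have h3 : (x * y)⁻¹ = x * y := inv_eq_of_mul_eq_one_right (hexp _ (V.mul_mem hx hy))
  calc x * y = (x * y)⁻¹ := h3.symm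
    _ = y⁻¹ * x⁻¹ := mul_inv_rev x y
    _ = y * x := by rw [h1, h2]

/-- The dichotomy, one-sided form: if `V^g` meets `N_G(V)` nontrivially then `V^g` centralizes `V`. -/
theorem dich (V : Subgroup G)
    (hexp : ∀ v ∈ V, v * v = 1)
    (H1 : ∀ u ∈ V, u ≠ 1 →
      Subgroup.centralizer ({u} : Set G) ≤ Subgroup.normalizer (V : Set G))
    (H2 : ∀ g : G, V ⊓ V.map (MulAut.conj g).toMonoidHom ≠ ⊥ →
      g ∈ Subgroup.normalizer (V : Set G))
    (H3 : ∀ b₁ ∈ Subgroup.normalizer (V : Set G), ∀ b₂ ∈ Subgroup.normalizer (V : Set G),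
      b₁ * b₁ = 1 → b₂ * b₂ = 1 → b₁ * b₂ = b₂ * b₁ →
      (∀ v ∈ V, (b₁ * v = v * b₁ ↔ b₂ * v = v * b₂) ∧
        (b₁ * v = v * b₁ ↔ (b₁ * b₂) * v = v * (b₁ * b₂))) →
      b₁ ∈ Subgroup.centralizer (V : Set G) ∨ b₂ ∈ Subgroup.centralizer (V : Set G) ∨
        b₁ * b₂ ∈ Subgroup.centralizer (V : Set G))
    (H4 : ∀ b ∈ Subgroup.normalizer (V : Set G), b * b = 1 →
      ∃ v₁ ∈ V, ∃ v₂ ∈ V, v₁ ≠ 1 ∧ v₂ ≠ 1 ∧ v₁ ≠ v₂ ∧ b * v₁ = v₁ * b ∧ b * v₂ = v₂ * b)
    (g : G)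
    (hne : V.map (MulAut.conj g).toMonoidHom ⊓ Subgroup.normalizer (V : Set G) ≠ ⊥) :
    V.map (MulAut.conj g).toMonoidHom ≤ Subgroup.centralizer (V : Set G) := by
  classical
  have hmem : ∀ x, x ∈ V.map (MulAut.conj g).toMonoidHom ↔ g⁻¹ * x * g ∈ V :=
    mem_conj_iff V g
  have hN : ∀ n, n ∈ Subgroup.normalizer
      ((V.map (MulAut.conj g).toMonoidHom : Subgroup G) : Set G) ↔
      g⁻¹ * n * g ∈ Subgroup.normalizer (V : Set G) := mem_normalizer_conj_iff V g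
  have hcomm := comm_of_exp_two V hexp
  by_cases hg : g ∈ Subgroup.normalizer (V : Set G)
  · intro x hx
    rw [Subgroup.mem_centralizer_iff]
    intro v hv
    have hx' : x ∈ V := by
      have h1 := (hmem x).mp hx
      have h2 := (Subgroup.mem_normalizer_iff.mp hg (g⁻¹ * x * g)).mp h1
      have e : g * (g⁻¹ * x * g) * g⁻¹ = x := by group
      rwa [e] at h2
    exact hcomm v hv x hx'
  · have hTI : ∀ x ∈ V, x ∈ V.map (MulAut.conj g).toMonoidHom → x = 1 := by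
      intro x hx hx'
      by_contra hx1
      apply hg
      apply H2
      intro hbot
      have hxx : x ∈ (V ⊓ V.map (MulAut.conj g).toMonoidHom) := ⟨hx, hx'⟩
      rw [hbot] at hxx
      exact hx1 (Subgroup.mem_bot.mp hxx)
    -- commutation of the two "normalizing parts"
    have hAB : ∀ a ∈ V, a ∈ Subgroup.normalizer
        ((V.map (MulAut.conj g).toMonoidHom : Subgroup G) : Set G) →
        ∀ b ∈ V.map (MulAut.conj g).toMonoidHom, b ∈ Subgroup.normalizer (V : Set G) →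
        a * b = b * a := by
      intro a ha haN b hb hbN
      have h1 : a * b * a⁻¹ * b⁻¹ ∈ V := by
        have h0 : b * a⁻¹ * b⁻¹ ∈ V :=
          (Subgroup.mem_normalizer_iff.mp hbN a⁻¹).mp (V.inv_mem ha)
        have h0' := V.mul_mem ha h0
        have e : a * (b * a⁻¹ * b⁻¹) = a * b * a⁻¹ * b⁻¹ := by group
        rwa [e] at h0'
      have h2 : a * b * a⁻¹ * b⁻¹ ∈ V.map (MulAut.conj g).toMonoidHom := by
        have h0 : a * b * a⁻¹ ∈ V.map (MulAut.conj g).toMonoidHom :=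
          (Subgroup.mem_normalizer_iff.mp haN b).mp hb
        exact Subgroup.mul_mem _ h0 (Subgroup.inv_mem _ hb)
      have h3 := hTI _ h1 h2
      have e : a * b = (a * b * a⁻¹ * b⁻¹) * (b * a) := by group
      rw [e, h3, one_mul]
    -- a nontrivial element of V^g in N(V)
    obtain ⟨b, hb, hb1⟩ : ∃ b, b ∈ (V.map (MulAut.conj g).toMonoidHom ⊓
        Subgroup.normalizer (V : Set G)) ∧ b ≠ 1 := by
      by_contra hcon
      apply hne
      rw [eq_bot_iff]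
      intro x hx
      by_contra hx1
      exact hcon ⟨x, hx, fun h => hx1 (Subgroup.mem_bot.mpr h)⟩
    obtain ⟨hbV, hbN⟩ := Subgroup.mem_inf.mp hb
    have hsq : ∀ x, x ∈ V.map (MulAut.conj g).toMonoidHom → x * x = 1 := by
      intro x hx
      have h0 := hexp _ ((hmem x).mp hx)
      have e : x * x = g * ((g⁻¹ * x * g) * (g⁻¹ * x * g)) * g⁻¹ := by group
      rw [e, h0]
      group
    have hbb : b * b = 1 := hsq b hbV
    -- conjugated (H1)
    have H1' : ∀ u ∈ V.map (MulAut.conj g).toMonoidHom, u ≠ 1 → ∀ c, c * u = u * c →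
        c ∈ Subgroup.normalizer ((V.map (MulAut.conj g).toMonoidHom : Subgroup G) : Set G) := by
      intro u hu hu1 c hc
      rw [hN]
      have hu0 : g⁻¹ * u * g ≠ 1 := by
        intro h
        apply hu1
        have e : u = g * (g⁻¹ * u * g) * g⁻¹ := by group
        rw [e, h]
        group
      apply H1 _ ((hmem u).mp hu) hu0
      rw [Subgroup.mem_centralizer_iff]
      intro h hh
      rw [Set.mem_singleton_iff] at hh
      subst hh
      exact (conj_comm_iff g u c).mpr hc.symm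
    -- conjugated (H3)
    have hcent : ∀ c, g⁻¹ * c * g ∈ Subgroup.centralizer (V : Set G) →
        ∀ x ∈ V.map (MulAut.conj g).toMonoidHom, c * x = x * c := by
      intro c hc x hx
      have hx0 := (hmem x).mp hx
      have h5 := Subgroup.mem_centralizer_iff.mp hc _ hx0
      exact ((conj_comm_iff g x c).mp h5).symm
    have H3' : ∀ a₁ ∈ Subgroup.normalizer
        ((V.map (MulAut.conj g).toMonoidHom : Subgroup G) : Set G),
        ∀ a₂ ∈ Subgroup.normalizer ((V.map (MulAut.conj g).toMonoidHom : Subgroup G) : Set G),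
        a₁ * a₁ = 1 → a₂ * a₂ = 1 → a₁ * a₂ = a₂ * a₁ →
        (∀ x ∈ V.map (MulAut.conj g).toMonoidHom, (a₁ * x = x * a₁ ↔ a₂ * x = x * a₂) ∧
          (a₁ * x = x * a₁ ↔ (a₁ * a₂) * x = x * (a₁ * a₂))) →
        (∀ x ∈ V.map (MulAut.conj g).toMonoidHom, a₁ * x = x * a₁) ∨
        (∀ x ∈ V.map (MulAut.conj g).toMonoidHom, a₂ * x = x * a₂) ∨
        (∀ x ∈ V.map (MulAut.conj g).toMonoidHom, (a₁ * a₂) * x = x * (a₁ * a₂)) := by
      intro a₁ ha₁ a₂ ha₂ h11 h22 h12 hfix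
      have s1 : g⁻¹ * a₁ * g * (g⁻¹ * a₁ * g) = 1 := by
        have e : g⁻¹ * a₁ * g * (g⁻¹ * a₁ * g) = g⁻¹ * (a₁ * a₁) * g := by group
        rw [e, h11]
        group
      have s2 : g⁻¹ * a₂ * g * (g⁻¹ * a₂ * g) = 1 := by
        have e : g⁻¹ * a₂ * g * (g⁻¹ * a₂ * g) = g⁻¹ * (a₂ * a₂) * g := by group
        rw [e, h22]
        group
      have e12 : g⁻¹ * a₁ * g * (g⁻¹ * a₂ * g) = g⁻¹ * (a₁ * a₂) * g := by group
      have hc := H3 (g⁻¹ * a₁ * g) ((hN a₁).mp ha₁) (g⁻¹ * a₂ * g) ((hN a₂).mp ha₂) s1 s2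
        ((conj_comm_iff g a₁ a₂).mpr h12) (by
          intro v hv
          have hv' : g * v * g⁻¹ ∈ V.map (MulAut.conj g).toMonoidHom := by
            rw [hmem]
            have e : g⁻¹ * (g * v * g⁻¹) * g = v := by group
            rw [e]
            exact hv
          refine ⟨(conj_comm_iff' g a₁ v).trans
            (((hfix (g * v * g⁻¹) hv').1).trans (conj_comm_iff' g a₂ v).symm), ?_⟩
          rw [e12]
          exact (conj_comm_iff' g a₁ v).trans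
            (((hfix (g * v * g⁻¹) hv').2).trans (conj_comm_iff' g (a₁ * a₂) v).symm))
      rcases hc with hc | hc | hc
      · exact Or.inl (hcent a₁ hc)
      · exact Or.inr (Or.inl (hcent a₂ hc))
      · rw [e12] at hc
        exact Or.inr (Or.inr (hcent (a₁ * a₂) hc))
    -- two fixed points of b in V
    obtain ⟨v₁, hv₁, v₂, hv₂, hv₁1, hv₂1, hv12, hbv₁, hbv₂⟩ := H4 b hbN hbb
    have hv₁N := H1' b hbV hb1 v₁ hbv₁.symm
    have hv₂N := H1' b hbV hb1 v₂ hbv₂.symm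
    have h6 : ∀ a ∈ V, a ≠ 1 → ∀ x, x * a = a * x → x ∈ Subgroup.normalizer (V : Set G) := by
      intro a ha ha1 x hx
      apply H1 a ha ha1
      rw [Subgroup.mem_centralizer_iff]
      intro h hh
      rw [Set.mem_singleton_iff] at hh
      subst hh
      exact hx.symm
    have ha : v₁ * v₂ ∈ V := V.mul_mem hv₁ hv₂
    have ha1 : v₁ * v₂ ≠ 1 := by
      intro h
      apply hv12
      have h2 : v₂⁻¹ = v₂ := inv_eq_of_mul_eq_one_right (hexp v₂ hv₂)
      have := eq_inv_of_mul_eq_one_left h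
      rw [h2] at this
      exact this
    -- V^g ≤ N(V)
    have haN : v₁ * v₂ ∈ Subgroup.normalizer
        ((V.map (MulAut.conj g).toMonoidHom : Subgroup G) : Set G) :=
      Subgroup.mul_mem _ hv₁N hv₂N
    have hVgN : ∀ x ∈ V.map (MulAut.conj g).toMonoidHom, x ∈ Subgroup.normalizer (V : Set G) := by
      have hfix : ∀ y ∈ V.map (MulAut.conj g).toMonoidHom,
          (v₁ * y = y * v₁ ↔ v₂ * y = y * v₂) ∧
          (v₁ * y = y * v₁ ↔ (v₁ * v₂) * y = y * (v₁ * v₂)) := by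
        intro y hy
        refine ⟨⟨?_, ?_⟩, ⟨?_, ?_⟩⟩
        · intro h
          exact hAB v₂ hv₂ hv₂N y hy (h6 v₁ hv₁ hv₁1 y h.symm)
        · intro h
          exact hAB v₁ hv₁ hv₁N y hy (h6 v₂ hv₂ hv₂1 y h.symm)
        · intro h
          exact hAB (v₁ * v₂) ha haN y hy (h6 v₁ hv₁ hv₁1 y h.symm)
        · intro h
          exact hAB v₁ hv₁ hv₁N y hy (h6 (v₁ * v₂) ha ha1 y h.symm)
      have h7 := H3' v₁ hv₁N v₂ hv₂N (hexp v₁ hv₁) (hexp v₂ hv₂) (hcomm v₁ hv₁ v₂ hv₂) hfix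
      intro x hx
      rcases h7 with h7 | h7 | h7
      · exact h6 v₁ hv₁ hv₁1 x (h7 x hx).symm
      · exact h6 v₂ hv₂ hv₂1 x (h7 x hx).symm
      · exact h6 (v₁ * v₂) ha ha1 x (h7 x hx).symm
    -- the conjugates of v₁, v₂
    have hb₁ : g * v₁ * g⁻¹ ∈ V.map (MulAut.conj g).toMonoidHom := by
      rw [hmem]
      have e : g⁻¹ * (g * v₁ * g⁻¹) * g = v₁ := by group
      rw [e]
      exact hv₁
    have hb₂ : g * v₂ * g⁻¹ ∈ V.map (MulAut.conj g).toMonoidHom := by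
      rw [hmem]
      have e : g⁻¹ * (g * v₂ * g⁻¹) * g = v₂ := by group
      rw [e]
      exact hv₂
    have hb₁1 : g * v₁ * g⁻¹ ≠ 1 := by
      intro h
      apply hv₁1
      have e : v₁ = g⁻¹ * (g * v₁ * g⁻¹) * g := by group
      rw [e, h]
      group
    have hb₂1 : g * v₂ * g⁻¹ ≠ 1 := by
      intro h
      apply hv₂1
      have e : v₂ = g⁻¹ * (g * v₂ * g⁻¹) * g := by group
      rw [e, h]
      group
    have hb₁N := hVgN _ hb₁
    have hb₂N := hVgN _ hb₂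
    have hprod : g * v₁ * g⁻¹ * (g * v₂ * g⁻¹) = g * (v₁ * v₂) * g⁻¹ := by group
    have hprod1 : g * v₁ * g⁻¹ * (g * v₂ * g⁻¹) ≠ 1 := by
      rw [hprod]
      intro h
      apply ha1
      have e : v₁ * v₂ = g⁻¹ * (g * (v₁ * v₂) * g⁻¹) * g := by group
      rw [e, h]
      group
    -- V ≤ N(V^g)
    have hVN : ∀ v ∈ V, v ∈ Subgroup.normalizer
        ((V.map (MulAut.conj g).toMonoidHom : Subgroup G) : Set G) := by
      have hb₁₂ : g * v₁ * g⁻¹ * (g * v₂ * g⁻¹) ∈ V.map (MulAut.conj g).toMonoidHom :=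
        Subgroup.mul_mem _ hb₁ hb₂
      have hb₁₂N : g * v₁ * g⁻¹ * (g * v₂ * g⁻¹) ∈ Subgroup.normalizer (V : Set G) :=
        Subgroup.mul_mem _ hb₁N hb₂N
      have hfix : ∀ y ∈ V, (g * v₁ * g⁻¹ * y = y * (g * v₁ * g⁻¹) ↔
          g * v₂ * g⁻¹ * y = y * (g * v₂ * g⁻¹)) ∧
          (g * v₁ * g⁻¹ * y = y * (g * v₁ * g⁻¹) ↔
          (g * v₁ * g⁻¹ * (g * v₂ * g⁻¹)) * y = y * (g * v₁ * g⁻¹ * (g * v₂ * g⁻¹))) := by
        intro y hy
        refine ⟨⟨?_, ?_⟩, ⟨?_, ?_⟩⟩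
        · intro h
          exact (hAB y hy (H1' _ hb₁ hb₁1 y h.symm) _ hb₂ hb₂N).symm
        · intro h
          exact (hAB y hy (H1' _ hb₂ hb₂1 y h.symm) _ hb₁ hb₁N).symm
        · intro h
          exact (hAB y hy (H1' _ hb₁ hb₁1 y h.symm) _ hb₁₂ hb₁₂N).symm
        · intro h
          exact (hAB y hy (H1' _ hb₁₂ hprod1 y h.symm) _ hb₁ hb₁N).symm
      have hcc : g * v₁ * g⁻¹ * (g * v₂ * g⁻¹) = g * v₂ * g⁻¹ * (g * v₁ * g⁻¹) := by
        have e1 : g * v₁ * g⁻¹ * (g * v₂ * g⁻¹) = g * (v₁ * v₂) * g⁻¹ := by group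
        have e2 : g * v₂ * g⁻¹ * (g * v₁ * g⁻¹) = g * (v₂ * v₁) * g⁻¹ := by group
        rw [e1, e2, hcomm v₁ hv₁ v₂ hv₂]
      have h8 := H3 _ hb₁N _ hb₂N (hsq _ hb₁) (hsq _ hb₂) hcc hfix
      intro v hv
      rcases h8 with h8 | h8 | h8
      · exact H1' _ hb₁ hb₁1 v (Subgroup.mem_centralizer_iff.mp h8 v hv)
      · exact H1' _ hb₂ hb₂1 v (Subgroup.mem_centralizer_iff.mp h8 v hv)
      · exact H1' _ hb₁₂ hprod1 v (Subgroup.mem_centralizer_iff.mp h8 v hv)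
    intro x hx
    rw [Subgroup.mem_centralizer_iff]
    intro v hv
    exact hAB v hv (hVN v hv) x hx (hVgN x hx)

/-- The dichotomy, two-sided form (F1): if `V^a` meets `N_G(V^b)` nontrivially then `V^a` and
`V^b` commute. -/
theorem dich_two (V : Subgroup G)
    (hexp : ∀ v ∈ V, v * v = 1)
    (H1 : ∀ u ∈ V, u ≠ 1 →
      Subgroup.centralizer ({u} : Set G) ≤ Subgroup.normalizer (V : Set G))
    (H2 : ∀ g : G, V ⊓ V.map (MulAut.conj g).toMonoidHom ≠ ⊥ →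
      g ∈ Subgroup.normalizer (V : Set G))
    (H3 : ∀ b₁ ∈ Subgroup.normalizer (V : Set G), ∀ b₂ ∈ Subgroup.normalizer (V : Set G),
      b₁ * b₁ = 1 → b₂ * b₂ = 1 → b₁ * b₂ = b₂ * b₁ →
      (∀ v ∈ V, (b₁ * v = v * b₁ ↔ b₂ * v = v * b₂) ∧
        (b₁ * v = v * b₁ ↔ (b₁ * b₂) * v = v * (b₁ * b₂))) →
      b₁ ∈ Subgroup.centralizer (V : Set G) ∨ b₂ ∈ Subgroup.centralizer (V : Set G) ∨
        b₁ * b₂ ∈ Subgroup.centralizer (V : Set G))
    (H4 : ∀ b ∈ Subgroup.normalizer (V : Set G), b * b = 1 →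
      ∃ v₁ ∈ V, ∃ v₂ ∈ V, v₁ ≠ 1 ∧ v₂ ≠ 1 ∧ v₁ ≠ v₂ ∧ b * v₁ = v₁ * b ∧ b * v₂ = v₂ * b)
    (a b : G)
    (hne : V.map (MulAut.conj a).toMonoidHom ⊓
      Subgroup.normalizer ((V.map (MulAut.conj b).toMonoidHom : Subgroup G) : Set G) ≠ ⊥) :
    V.map (MulAut.conj a).toMonoidHom ≤
      Subgroup.centralizer ((V.map (MulAut.conj b).toMonoidHom : Subgroup G) : Set G) := by
  classical
  have key := dich V hexp H1 H2 H3 H4 (b⁻¹ * a) (by
    intro hbot
    apply hne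
    rw [eq_bot_iff]
    intro x hx
    obtain ⟨hx1, hx2⟩ := Subgroup.mem_inf.mp hx
    have hx' : b⁻¹ * x * b ∈ (V.map (MulAut.conj (b⁻¹ * a)).toMonoidHom ⊓
        Subgroup.normalizer (V : Set G)) := by
      refine Subgroup.mem_inf.mpr ⟨?_, (mem_normalizer_conj_iff V b x).mp hx2⟩
      rw [mem_conj_iff]
      have e : (b⁻¹ * a)⁻¹ * (b⁻¹ * x * b) * (b⁻¹ * a) = a⁻¹ * x * a := by group
      rw [e]
      exact (mem_conj_iff V a x).mp hx1
    rw [hbot] at hx'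
    have h1 : b⁻¹ * x * b = 1 := Subgroup.mem_bot.mp hx'
    have e : x = b * (b⁻¹ * x * b) * b⁻¹ := by group
    rw [Subgroup.mem_bot, e, h1]
    group)
  intro x hx
  rw [Subgroup.mem_centralizer_iff]
  intro y hy
  have hx' : b⁻¹ * x * b ∈ V.map (MulAut.conj (b⁻¹ * a)).toMonoidHom := by
    rw [mem_conj_iff]
    have e : (b⁻¹ * a)⁻¹ * (b⁻¹ * x * b) * (b⁻¹ * a) = a⁻¹ * x * a := by group
    rw [e]
    exact (mem_conj_iff V a x).mp hx
  have hy' : b⁻¹ * y * b ∈ V := (mem_conj_iff V b y).mp hy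
  have h1 := Subgroup.mem_centralizer_iff.mp (key hx') _ hy'
  exact (conj_comm_iff b y x).mp h1

/-- The dichotomy in the element form `(F1)` used by `Cfsg.Agent.H59.PushKill.pushKill`
(`cj V g` there is `V.map (MulAut.conj g).toMonoidHom`). -/
theorem dich_F1 (V : Subgroup G)
    (hexp : ∀ v ∈ V, v * v = 1)
    (H1 : ∀ u ∈ V, u ≠ 1 →
      Subgroup.centralizer ({u} : Set G) ≤ Subgroup.normalizer (V : Set G))
    (H2 : ∀ g : G, V ⊓ V.map (MulAut.conj g).toMonoidHom ≠ ⊥ →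
      g ∈ Subgroup.normalizer (V : Set G))
    (H3 : ∀ b₁ ∈ Subgroup.normalizer (V : Set G), ∀ b₂ ∈ Subgroup.normalizer (V : Set G),
      b₁ * b₁ = 1 → b₂ * b₂ = 1 → b₁ * b₂ = b₂ * b₁ →
      (∀ v ∈ V, (b₁ * v = v * b₁ ↔ b₂ * v = v * b₂) ∧
        (b₁ * v = v * b₁ ↔ (b₁ * b₂) * v = v * (b₁ * b₂))) →
      b₁ ∈ Subgroup.centralizer (V : Set G) ∨ b₂ ∈ Subgroup.centralizer (V : Set G) ∨
        b₁ * b₂ ∈ Subgroup.centralizer (V : Set G))
    (H4 : ∀ b ∈ Subgroup.normalizer (V : Set G), b * b = 1 →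
      ∃ v₁ ∈ V, ∃ v₂ ∈ V, v₁ ≠ 1 ∧ v₂ ≠ 1 ∧ v₁ ≠ v₂ ∧ b * v₁ = v₁ * b ∧ b * v₂ = v₂ * b) :
    ∀ a b : G, V.map (MulAut.conj a).toMonoidHom ⊓
      Subgroup.normalizer ((V.map (MulAut.conj b).toMonoidHom : Subgroup G) : Set G) ≠ ⊥ →
      ∀ u ∈ V.map (MulAut.conj a).toMonoidHom, ∀ v ∈ V.map (MulAut.conj b).toMonoidHom,
        u * v = v * u := by
  intro a b hne u hu v hv
  have h := dich_two V hexp H1 H2 H3 H4 a b hne hu
  exact (Subgroup.mem_centralizer_iff.mp h v hv).symm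

end Cfsg.Agent.H84.JtDich
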