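import Cfsg.Agent.H17.PmLift

set_option autoImplicit false

/-! S2140 pieces (helper17's project): COCY, NOSM, FEQ, LAE and CORE (`b1_core`), plus
`exists_two_forms` (two extra vectors with dual coordinates, for `n ≥ 4`). -/

namespace Cfsg.Agent.H84.Pm

open Cfsg Cfsg.Geo Cfsg.Agent.H17.Mn Cfsg.Agent.H17.Pm
open scoped MatrixGroups Matrix

variable {ι : Type} [Fintype ι] [DecidableEq ι] {F : Type*} [Field F]

/-- A form with value `1` at a vector outside a subspace, vanishing on the subspace. -/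
lemma exists_form_one {V : Type*} [AddCommGroup V] [Module F V] (p : Submodule F V) (v : V)
    (hv : v ∉ p) : ∃ f : V →ₗ[F] F, f v = 1 ∧ ∀ w ∈ p, f w = 0 := by
  obtain ⟨f, hf, hp⟩ := Submodule.exists_le_ker_of_notMem hv
  refine ⟨(f v)⁻¹ • f, ?_, ?_⟩
  · rw [LinearMap.smul_apply, smul_eq_mul, inv_mul_cancel₀ hf]
  · intro w hw
    have : f w = 0 := hp hw
    rw [LinearMap.smul_apply, this, smul_zero]

lemma exists_notMem_span (s : Finset (ι → F)) (hs : s.card < Fintype.card ι) :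
    ∃ u : ι → F, u ∉ Submodule.span F (s : Set (ι → F)) := by
  by_contra hcon
  push Not at hcon
  have htop : Submodule.span F (s : Set (ι → F)) = ⊤ := by
    rw [eq_top_iff]; intro x _; exact hcon x
  have h1 := finrank_span_finset_le_card (R := F) s
  unfold Set.finrank at h1
  rw [htop, finrank_top, Module.finrank_fintype_fun_eq_card] at h1
  omega

/-- Two extra vectors with dual coordinates. -/
lemma exists_two_forms (hn : 4 ≤ Fintype.card ι) (c e : ι → F) :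
    ∃ (u u' : ι → F) (α β : (ι → F) →ₗ[F] F), u ∉ Submodule.span F {c, e} ∧
      α c = 0 ∧ α e = 0 ∧ α u = 1 ∧ α u' = 0 ∧ β c = 0 ∧ β e = 0 ∧ β u = 0 ∧ β u' = 1 := by
  classical
  obtain ⟨u, hu⟩ := exists_notMem_span (F := F) ({c, e} : Finset (ι → F)) (by
    have := Finset.card_le_two (a := c) (b := e); omega)
  obtain ⟨u', hu'⟩ := exists_notMem_span (F := F) ({u, c, e} : Finset (ι → F)) (by
    have := Finset.card_le_three (a := u) (b := c) (c := e); omega)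
  have hu1 : u ∉ Submodule.span F ({c, e} : Set (ι → F)) := by
    simpa using hu
  have hu'1 : u' ∉ Submodule.span F (insert u ({c, e} : Set (ι → F))) := by
    simpa using hu'
  have hu2 : u ∉ Submodule.span F (insert u' ({c, e} : Set (ι → F))) := by
    intro h
    exact hu'1 (mem_span_insert_exchange h hu1)
  obtain ⟨α, hα1, hα2⟩ := exists_form_one _ u hu2
  obtain ⟨β, hβ1, hβ2⟩ := exists_form_one _ u' hu'1
  refine ⟨u, u', α, β, hu1, ?_, ?_, hα1, ?_, ?_, ?_, ?_, hβ1⟩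
  · exact hα2 _ (Submodule.subset_span (by simp))
  · exact hα2 _ (Submodule.subset_span (by simp))
  · exact hα2 _ (Submodule.subset_span (by simp))
  · exact hβ2 _ (Submodule.subset_span (by simp))
  · exact hβ2 _ (Submodule.subset_span (by simp))
  · exact hβ2 _ (Submodule.subset_span (by simp))


theorem lift_cocycle (H : Subgroup (GL ι F)) (c e : ι → F) (hc : c ≠ 0) (hNT : ∀ (x : ι → F) (φ : (ι → F) →ₗ[F] F) (hφ : φ x = 0), H95.tvGL x φ hφ ∈ H → H95.tvGL x φ hφ = 1) (θ θ' : (ι → F) →ₗ[F] F) (hθc : θ c = 0) (hθe : θ e = 0) (hθ'c : θ' c = 0) (hθ'e : θ' e = 0) (hs : (θ + θ') e = 0) (ρ ρ' ρs : (ι → F) →ₗ[F] F) (h : IsLift H c (H95.tvGL e θ hθe) ρ) (h' : IsLift H c (H95.tvGL e θ' hθ'e) ρ') (hs' : IsLift H c (H95.tvGL e (θ + θ') hs) ρs) : ρs = ρ + ρ' - ρ' e • θ := by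
  have hfix : ((H95.tvGL e θ hθe : GL ι F) : Matrix ι ι F) *ᵥ c = (1 : F) • c := by
    rw [H95.tvGL_mulVec, hθc]; simp
  have h1 := isLift_mul H c (1 : F) hfix h h'
  rw [tvGL_mul_form e θ θ' hθe hθ'e hs, comp_tvGL_inv, one_smul] at h1
  have h2 := isLift_unique H c hc hNT hs' h1
  rw [h2]; abel

theorem lift_not_smul (H : Subgroup (GL ι F)) (c e : ι → F) (hce : LinearIndependent F ![c, e]) (hNT : ∀ (x : ι → F) (φ : (ι → F) →ₗ[F] F) (hφ : φ x = 0), H95.tvGL x φ hφ ∈ H → H95.tvGL x φ hφ = 1) (θ : (ι → F) →ₗ[F] F) (hθ0 : θ ≠ 0) (hθc : θ c = 0) (hθe : θ e = 0) (t : F) (h : IsLift H c (H95.tvGL e θ hθe) (t • θ)) : False := by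
  obtain ⟨h1, h2⟩ := h
  have e1 : θ (t • c) = 0 := by rw [map_smul, hθc, smul_zero]
  have e2 : θ (t • c + e) = 0 := by rw [map_add, e1, hθe, add_zero]
  rw [← tvGL_smul t c θ e1 h1, tvGL_mul_centre (t • c) e θ e1 hθe e2] at h2
  have h3 := hNT _ _ _ h2
  have hne : t • c + e ≠ 0 := by
    intro h0
    have := LinearIndependent.pair_iff.mp hce t 1 (by rw [one_smul]; exact h0)
    exact one_ne_zero this.2
  exact hθ0 ((tvGL_eq_one_iff _ hne θ e2).mp h3)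

theorem lift_conj_eq (H : Subgroup (GL ι F)) (c e u : ι → F) (hc : c ≠ 0) (hNT : ∀ (x : ι → F) (φ : (ι → F) →ₗ[F] F) (hφ : φ x = 0), H95.tvGL x φ hφ ∈ H → H95.tvGL x φ hφ = 1) (θ₀ : (ι → F) →ₗ[F] F) (h0c : θ₀ c = 0) (h0e : θ₀ e = 0) (h0u : θ₀ u = 0) (θ : (ι → F) →ₗ[F] F) (hθc : θ c = 0) (hθe : θ e = 0) (hθ' : (θ - θ u • θ₀) e = 0) (κ ρ ρ' : (ι → F) →ₗ[F] F) (hκ : IsLift H c (H95.tvGL u θ₀ h0u) κ) (hρ : IsLift H c (H95.tvGL e θ hθe) ρ) (hρ' : IsLift H c (H95.tvGL e (θ - θ u • θ₀) hθ') ρ') : ρ' = ρ - ρ u • θ₀ + κ e • (θ - θ u • θ₀) := by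
  have hCc : ((H95.tvGL u θ₀ h0u : GL ι F) : Matrix ι ι F) *ᵥ c = (1 : F) • c := by
    rw [H95.tvGL_mulVec, h0c]; simp
  have hCe : ((H95.tvGL u θ₀ h0u : GL ι F) : Matrix ι ι F) *ᵥ e = e := by
    rw [H95.tvGL_mulVec, h0e]; simp
  have hTc : ((H95.tvGL e (θ - θ u • θ₀) hθ' : GL ι F) : Matrix ι ι F) *ᵥ c = (1 : F) • c := by
    rw [H95.tvGL_mulVec]; simp [hθc, h0c]
  -- conjugation
  have e0 := conj_tvGL_aux (H95.tvGL u θ₀ h0u) e θ hθe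
  have hconj := conj_tvGL (H95.tvGL u θ₀ h0u) e θ hθe e0
  have hcomm : H95.tvGL u θ₀ h0u * H95.tvGL e θ hθe =
      H95.tvGL e (θ - θ u • θ₀) hθ' * H95.tvGL u θ₀ h0u := by
    have h1 : H95.tvGL (((H95.tvGL u θ₀ h0u : GL ι F) : Matrix ι ι F) *ᵥ e)
        (θ ∘ₗ Matrix.toLin' (((H95.tvGL u θ₀ h0u)⁻¹ : GL ι F) : Matrix ι ι F)) e0 =
        H95.tvGL e (θ - θ u • θ₀) hθ' := by
      apply H95.gl_ext
      intro v
      rw [H95.tvGL_mulVec, H95.tvGL_mulVec, H95.tvGL_mulVec, h0e, zero_smul, add_zero,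
        comp_tvGL_inv]
    rw [← h1, ← hconj]
    group
  have l1 := isLift_mul H c (1 : F) hCc hκ hρ
  have l2 := isLift_mul H c (1 : F) hTc hρ' hκ
  rw [hcomm] at l1
  have h3 := isLift_unique H c hc hNT l2 l1
  rw [comp_tvGL_inv, comp_tvGL_inv, one_smul, one_smul] at h3
  have h4 : ρ' = κ + (ρ - ρ u • θ₀) - (κ - κ e • (θ - θ u • θ₀)) := by
    rw [← h3]; abel
  rw [h4]; abel


lemma isLift_congr (H : Subgroup (GL ι F)) (c e : ι → F) {θ θ' : (ι → F) →ₗ[F] F} (hθ : θ = θ')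
    (h : θ e = 0) (h' : θ' e = 0) {ρ : (ι → F) →ₗ[F] F}
    (hl : IsLift H c (H95.tvGL e θ h) ρ) : IsLift H c (H95.tvGL e θ' h') ρ := by
  subst hθ; exact hl

theorem lift_apply_e (hn : 4 ≤ Fintype.card ι) (H : Subgroup (GL ι F)) (c e : ι → F) (hce : LinearIndependent F ![c, e]) (hL : ∀ g ∈ specialLinear ι F, ∃ φ, IsLift H c g φ) (hNT : ∀ (x : ι → F) (φ : (ι → F) →ₗ[F] F) (hφ : φ x = 0), H95.tvGL x φ hφ ∈ H → H95.tvGL x φ hφ = 1) (θ : (ι → F) →ₗ[F] F) (hθc : θ c = 0) (hθe : θ e = 0) (ρ : (ι → F) →ₗ[F] F) (h : IsLift H c (H95.tvGL e θ hθe) ρ) : ρ e = 0 := by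
  have hc : c ≠ 0 := hce.ne_zero 0
  obtain ⟨u, u', α, β, hu, hαc, hαe, hαu, hαu', hβc, hβe, hβu, hβu'⟩ := exists_two_forms hn c e
  obtain ⟨θ', hθ'c, hθ'e, hne⟩ : ∃ θ' : (ι → F) →ₗ[F] F, θ' c = 0 ∧ θ' e = 0 ∧
      ∀ a : F, θ' ≠ a • θ := by
    by_cases hα : ∃ a : F, α = a • θ
    · obtain ⟨a, ha⟩ := hα
      refine ⟨β, hβc, hβe, ?_⟩
      intro b hb
      have h1 : a * θ u = 1 := by rw [← hαu, ha]; rfl
      have h2 : b * θ u = 0 := by rw [← hβu, hb]; rfl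
      have h3 : θ u ≠ 0 := by
        intro h0; rw [h0, mul_zero] at h1; exact zero_ne_one h1
      have h4 : b = 0 := by
        rcases mul_eq_zero.mp h2 with h | h
        · exact h
        · exact absurd h h3
      rw [h4, zero_smul] at hb
      rw [hb] at hβu'
      simp at hβu'
    · push Not at hα
      exact ⟨α, hαc, hαe, hα⟩
  have hs : (θ + θ') e = 0 := by simp [hθe, hθ'e]
  have hs2 : (θ' + θ) e = 0 := by simp [hθe, hθ'e]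
  obtain ⟨ρ', hρ'⟩ := hL _ (H95.tvGL_mem_specialLinear e θ' hθ'e)
  obtain ⟨ρs, hρs⟩ := hL _ (H95.tvGL_mem_specialLinear e (θ + θ') hs)
  have hρs2 : IsLift H c (H95.tvGL e (θ' + θ) hs2) ρs :=
    isLift_congr H c e (add_comm θ θ') hs hs2 hρs
  have c1 := lift_cocycle H c e hc hNT θ θ' hθc hθe hθ'c hθ'e hs ρ ρ' ρs h hρ' hρs
  have c2 := lift_cocycle H c e hc hNT θ' θ hθ'c hθ'e hθc hθe hs2 ρ' ρ ρs hρ' h hρs2
  have h5 : ρ e • θ' = ρ' e • θ := by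
    have h6 : ρ + ρ' - ρ' e • θ = ρ + ρ' - ρ e • θ' := by
      rw [← c1, c2, add_comm ρ' ρ]
    exact (sub_right_injective h6).symm
  by_contra hne0
  apply hne ((ρ e)⁻¹ * ρ' e)
  rw [mul_smul, ← h5, smul_smul, inv_mul_cancel₀ hne0, one_smul]

theorem b1_core (hn : 4 ≤ Fintype.card ι) (H : Subgroup (GL ι F)) (c e u : ι → F) (hce : LinearIndependent F ![c, e]) (hu : u ∉ Submodule.span F {c, e}) (hL : ∀ g ∈ specialLinear ι F, ∃ φ, IsLift H c g φ) (hNT : ∀ (x : ι → F) (φ : (ι → F) →ₗ[F] F) (hφ : φ x = 0), H95.tvGL x φ hφ ∈ H → H95.tvGL x φ hφ = 1) (θ₀ : (ι → F) →ₗ[F] F) (h0 : θ₀ ≠ 0) (h0c : θ₀ c = 0) (h0e : θ₀ e = 0) (h0u : θ₀ u = 0) (κ : (ι → F) →ₗ[F] F) (hκ : IsLift H c (H95.tvGL u θ₀ h0u) κ) : κ e ≠ 0 ∧ (2 : F) * κ e = 0 ∧ ∀ θ : (ι → F) →ₗ[F] F, θ c = 0 → θ e = 0 → θ u = 0 → ∃ a : F, κ e • θ = a • θ₀ := by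
  have hc : c ≠ 0 := hce.ne_zero 0
  have key1 : ∀ (θ : (ι → F) →ₗ[F] F) (_ : θ c = 0) (hθe : θ e = 0), θ u = 0 →
      ∀ ρ, IsLift H c (H95.tvGL e θ hθe) ρ → κ e • θ = ρ u • θ₀ := by
    intro θ hθc hθe hθu ρ hρ
    have hθ' : (θ - θ u • θ₀) e = 0 := by simp [hθe, h0e]
    have hEq : θ = θ - θ u • θ₀ := by rw [hθu, zero_smul, sub_zero]
    have hρ' : IsLift H c (H95.tvGL e (θ - θ u • θ₀) hθ') ρ :=
      isLift_congr H c e hEq hθe hθ' hρ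
    have h1 := lift_conj_eq H c e u hc hNT θ₀ h0c h0e h0u θ hθc hθe hθ' κ ρ ρ hκ hρ hρ'
    rw [hθu, zero_smul, sub_zero] at h1
    have h2 : κ e • θ - ρ u • θ₀ = (ρ - ρ u • θ₀ + κ e • θ) - ρ := by abel
    rw [← h1, sub_self] at h2
    exact sub_eq_zero.mp h2
  -- lift of τ(e, θ₀)
  obtain ⟨ρ0, hρ0⟩ := hL _ (H95.tvGL_mem_specialLinear e θ₀ h0e)
  have hii : κ e = ρ0 u := by
    have h1 := key1 θ₀ h0c h0e h0u ρ0 hρ0
    exact smul_left_injective F h0 h1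
  -- θ₁
  obtain ⟨θ₁, h1u, h1p⟩ := exists_form_one (Submodule.span F {c, e}) u hu
  have h1c : θ₁ c = 0 := h1p _ (Submodule.subset_span (by simp))
  have h1e : θ₁ e = 0 := h1p _ (Submodule.subset_span (by simp))
  obtain ⟨ρ1, hρ1⟩ := hL _ (H95.tvGL_mem_specialLinear e θ₁ h1e)
  have hd : (θ₁ - θ₁ u • θ₀) e = 0 := by simp [h1e, h0e]
  obtain ⟨ρd, hρd⟩ := hL _ (H95.tvGL_mem_specialLinear e (θ₁ - θ₁ u • θ₀) hd)
  have f1 := lift_conj_eq H c e u hc hNT θ₀ h0c h0e h0u θ₁ h1c h1e hd κ ρ1 ρd hκ hρ1 hρd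
  have hdc : (θ₁ - θ₁ u • θ₀) c = 0 := by simp [h1c, h0c]
  have hs : ((θ₁ - θ₁ u • θ₀) + θ₀) e = 0 := by simp [h1e, h0e]
  have hEq : θ₁ = (θ₁ - θ₁ u • θ₀) + θ₀ := by rw [h1u, one_smul]; abel
  have hρ1' : IsLift H c (H95.tvGL e ((θ₁ - θ₁ u • θ₀) + θ₀) hs) ρ1 :=
    isLift_congr H c e hEq h1e hs hρ1
  have c1 := lift_cocycle H c e hc hNT (θ₁ - θ₁ u • θ₀) θ₀ hdc hd h0c h0e hs ρd ρ0 ρ1 hρd hρ0 hρ1'
  have hρ0e : ρ0 e = 0 := lift_apply_e hn H c e hce hL hNT θ₀ h0c h0e ρ0 hρ0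
  rw [hρ0e, zero_smul, sub_zero] at c1
  rw [h1u, one_smul] at f1
  -- ρ0 = ρ1 u • θ₀ - κ e • (θ₁ - θ₀)
  have h3 : ρ0 = ρ1 u • θ₀ - κ e • (θ₁ - θ₀) := by
    have : ρ0 = ρ1 - ρd := by rw [c1]; abel
    rw [this, f1]; abel
  have h4 : ρ0 u = - κ e := by
    have := congrArg (fun f : (ι → F) →ₗ[F] F => f u) h3
    simp only [LinearMap.sub_apply, LinearMap.smul_apply, smul_eq_mul, h0u, h1u] at this
    rw [this]; ring
  refine ⟨?_, ?_, ?_⟩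
  · intro hk
    rw [hk, zero_smul, sub_zero] at h3
    rw [h3] at hρ0
    exact lift_not_smul H c e hce hNT θ₀ h0 h0c h0e (ρ1 u) hρ0
  · rw [two_mul]
    nth_rewrite 1 [hii]
    rw [h4, neg_add_cancel]
  · intro θ hθc hθe hθu
    obtain ⟨ρ, hρ⟩ := hL _ (H95.tvGL_mem_specialLinear e θ hθe)
    exact ⟨ρ u, key1 θ hθc hθe hθu ρ hρ⟩

end Cfsg.Agent.H84.Pm
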