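/-
helper84 library: counting the irreducible characters of a block by subsections.

* `conj_eq_of_translate'`, `sum_section_indicator`, `sum_conj_indicator`: counting lemmas for
  `p`-sections.
* `sum_eq_sum_sections`: the average of a class function over `G` as a sum over representatives
  `x` of the classes of `p`-elements of averages over the `p`-regular elements of `C_G(x)`.
* `sum_blockRank_induced`: the sum of the ranks of the blocks of `C_G(x)` inducing `B`.
* `card_block_eq_sum_blockRank`: `k(B) = ∑_x ∑_{b^G = B} l(b)`.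
-/
import Mathlib
import Cfsg.Prelude.Def_Blocks
import Cfsg.Prelude.Def_BlockRank
import Cfsg.Agent.H84.SectionSum2
import Cfsg.Agent.H81.Rank
import Cfsg.Agent.H20.SecondMain

set_option autoImplicit false
set_option linter.style.haveILetI false
set_option linter.unusedSectionVars false
set_option linter.unusedVariables false

namespace Cfsg.Agent.H84

open Cfsg Cfsg.Agent.H4 Cfsg.Agent.H20
open scoped ComplexConjugate

universe u

section SecCount

variable {G : Type u} [Group G] [Finite G]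

/-- If `a` conjugates `x s` to `z w` (`x, z` `p`-elements, `s, w` `p`-regular, commuting), then
it conjugates `x` to `z` and `s` to `w`. -/
theorem conj_eq_of_translate' {p : ℕ} (hp : p.Prime) {x z : G}
    (hx : ∃ k : ℕ, orderOf x = p ^ k) (hz : ∃ k : ℕ, orderOf z = p ^ k) {s w a : G}
    (hxs : x * s = s * x) (hzw : z * w = w * z) (hs : ¬ p ∣ orderOf s) (hw : ¬ p ∣ orderOf w)
    (ha : a * (x * s) * a⁻¹ = z * w) : a * x * a⁻¹ = z ∧ a * s * a⁻¹ = w := by
  have h1 : IsPPart p (z * w) z := ⟨w, rfl, hzw, hz, hw⟩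
  have ho : ∀ v : G, orderOf (a * v * a⁻¹) = orderOf v := fun v =>
    orderOf_injective (MulAut.conj a).toMonoidHom (MulAut.conj a).injective v
  have h2 : IsPPart p (z * w) (a * x * a⁻¹) := by
    refine ⟨a * s * a⁻¹, ?_, ?_, ?_, ?_⟩
    · rw [← ha]; group
    · show (a * x * a⁻¹) * (a * s * a⁻¹) = (a * s * a⁻¹) * (a * x * a⁻¹)
      calc (a * x * a⁻¹) * (a * s * a⁻¹) = a * (x * s) * a⁻¹ := by group
        _ = a * (s * x) * a⁻¹ := by rw [hxs]
        _ = (a * s * a⁻¹) * (a * x * a⁻¹) := by group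
    · obtain ⟨k, hk⟩ := hx
      exact ⟨k, by rw [ho, hk]⟩
    · rw [ho]; exact hs
  have h3 : z = a * x * a⁻¹ := isPPart_unique hp h1 h2
  refine ⟨h3.symm, ?_⟩
  have h4 : (a * x * a⁻¹) * (a * s * a⁻¹) = z * w := by
    rw [← ha]; group
  rw [← h3] at h4
  exact mul_left_cancel h4

/-- For fixed `a`, at most one `p`-regular `s ∈ C_G(x)` has `a (x s) a⁻¹ = z w`, and one exists
iff `a x a⁻¹ = z`. -/
theorem sum_section_indicator {p : ℕ} (hp : p.Prime) (x z w a : G)
    (hx : ∃ k : ℕ, orderOf x = p ^ k) (hz : ∃ k : ℕ, orderOf z = p ^ k)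
    (hzw : z * w = w * z) (hw : ¬ p ∣ orderOf w)
    [Fintype (Subgroup.centralizer ({x} : Set G))] [DecidableEq G] :
    ∑ s : Subgroup.centralizer ({x} : Set G),
      (if ¬ p ∣ orderOf s ∧ a * (x * (s : G)) * a⁻¹ = z * w then (1 : ℂ) else 0) =
      if a * x * a⁻¹ = z then 1 else 0 := by
  have hxC : ∀ c ∈ Subgroup.centralizer ({x} : Set G), x * c = c * x :=
    fun c hc => Subgroup.mem_centralizer_iff.mp hc x rfl
  by_cases h : a * x * a⁻¹ = z
  · rw [if_pos h]
    have hx' : x = a⁻¹ * z * a := by rw [← h]; group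
    have hmem : a⁻¹ * w * a ∈ Subgroup.centralizer ({x} : Set G) := by
      rw [Subgroup.mem_centralizer_iff]
      intro y hy
      rw [Set.mem_singleton_iff] at hy
      rw [hy, hx']
      calc a⁻¹ * z * a * (a⁻¹ * w * a) = a⁻¹ * (z * w) * a := by group
        _ = a⁻¹ * (w * z) * a := by rw [hzw]
        _ = a⁻¹ * w * a * (a⁻¹ * z * a) := by group
    rw [Finset.sum_eq_single (⟨a⁻¹ * w * a, hmem⟩ : Subgroup.centralizer ({x} : Set G))]
    · rw [if_pos]
      refine ⟨?_, ?_⟩
      · rw [← Subgroup.orderOf_coe]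
        show ¬ p ∣ orderOf (a⁻¹ * w * a)
        rw [orderOf_conj_eq a w]
        exact hw
      · show a * (x * (a⁻¹ * w * a)) * a⁻¹ = z * w
        rw [← h]; group
    · intro s _ hne
      rw [if_neg]
      rintro ⟨hs, hs2⟩
      apply hne
      have h3 := (conj_eq_of_translate' hp hx hz (hxC s s.2) hzw
        (by rwa [Subgroup.orderOf_coe]) hw hs2).2
      apply Subtype.ext
      show (s : G) = a⁻¹ * w * a
      rw [← h3]; group
    · intro hh
      exact absurd (Finset.mem_univ _) hh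
  · rw [if_neg h]
    apply Finset.sum_eq_zero
    intro s _
    rw [if_neg]
    rintro ⟨hs, hs2⟩
    exact h (conj_eq_of_translate' hp hx hz (hxC s s.2) hzw
      (by rwa [Subgroup.orderOf_coe]) hw hs2).1

/-- The number of elements conjugating `x` to `z`. -/
theorem sum_conj_indicator [Fintype G] [DecidableEq G] (x z : G) :
    ∑ a : G, (if a * x * a⁻¹ = z then (1 : ℂ) else 0) =
      if IsConj z x then (Nat.card (Subgroup.centralizer ({x} : Set G)) : ℂ) else 0 := by
  classical
  by_cases h : IsConj z x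
  · rw [if_pos h]
    obtain ⟨c, hc⟩ := isConj_iff.mp h
    rw [← Equiv.sum_comp (Equiv.mulLeft c⁻¹)]
    have h1 : ∀ a : G, (if (Equiv.mulLeft c⁻¹ a) * x * (Equiv.mulLeft c⁻¹ a)⁻¹ = z
        then (1 : ℂ) else 0) =
        if a ∈ Subgroup.centralizer ({x} : Set G) then 1 else 0 := by
      intro a
      have hiff : (c⁻¹ * a) * x * (c⁻¹ * a)⁻¹ = z ↔ a ∈ Subgroup.centralizer ({x} : Set G) := by
        rw [Subgroup.mem_centralizer_iff]
        constructor
        · intro h1 y hy
          rw [Set.mem_singleton_iff] at hy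
          rw [hy]
          have h2 : a * x * a⁻¹ = x := by
            calc a * x * a⁻¹ = c * (c⁻¹ * a * x * (c⁻¹ * a)⁻¹) * c⁻¹ := by group
              _ = c * z * c⁻¹ := by rw [h1]
              _ = x := hc
          calc x * a = (a * x * a⁻¹) * a := by rw [h2]
            _ = a * x := by group
        · intro h1
          have h2 := h1 x rfl
          have h3 : a * x * a⁻¹ = x := by
            rw [← h2]; group
          calc (c⁻¹ * a) * x * (c⁻¹ * a)⁻¹ = c⁻¹ * (a * x * a⁻¹) * c := by group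
            _ = c⁻¹ * x * c := by rw [h3]
            _ = z := by rw [← hc]; group
      rw [Equiv.coe_mulLeft]
      by_cases ha : a ∈ Subgroup.centralizer ({x} : Set G)
      · rw [if_pos ha, if_pos (hiff.mpr ha)]
      · rw [if_neg ha, if_neg (fun h' => ha (hiff.mp h'))]
    rw [Finset.sum_congr rfl (fun a _ => h1 a), Finset.sum_boole]
    congr 1
    exact (Nat.subtype_card (Finset.univ.filter (· ∈ Subgroup.centralizer ({x} : Set G)))
      (by simp)).symm
  · rw [if_neg h]
    apply Finset.sum_eq_zero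
    intro a _
    rw [if_neg]
    intro h1
    exact h (isConj_iff.mpr ⟨a⁻¹, by rw [← h1]; group⟩)

/-- **Summation by `p`-sections.**  If `X` is a set of representatives of the classes of
`p`-elements, the average of a class function over `G` is the sum over `x ∈ X` of its averages
over `x s`, `s` a `p`-regular element of `C_G(x)`. -/
theorem sum_eq_sum_sections {p : ℕ} (hp : p.Prime) (X : Finset G)
    (hX : ∀ x ∈ X, ∃ k : ℕ, orderOf x = p ^ k)
    (hXrep : ∀ g : G, (∃ k : ℕ, orderOf g = p ^ k) → ∃! x, x ∈ X ∧ IsConj g x)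
    (Φ : G → ℂ) (hΦ : IsClassFunction G Φ) :
    (Nat.card G : ℂ)⁻¹ * ∑ᶠ g : G, Φ g =
      ∑ x ∈ X, (Nat.card (Subgroup.centralizer ({x} : Set G)) : ℂ)⁻¹ *
        ∑ᶠ s : Subgroup.centralizer ({x} : Set G),
          pRegularPart p (fun s : Subgroup.centralizer ({x} : Set G) => Φ (x * (s : G))) s := by
  classical
  letI := Fintype.ofFinite G
  have hG0 : (Nat.card G : ℂ) ≠ 0 := by
    exact_mod_cast (Nat.card_pos (α := G)).ne'
  -- the contribution of one representative
  have hx : ∀ x ∈ X, ∑ᶠ s : Subgroup.centralizer ({x} : Set G),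
      pRegularPart p (fun s : Subgroup.centralizer ({x} : Set G) => Φ (x * (s : G))) s =
      (Nat.card G : ℂ)⁻¹ * ∑ g : G, Φ g * ∑ a : G,
        ∑ᶠ s : Subgroup.centralizer ({x} : Set G),
          (if ¬ p ∣ orderOf s ∧ a * (x * (s : G)) * a⁻¹ = g then (1 : ℂ) else 0) := by
    intro x hxX
    letI : Fintype (Subgroup.centralizer ({x} : Set G)) := Fintype.ofFinite _
    simp only [finsum_eq_sum_of_fintype]
    have h1 : ∀ g : G, Φ g * ∑ a : G, ∑ s : Subgroup.centralizer ({x} : Set G),
        (if ¬ p ∣ orderOf s ∧ a * (x * (s : G)) * a⁻¹ = g then (1 : ℂ) else 0) =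
        ∑ a : G, ∑ s : Subgroup.centralizer ({x} : Set G),
        (if ¬ p ∣ orderOf s ∧ a * (x * (s : G)) * a⁻¹ = g then Φ g else 0) := by
      intro g
      rw [Finset.mul_sum]
      apply Finset.sum_congr rfl
      intro a _
      rw [Finset.mul_sum]
      apply Finset.sum_congr rfl
      intro s _
      rw [mul_ite, mul_one, mul_zero]
    rw [Finset.sum_congr rfl (fun g _ => h1 g), Finset.sum_comm]
    have h2 : ∀ a : G, ∑ g : G, ∑ s : Subgroup.centralizer ({x} : Set G),
        (if ¬ p ∣ orderOf s ∧ a * (x * (s : G)) * a⁻¹ = g then Φ g else 0) =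
        ∑ s : Subgroup.centralizer ({x} : Set G),
          pRegularPart p (fun s : Subgroup.centralizer ({x} : Set G) => Φ (x * (s : G))) s := by
      intro a
      rw [Finset.sum_comm]
      apply Finset.sum_congr rfl
      intro s _
      by_cases hs : p ∣ orderOf s
      · rw [Cfsg.Agent.H81.pRegularPart_of_dvd p _ hs]
        apply Finset.sum_eq_zero
        intro g _
        rw [if_neg]
        exact fun h => h.1 hs
      · rw [Cfsg.Agent.H81.pRegularPart_of_not_dvd p _ hs,
          Finset.sum_eq_single (a * (x * (s : G)) * a⁻¹)]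
        · rw [if_pos ⟨hs, rfl⟩]
          exact hΦ _ _
        · intro g _ hne
          rw [if_neg]
          exact fun h => hne h.2.symm
        · intro h
          exact absurd (Finset.mem_univ _) h
    rw [Finset.sum_congr rfl (fun a _ => h2 a), Finset.sum_const, Finset.card_univ,
      nsmul_eq_mul, ← Nat.card_eq_fintype_card, ← mul_assoc, inv_mul_cancel₀ hG0, one_mul]
  -- every element lies in exactly one section
  have hN : ∀ g : G, ∑ x ∈ X, (Nat.card (Subgroup.centralizer ({x} : Set G)) : ℂ)⁻¹ *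
      ∑ a : G, ∑ᶠ s : Subgroup.centralizer ({x} : Set G),
        (if ¬ p ∣ orderOf s ∧ a * (x * (s : G)) * a⁻¹ = g then (1 : ℂ) else 0) = 1 := by
    intro g
    obtain ⟨i, j, c, hij, hic, hj⟩ := exists_pPart_decomp hp g
    obtain ⟨z, hzdef⟩ : ∃ z : G, z = g ^ i := ⟨_, rfl⟩
    obtain ⟨w, hwdef⟩ : ∃ w : G, w = g ^ j := ⟨_, rfl⟩
    have hzw : z * w = w * z := by
      rw [hzdef, hwdef, ← pow_add, ← pow_add, add_comm]
    have hg : z * w = g := by
      rw [hzdef, hwdef]
      exact hij
    have hz : ∃ k : ℕ, orderOf z = p ^ k := by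
      have h1 : orderOf z ∣ p ^ c := by
        rw [hzdef]
        exact orderOf_dvd_of_pow_eq_one hic
      obtain ⟨k, -, hk⟩ := (Nat.dvd_prime_pow hp).mp h1
      exact ⟨k, hk⟩
    have hw : ¬ p ∣ orderOf w := by
      rw [hwdef]
      exact hj
    obtain ⟨x₀, ⟨hx₀X, hx₀c⟩, huniq⟩ := hXrep z hz
    rw [Finset.sum_eq_single x₀]
    · letI : Fintype (Subgroup.centralizer ({x₀} : Set G)) := Fintype.ofFinite _
      simp only [finsum_eq_sum_of_fintype]
      rw [← hg, Finset.sum_congr rfl
        (fun a _ => sum_section_indicator hp x₀ z w a (hX x₀ hx₀X) hz hzw hw),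
        sum_conj_indicator, if_pos hx₀c, inv_mul_cancel₀]
      exact_mod_cast (Nat.card_pos (α := Subgroup.centralizer ({x₀} : Set G))).ne'
    · intro x hxX hne
      letI : Fintype (Subgroup.centralizer ({x} : Set G)) := Fintype.ofFinite _
      simp only [finsum_eq_sum_of_fintype]
      rw [← hg, Finset.sum_congr rfl
        (fun a _ => sum_section_indicator hp x z w a (hX x hxX) hz hzw hw),
        sum_conj_indicator, if_neg, mul_zero]
      intro hc
      exact hne (huniq x ⟨hxX, hc⟩)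
    · intro h
      exact absurd hx₀X h
  -- combine
  have h5 : ∀ x ∈ X, (Nat.card (Subgroup.centralizer ({x} : Set G)) : ℂ)⁻¹ *
      ∑ᶠ s : Subgroup.centralizer ({x} : Set G),
        pRegularPart p (fun s : Subgroup.centralizer ({x} : Set G) => Φ (x * (s : G))) s =
      (Nat.card G : ℂ)⁻¹ * ∑ g : G, Φ g *
        ((Nat.card (Subgroup.centralizer ({x} : Set G)) : ℂ)⁻¹ * ∑ a : G,
        ∑ᶠ s : Subgroup.centralizer ({x} : Set G),
          (if ¬ p ∣ orderOf s ∧ a * (x * (s : G)) * a⁻¹ = g then (1 : ℂ) else 0)) := by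
    intro x hxX
    rw [hx x hxX, mul_left_comm, Finset.mul_sum]
    congr 1
    apply Finset.sum_congr rfl
    intro g _
    ring
  rw [Finset.sum_congr rfl h5, ← Finset.mul_sum, Finset.sum_comm, finsum_eq_sum_of_fintype]
  congr 1
  apply Finset.sum_congr rfl
  intro g _
  rw [← Finset.mul_sum, hN g, mul_one]

/-- The sum of the ranks of the blocks of `C = C_G(x)` inducing `B`, as an average over the
`p`-regular elements of `C`. -/
theorem sum_blockRank_induced {p : ℕ} {M : Ideal AlgInt} (hM : IsPModular p M) (x : G)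
    (hx : ∃ k : ℕ, orderOf x = p ^ k)
    (C : Subgroup G) (hxC : ∀ c ∈ C, x * c = c * x) (hCx : ∀ g : G, g * x = x * g → g ∈ C)
    (B : Set (IrrCharacter G))
    (h2 : ∀ χ : IrrCharacter G, ∀ b : Set (IrrCharacter C), IsPBlock M b →
      (χ ∈ B → ¬ IsInducedBlock M C b B → ∀ y : C, ¬ p ∣ orderOf y →
        blockPart b (fun c : C => (χ : G → ℂ) (x * (c : G))) y = 0) ∧
      (χ ∉ B → IsInducedBlock M C b B → ∀ y : C, ¬ p ∣ orderOf y →
        blockPart b (fun c : C => (χ : G → ℂ) (x * (c : G))) y = 0)) :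
    ((∑ᶠ b ∈ {b : Set (IrrCharacter C) | IsInducedBlock M C b B}, blockRank p b : ℕ) : ℂ) =
      (Nat.card C : ℂ)⁻¹ * ∑ᶠ s : C, pRegularPart p
        (fun s : C => ∑ᶠ χ ∈ B, (χ : G → ℂ) (x * (s : G)) *
          conj ((χ : G → ℂ) (x * (s : G)))) s := by
  classical
  letI := Fintype.ofFinite G
  letI : Fintype C := Fintype.ofFinite C
  letI := fintypeIrr G
  letI := fintypeIrr C
  have hMp := isPrime_of_isPModular hM
  obtain ⟨β, hβdef⟩ : ∃ β : Set (IrrCharacter C),
      β = {ψ : IrrCharacter C | IsInducedBlock M C (blockOf M (ψ : C → ℂ)) B} := ⟨_, rfl⟩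
  -- the right-hand side
  have hR : (Nat.card C : ℂ)⁻¹ * ∑ᶠ s : C, pRegularPart p
        (fun s : C => ∑ᶠ χ ∈ B, (χ : G → ℂ) (x * (s : G)) *
          conj ((χ : G → ℂ) (x * (s : G)))) s =
      ∑ ψ : IrrCharacter C, if ψ ∈ β then
        classInner (pRegularPart p (ψ : C → ℂ)) (ψ : C → ℂ) else 0 := by
    rw [finsum_eq_sum_of_fintype]
    have h3 : ∀ s : C, pRegularPart p
        (fun s : C => ∑ᶠ χ ∈ B, (χ : G → ℂ) (x * (s : G)) *
          conj ((χ : G → ℂ) (x * (s : G)))) s =
        ∑ ψ : IrrCharacter C, if ψ ∈ β then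
          pRegularPart p (ψ : C → ℂ) s * conj ((ψ : C → ℂ) s) else 0 := by
      intro s
      by_cases hs : p ∣ orderOf s
      · rw [Cfsg.Agent.H81.pRegularPart_of_dvd p _ hs]
        symm
        apply Finset.sum_eq_zero
        intro ψ _
        rw [Cfsg.Agent.H81.pRegularPart_of_dvd p _ hs, zero_mul, ite_self]
      · rw [Cfsg.Agent.H81.pRegularPart_of_not_dvd p _ hs,
          section_sum_eq hM x hx C hxC hCx B h2 s s hs hs, ← hβdef, finsum_mem_irr]
        apply Finset.sum_congr rfl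
        intro ψ _
        rw [Cfsg.Agent.H81.pRegularPart_of_not_dvd p _ hs]
    rw [Finset.sum_congr rfl (fun s _ => h3 s), Finset.sum_comm, Finset.mul_sum]
    apply Finset.sum_congr rfl
    intro ψ _
    by_cases hψ : ψ ∈ β
    · simp only [if_pos hψ]
      rfl
    · simp only [if_neg hψ, Finset.sum_const_zero, mul_zero]
  rw [hR]
  -- the left-hand side
  have hSfin : {b : Set (IrrCharacter C) | IsInducedBlock M C b B}.Finite := Set.toFinite _
  rw [finsum_mem_eq_finite_toFinset_sum _ hSfin, Nat.cast_sum]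
  have h4 : ∀ b ∈ hSfin.toFinset, (blockRank p b : ℂ) = ∑ ψ : IrrCharacter C,
      if ψ ∈ b then classInner (pRegularPart p (ψ : C → ℂ)) (ψ : C → ℂ) else 0 := by
    intro b hb
    rw [Set.Finite.mem_toFinset] at hb
    obtain ⟨ψb, rfl⟩ := hb.1
    exact Cfsg.Agent.H81.blockRank_eq_sum hM ψb
  rw [Finset.sum_congr rfl h4, Finset.sum_comm]
  apply Finset.sum_congr rfl
  intro ψ _
  by_cases hψ : ψ ∈ β
  · rw [if_pos hψ]
    have hmem : blockOf M (ψ : C → ℂ) ∈ hSfin.toFinset := by
      rw [Set.Finite.mem_toFinset]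
      rw [hβdef] at hψ
      exact hψ
    rw [Finset.sum_eq_single_of_mem _ hmem]
    · rw [if_pos (Cfsg.Agent.H80.mem_blockOf_self hMp ψ)]
    · intro b hb hne
      rw [if_neg]
      intro hψb
      apply hne
      rw [Set.Finite.mem_toFinset] at hb
      obtain ⟨ψb, rfl⟩ := hb.1
      exact (Cfsg.Agent.H80.blockOf_eq_of_mem hMp hψb).symm
  · rw [if_neg hψ]
    apply Finset.sum_eq_zero
    intro b hb
    rw [if_neg]
    intro hψb
    apply hψ
    rw [Set.Finite.mem_toFinset] at hb
    rw [hβdef]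
    show IsInducedBlock M C (blockOf M (ψ : C → ℂ)) B
    obtain ⟨ψb, hbeq⟩ := hb.1
    have h5 : blockOf M (ψ : C → ℂ) = b := by
      rw [hbeq] at hψb ⊢
      exact Cfsg.Agent.H80.blockOf_eq_of_mem hMp hψb
    rw [h5]
    exact hb

/-- **Brauer's count of the characters of a block by subsections**: `k(B) = ∑_x ∑_{b^G = B} l(b)`,
`x` running over representatives of the classes of `p`-elements and `b` over the blocks of
`C_G(x)` inducing `B`. -/
theorem card_block_eq_sum_blockRank {p : ℕ} {M : Ideal AlgInt} (hM : IsPModular p M)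
    (h2 : SecondMain p M G) (B : Set (IrrCharacter G)) (hB : IsPBlock M B) (X : Finset G)
    (hX : ∀ x ∈ X, ∃ k : ℕ, orderOf x = p ^ k)
    (hXrep : ∀ g : G, (∃ k : ℕ, orderOf g = p ^ k) → ∃! x, x ∈ X ∧ IsConj g x) :
    Nat.card B = ∑ x ∈ X,
      ∑ᶠ b ∈ {b : Set (IrrCharacter (Subgroup.centralizer ({x} : Set G))) |
        IsInducedBlock M (Subgroup.centralizer ({x} : Set G)) b B}, blockRank p b := by
  classical
  letI := Fintype.ofFinite G
  letI := fintypeIrr G
  have hp : p.Prime := hM.1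
  have hG0 : (Nat.card G : ℂ) ≠ 0 := by
    exact_mod_cast (Nat.card_pos (α := G)).ne'
  apply Nat.cast_injective (R := ℂ)
  rw [Nat.cast_sum]
  obtain ⟨Φ, hΦdef⟩ : ∃ Φ : G → ℂ,
      Φ = fun g => ∑ᶠ χ ∈ B, (χ : G → ℂ) g * conj ((χ : G → ℂ) g) := ⟨_, rfl⟩
  have hΦ : IsClassFunction G Φ := by
    intro g h
    rw [hΦdef]
    show ∑ᶠ χ ∈ B, (χ : G → ℂ) (h * g * h⁻¹) * conj ((χ : G → ℂ) (h * g * h⁻¹)) =
      ∑ᶠ χ ∈ B, (χ : G → ℂ) g * conj ((χ : G → ℂ) g)
    apply finsum_mem_congr rfl
    intro χ _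
    rw [irr_isClassFunction χ g h]
  have hcard : (Nat.card B : ℂ) = (Nat.card G : ℂ)⁻¹ * ∑ᶠ g : G, Φ g := by
    rw [finsum_eq_sum_of_fintype, hΦdef]
    have h3 : ∀ g : G, ∑ᶠ χ ∈ B, (χ : G → ℂ) g * conj ((χ : G → ℂ) g) =
        ∑ χ : IrrCharacter G, if χ ∈ B then (χ : G → ℂ) g * conj ((χ : G → ℂ) g) else 0 :=
      fun g => finsum_mem_irr B _
    rw [Finset.sum_congr rfl (fun g _ => h3 g), Finset.sum_comm, Finset.mul_sum]
    have h4 : ∀ χ : IrrCharacter G, (Nat.card G : ℂ)⁻¹ * ∑ g : G,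
        (if χ ∈ B then (χ : G → ℂ) g * conj ((χ : G → ℂ) g) else 0) =
        if χ ∈ B then 1 else 0 := by
      intro χ
      by_cases hχ : χ ∈ B
      · simp only [if_pos hχ]
        exact irr_inner_self χ
      · simp only [if_neg hχ, Finset.sum_const_zero, mul_zero]
    rw [Finset.sum_congr rfl (fun χ _ => h4 χ), Finset.sum_boole]
    congr 1
    exact Nat.subtype_card (Finset.univ.filter (· ∈ B)) (by simp)
  rw [hcard, sum_eq_sum_sections hp X hX hXrep Φ hΦ]
  apply Finset.sum_congr rfl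
  intro x hxX
  have hxC : ∀ c ∈ Subgroup.centralizer ({x} : Set G), x * c = c * x :=
    fun c hc => Subgroup.mem_centralizer_iff.mp hc x rfl
  have hCx : ∀ g : G, g * x = x * g → g ∈ Subgroup.centralizer ({x} : Set G) := by
    intro g hg
    rw [Subgroup.mem_centralizer_iff]
    intro w hw
    rw [Set.mem_singleton_iff] at hw
    rw [hw]
    exact hg.symm
  rw [sum_blockRank_induced hM x (hX x hxX) _ hxC hCx B
    (secondMain_both hM h2 x (hX x hxX) B hB), hΦdef]

end SecCount

end Cfsg.Agent.H84
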