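/-
helper84 library: defects of induced blocks and major subsections.

* `defect_le_of_isInducedBlock`: `d(b) ≤ d(b^G)`.
* `exists_brauerPairOf_of_coeff`: if the idempotent of `B` has a unit coefficient at
  `g₁ ∈ C_G(P)`, some Brauer pair `(P, b)` of `B` has a unit coefficient of `e_b` at `g₁`.
* `exists_major_subsection`: a block of positive defect has a Brauer pair `(⟨y⟩, b)` with `y` of
  order `p` and `d(b) ≥ d(B)`.
-/
import Mathlib
import Cfsg.Prelude.Def_Blocks
import Cfsg.Prelude.Def_BrauerPairs
import Cfsg.Agent.H84.SectionSum4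
import Cfsg.Agent.H81.DefectCount
import Cfsg.Agent.H80.MaxPair
import Cfsg.Agent.H20.SecondMain
import Cfsg.Agent.S0906
import Cfsg.Agent.S0908

set_option autoImplicit false
set_option linter.style.haveILetI false
set_option linter.unusedSectionVars false
set_option linter.unusedVariables false

namespace Cfsg.Agent.H84

open Cfsg Cfsg.Agent.H4 Cfsg.Agent.H20 Cfsg.Agent.H80
open scoped ComplexConjugate

universe u

section DefectInduced

variable {G : Type u} [Group G] [Finite G]

/-- The defect of a block is at most the defect of the block it induces. -/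
theorem defect_le_of_isInducedBlock {p : ℕ} [Fact p.Prime] {M : Ideal AlgInt}
    (hM : IsPModular p M) (H : Subgroup G) (b : Set (IrrCharacter H)) (B : Set (IrrCharacter G))
    (hind : IsInducedBlock M H b B) : blockDefect p b ≤ blockDefect p B := by
  classical
  letI : Fintype G := Fintype.ofFinite G
  letI : Fintype H := Fintype.ofFinite H
  have hp : p.Prime := hM.1
  have hMp := isPrime_of_isPModular hM
  obtain ⟨ξ₀, hbe⟩ := hind.1
  obtain ⟨χ₀, hBe⟩ := hind.2.1
  have hχ₀ : χ₀ ∈ B := by
    rw [hBe]
    exact mem_blockOf_self hMp χ₀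
  have hξ₀ : ξ₀ ∈ b := by
    rw [hbe]
    exact mem_blockOf_self hMp ξ₀
  have hE : blockElt B ∈ cfSubring G (localRing M hMp) := by
    rw [hBe]
    exact blockElt_mem hMp χ₀
  have hBR : ∀ g : G, MemLocalRing M (blockCoeff B g) := by
    intro g
    rw [hBe]
    exact blockCoeff_memLocalRing hMp χ₀ g
  have h1 := omega_truncTo_sub_omega_mem hMp H ξ₀ χ₀ (fun g => hind.2.2 ξ₀ hξ₀ χ₀ hχ₀ g) hE
  rw [omega_blockElt, if_pos hχ₀] at h1
  have hex : ∃ h : H, ¬ MemLocalIdeal M (blockCoeff B (h : G)) ∧
      ¬ MemLocalIdeal M (centralChar (ξ₀ : H → ℂ) h) := by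
    by_contra hcon
    push Not at hcon
    have h2 : MemLocalIdeal M (omega (ξ₀ : H → ℂ) (truncTo H (blockElt B))) := by
      apply omega_mem_of_coeff _ (irr_isClassFunction ξ₀) (localIdeal M hMp)
        (isCF_truncTo (isInv_of_isCF H hE.1))
      intro h
      rw [coeff_truncTo, coeff_blockElt]
      by_cases hc : MemLocalIdeal M (blockCoeff B (h : G))
      · exact memLocalIdeal_mul_right hMp hc (centralChar_memLocalRing hMp ξ₀ h)
      · exact memLocalIdeal_mul_left hMp (hBR _) (hcon h hc)
    have h3 := memLocalIdeal_sub hMp h2 h1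
    rw [sub_sub_cancel] at h3
    exact not_memLocalIdeal_one hMp h3
  obtain ⟨h, hh1, hh2⟩ := hex
  have e1 := Cfsg.Agent.H81.defect_ge_of_centralChar hM b hind.1 h ξ₀ hξ₀ hh2
  have e2 := Cfsg.Agent.H81.defect_le_of_blockCoeff hM B hind.2.1 (h : G) (hBR _) hh1
  refine e1.trans (le_trans ?_ e2)
  have hdvd : Nat.card (Subgroup.centralizer ({h} : Set H)) ∣
      Nat.card (Subgroup.centralizer ({(h : G)} : Set G)) := by
    have hle : (Subgroup.centralizer ({h} : Set H)).map H.subtype ≤
        Subgroup.centralizer ({(h : G)} : Set G) := by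
      rintro _ ⟨c, hc, rfl⟩
      rw [Subgroup.mem_centralizer_iff]
      intro w hw
      rw [Set.mem_singleton_iff] at hw
      rw [hw]
      have h5 := Subgroup.mem_centralizer_iff.mp hc h rfl
      exact congrArg Subtype.val h5
    have h6 := Subgroup.card_dvd_of_le hle
    rwa [Subgroup.card_map_of_injective (Subgroup.subtype_injective _)] at h6
  exact (Nat.factorization_le_iff_dvd Nat.card_pos.ne' Nat.card_pos.ne').mpr hdvd p

end DefectInduced

section PairCoeff

variable {G : Type u} [Group G] [Fintype G] {M : Ideal AlgInt}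

/-- If the idempotent of the block `B` has a coefficient outside the local ideal at an element
`g₁` of `C_G(P)`, then some Brauer pair `(P, b)` of `B` has the coefficient of the idempotent of
`b` at `g₁` outside the local ideal. -/
theorem exists_brauerPairOf_of_coeff (p : ℕ) [Fact p.Prime] (hM : IsPModular p M)
    (P : Subgroup G) (hP : IsPGroup p P) (B : Set (IrrCharacter G)) (hB : IsPBlock M B)
    (g₁ : Subgroup.centralizer (P : Set G))
    (hcoeff : ¬ MemLocalIdeal M (blockCoeff B (g₁ : G))) :
    ∃ b : Set (IrrCharacter (Subgroup.centralizer (P : Set G))), IsBrauerPairOf p M B P b ∧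
      ¬ MemLocalIdeal M (blockCoeff b g₁) := by
  classical
  letI : Fintype (Subgroup.centralizer (P : Set G)) := Fintype.ofFinite _
  have hMp := isPrime_of_isPModular hM
  obtain ⟨χ₀, hBe⟩ := hB
  have hE : blockElt B ∈ cfSubring G (localRing M hMp) := by
    rw [hBe]
    exact blockElt_mem hMp χ₀
  have hEE : blockElt B * blockElt B = blockElt B := blockElt_mul_self B
  have hEbr : blockElt B ∈ brRing P hMp := cfSubring_le_brRing P hMp hE
  obtain ⟨w, hwdef⟩ : ∃ w : MonoidAlgebra ℂ (Subgroup.centralizer (P : Set G)),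
      w = truncTo (Subgroup.centralizer (P : Set G)) (blockElt B) := ⟨_, rfl⟩
  have hw : w ∈ cfSubring (Subgroup.centralizer (P : Set G)) (localRing M hMp) := by
    rw [hwdef]
    exact truncTo_mem_of_brRing P hEbr
  have hww : ∀ c, MemLocalIdeal M ((w * w - w).coeff c) := by
    intro c
    have hE' := mem_brRing.mp hEbr
    have h1 := brauer_coeff_mul p hM P hP hE'.1 hE'.1 hE'.2.2 hE'.2.2 c
    rw [hEE] at h1
    have h2 := memLocalIdeal_neg h1
    rw [neg_sub] at h2
    rw [hwdef, MonoidAlgebra.coeff_sub, Finsupp.sub_apply]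
    exact h2
  have hωw : ∀ θ : IrrCharacter (Subgroup.centralizer (P : Set G)),
      omega θ.1 w = brLam P θ.1 (blockElt B) := by
    intro θ
    rw [hwdef]
    rfl
  have hclaim : ∃ ξ : IrrCharacter (Subgroup.centralizer (P : Set G)),
      ¬ MemLocalIdeal M (brLam P ξ.1 (blockElt B)) ∧
      ¬ MemLocalIdeal M (blockCoeff (blockOf M ξ.1) g₁) := by
    by_contra hcon
    push Not at hcon
    have hterm : ∀ b ∈ blocksFinset M (Subgroup.centralizer (P : Set G)),
        MemLocalIdeal M ((w * blockElt b).coeff g₁) := by
      intro b hb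
      obtain ⟨ξb, rfl⟩ := mem_blocksFinset.mp hb
      have heb : blockElt (blockOf M ξb.1) ∈
          cfSubring (Subgroup.centralizer (P : Set G)) (localRing M hMp) := blockElt_mem hMp ξb
      have hebeb := blockElt_mul_self (blockOf M ξb.1)
      have gen : ∀ u : MonoidAlgebra ℂ (Subgroup.centralizer (P : Set G)),
          u ∈ cfSubring (Subgroup.centralizer (P : Set G)) (localRing M hMp) →
          (∀ c, MemLocalIdeal M ((u * u - u).coeff c)) →
          (∀ θ ∈ blockOf M ξb.1, MemLocalIdeal M (omega θ.1 u)) →
          ∀ c, MemLocalIdeal M ((u * blockElt (blockOf M ξb.1)).coeff c) := by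
        intro u hu huu hθ
        have ht : u * blockElt (blockOf M ξb.1) ∈
            cfSubring (Subgroup.centralizer (P : Set G)) (localRing M hMp) :=
          (cfSubring _ _).mul_mem hu heb
        have hω : ∀ θ : IrrCharacter (Subgroup.centralizer (P : Set G)),
            MemLocalIdeal M (omega θ.1 (u * blockElt (blockOf M ξb.1))) := by
          intro θ
          rw [omega_mul θ hu.1, omega_blockElt]
          by_cases hθb : θ ∈ blockOf M ξb.1
          · rw [if_pos hθb, mul_one]
            exact hθ θ hθb
          · rw [if_neg hθb, mul_zero]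
            exact memLocalIdeal_zero hMp
        obtain ⟨n, hn, hpow⟩ := exists_pow_coeff_memLocalIdeal hMp ht hω
        have htt : ∀ c, MemLocalIdeal M
            ((u * blockElt (blockOf M ξb.1) * (u * blockElt (blockOf M ξb.1)) -
              u * blockElt (blockOf M ξb.1)).coeff c) := by
          intro c
          have hc := Cfsg.Agent.H20.isCF_mul_comm heb.1 u
          have e1 : u * blockElt (blockOf M ξb.1) * (u * blockElt (blockOf M ξb.1)) -
              u * blockElt (blockOf M ξb.1) = blockElt (blockOf M ξb.1) * (u * u - u) := by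
            calc u * blockElt (blockOf M ξb.1) * (u * blockElt (blockOf M ξb.1)) -
                u * blockElt (blockOf M ξb.1)
                = u * (blockElt (blockOf M ξb.1) * u) * blockElt (blockOf M ξb.1) -
                  u * blockElt (blockOf M ξb.1) := by noncomm_ring
              _ = u * (u * blockElt (blockOf M ξb.1)) * blockElt (blockOf M ξb.1) -
                  u * blockElt (blockOf M ξb.1) := by rw [hc]
              _ = u * u * (blockElt (blockOf M ξb.1) * blockElt (blockOf M ξb.1)) -
                  u * blockElt (blockOf M ξb.1) := by noncomm_ring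
              _ = u * u * blockElt (blockOf M ξb.1) - u * blockElt (blockOf M ξb.1) := by
                  rw [hebeb]
              _ = (u * u - u) * blockElt (blockOf M ξb.1) := by noncomm_ring
              _ = blockElt (blockOf M ξb.1) * (u * u - u) :=
                  (Cfsg.Agent.H20.isCF_mul_comm heb.1 (u * u - u)).symm
          rw [e1]
          exact coeff_mul_memLocalIdeal hMp heb.2 huu c
        exact coeff_memLocalIdeal_of_idem_of_pow hMp ht.2 htt n hn hpow
      by_cases hξ : MemLocalIdeal M (brLam P ξb.1 (blockElt B))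
      · exact gen w hw hww (fun θ hθ => by
          rw [hωw]
          have h3 := brLam_congr_block P hEbr (ξ := θ) (ξ' := ξb) (sameBlock_symm hθ)
          have h4 := memLocalIdeal_add hMp h3 hξ
          rwa [sub_add_cancel] at h4) g₁
      · have h1 := brLam_idem P p hM hP hEbr hEE ξb hξ
        have hcoef := hcon ξb hξ
        have h1w : (1 - w) ∈ cfSubring (Subgroup.centralizer (P : Set G)) (localRing M hMp) :=
          (cfSubring _ _).sub_mem (cfSubring _ _).one_mem hw
        have h2 := gen (1 - w) h1w (by
            intro c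
            have e3 : (1 - w) * (1 - w) - (1 - w) = w * w - w := by noncomm_ring
            rw [e3]
            exact hww c)
          (fun θ hθ => by
            rw [omega_sub, omega_one_irr, hωw]
            have h3 := brLam_congr_block P hEbr (ξ := θ) (ξ' := ξb) (sameBlock_symm hθ)
            have h4 := memLocalIdeal_neg (memLocalIdeal_add hMp h3 h1)
            convert h4 using 1
            ring) g₁
        have e2 : w * blockElt (blockOf M ξb.1) = blockElt (blockOf M ξb.1) -
            (1 - w) * blockElt (blockOf M ξb.1) := by noncomm_ring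
        rw [e2, MonoidAlgebra.coeff_sub, Finsupp.sub_apply, coeff_blockElt]
        exact memLocalIdeal_sub hMp hcoef h2
    have hsum : w = ∑ b ∈ blocksFinset M (Subgroup.centralizer (P : Set G)),
        w * blockElt b := by
      rw [← Finset.mul_sum, sum_blockElt_blocks hMp, mul_one]
    have hwg : MemLocalIdeal M (w.coeff g₁) := by
      rw [hsum, MonoidAlgebra.coeff_sum, Finsupp.finsetSum_apply]
      exact memLocalIdeal_sum hMp _ _ hterm
    apply hcoeff
    rw [hwdef, coeff_truncTo, coeff_blockElt] at hwg
    exact hwg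
  obtain ⟨ξ, hξ1, hξ2⟩ := hclaim
  refine ⟨blockOf M ξ.1, ⟨⟨hP, ξ, rfl⟩, ⟨χ₀, hBe⟩, fun ξ' hξ' => ?_⟩, hξ2⟩
  rw [brauerOmega_eq P (blockCoeff B) (blockElt B) (fun g => (coeff_blockElt B g).symm)]
  have h1 := brLam_idem P p hM hP hEbr hEE ξ hξ1
  have h2 := brLam_congr_block P hEbr (ξ := ξ') (ξ' := ξ) (sameBlock_symm hξ')
  have h3 := memLocalIdeal_add hMp h2 h1
  rwa [sub_add_sub_cancel] at h3

end PairCoeff

section Major

variable {G : Type u} [Group G] [Finite G]

/-- A block of positive defect has a Brauer pair `(⟨y⟩, b)` with `y` of order `p` (central in a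
defect group) whose block `b` has defect at least the defect of `B`. -/
theorem exists_major_subsection (p : ℕ) [Fact p.Prime] {M : Ideal AlgInt} (hM : IsPModular p M)
    (B : Set (IrrCharacter G)) (hB : IsPBlock M B) (hd : 0 < blockDefect p B) :
    ∃ y : G, orderOf y = p ∧
      ∃ b : Set (IrrCharacter (Subgroup.centralizer ((Subgroup.zpowers y : Subgroup G) : Set G))),
        IsBrauerPairOf p M B (Subgroup.zpowers y) b ∧ blockDefect p B ≤ blockDefect p b := by
  classical
  letI : Fintype G := Fintype.ofFinite G
  have hp : p.Prime := Fact.out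
  have hMp := isPrime_of_isPModular hM
  obtain ⟨g, hg⟩ := Cfsg.Agent.S0906.result p M hM B hB
  obtain ⟨S⟩ : Nonempty (Sylow p (Subgroup.centralizer ({g} : Set G))) := inferInstance
  have hScard := Cfsg.Agent.S0908.result p M hM B hB _ ⟨g, hg, S, rfl⟩
  rw [Subgroup.card_map_of_injective (Subgroup.subtype_injective _)] at hScard
  have hSnt : Nontrivial (S : Subgroup (Subgroup.centralizer ({g} : Set G))) := by
    rw [← Finite.one_lt_card_iff_nontrivial, hScard]
    exact Nat.one_lt_pow hd.ne' hp.one_lt
  have hcnt := IsPGroup.center_nontrivial S.isPGroup'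
  have hZp : IsPGroup p (Subgroup.center (S : Subgroup (Subgroup.centralizer ({g} : Set G)))) :=
    S.isPGroup'.to_subgroup _
  have hpdvd : p ∣ Nat.card (Subgroup.center (S : Subgroup (Subgroup.centralizer ({g} : Set G)))) := by
    obtain ⟨n, hn⟩ := IsPGroup.iff_card.mp hZp
    rw [hn]
    have hn0 : n ≠ 0 := by
      rintro rfl
      rw [pow_zero] at hn
      have := Finite.one_lt_card_iff_nontrivial.mpr hcnt
      omega
    exact dvd_pow_self p hn0
  obtain ⟨y₀, hy₀⟩ := exists_prime_orderOf_dvd_card' p hpdvd
  obtain ⟨y, hydef⟩ : ∃ y : G, y = (((y₀ : (S : Subgroup (Subgroup.centralizer ({g} : Set G)))) :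
      Subgroup.centralizer ({g} : Set G)) : G) := ⟨_, rfl⟩
  have hyord : orderOf y = p := by
    rw [hydef, Subgroup.orderOf_coe, Subgroup.orderOf_coe, Subgroup.orderOf_coe, hy₀]
  have hyg : Commute y g := by
    have h1 : (((y₀ : (S : Subgroup (Subgroup.centralizer ({g} : Set G)))) :
      Subgroup.centralizer ({g} : Set G)) : G) ∈ Subgroup.centralizer ({g} : Set G) :=
      (y₀ : (S : Subgroup (Subgroup.centralizer ({g} : Set G)))).1.2
    rw [← hydef] at h1
    exact (Subgroup.mem_centralizer_iff.mp h1 g rfl).symm
  have hyS : ∀ s : Subgroup.centralizer ({g} : Set G),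
      s ∈ (S : Subgroup (Subgroup.centralizer ({g} : Set G))) → Commute y (s : G) := by
    intro s hs
    have h1 := Subgroup.mem_center_iff.mp y₀.2 ⟨s, hs⟩
    have h2 := congrArg (fun t : (S : Subgroup (Subgroup.centralizer ({g} : Set G))) =>
      ((t : Subgroup.centralizer ({g} : Set G)) : G)) h1
    simp only [Subgroup.coe_mul] at h2
    rw [← hydef] at h2
    exact h2.symm
  have hP : IsPGroup p (Subgroup.zpowers y : Subgroup G) := by
    apply IsPGroup.of_card (n := 1)
    rw [Nat.card_zpowers, hyord, pow_one]
  have hgC : g ∈ Subgroup.centralizer ((Subgroup.zpowers y : Subgroup G) : Set G) := by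
    rw [Subgroup.mem_centralizer_iff]
    intro w hw
    obtain ⟨k, rfl⟩ := Subgroup.mem_zpowers_iff.mp hw
    exact (hyg.zpow_left k).eq
  obtain ⟨b, hpair, hbcoeff⟩ := exists_brauerPairOf_of_coeff p hM (Subgroup.zpowers y) hP B hB
    ⟨g, hgC⟩ hg.2.1
  refine ⟨y, hyord, b, hpair, ?_⟩
  have hb : IsPBlock M b := hpair.1.2
  have h1 : MemLocalRing M (blockCoeff b ⟨g, hgC⟩) := by
    obtain ⟨ξ, rfl⟩ := hb
    exact blockCoeff_memLocalRing hMp ξ _
  have e1 := Cfsg.Agent.H81.defect_le_of_blockCoeff hM b hb ⟨g, hgC⟩ h1 hbcoeff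
  refine le_trans ?_ e1
  have hDle : (S : Subgroup (Subgroup.centralizer ({g} : Set G))).map
      (Subgroup.centralizer ({g} : Set G)).subtype ≤
      (Subgroup.centralizer ({(⟨g, hgC⟩ :
        Subgroup.centralizer ((Subgroup.zpowers y : Subgroup G) : Set G))} :
        Set (Subgroup.centralizer ((Subgroup.zpowers y : Subgroup G) : Set G)))).map
        (Subgroup.centralizer ((Subgroup.zpowers y : Subgroup G) : Set G)).subtype := by
    rintro _ ⟨s, hs, rfl⟩
    have hsC : (s : G) ∈ Subgroup.centralizer ((Subgroup.zpowers y : Subgroup G) : Set G) := by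
      rw [Subgroup.mem_centralizer_iff]
      intro w hw
      obtain ⟨k, rfl⟩ := Subgroup.mem_zpowers_iff.mp hw
      exact ((hyS s hs).zpow_left k).eq
    refine ⟨⟨s, hsC⟩, ?_, rfl⟩
    show _ ∈ Subgroup.centralizer _
    rw [Subgroup.mem_centralizer_iff]
    intro w hw
    rw [Set.mem_singleton_iff] at hw
    rw [hw]
    apply Subtype.ext
    exact Subgroup.mem_centralizer_iff.mp s.2 g rfl
  have h6 := Subgroup.card_dvd_of_le hDle
  rw [Subgroup.card_map_of_injective (Subgroup.subtype_injective _),
    Subgroup.card_map_of_injective (Subgroup.subtype_injective _), hScard] at h6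
  exact (Nat.Prime.pow_dvd_iff_le_factorization hp Nat.card_pos.ne').mp h6

end Major

end Cfsg.Agent.H84
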