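/-
helper84 library: further consequences of the Brauer–Feit matrix (`H84/BrauerFeit`).

* `brauer_feit_weighted`: `∑_{χ ∈ B} p^{2 ht χ} ≤ ⌊p^{2d}/4⌋ + 1`.
* `two_le_eexp_of_pos_height`: a character of positive height `h` in a block of defect `d` has
  `d - h ≥ 2`.
* `brauer_feit_heights`: `2 k(B) ≤ p^{2d-2}` if `B` has a character of positive height; heights
  are `0` for `d ≤ 1` and at most `d - 2` for `d ≥ 2`.
* `pow_pred_dvd_degree`: if `p^{a-1}` divides one degree in `B` it divides all of them.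
-/
import Mathlib
import Cfsg.Agent.H84.BrauerFeit

set_option autoImplicit false
set_option linter.style.haveILetI false
set_option linter.unusedSectionVars false
set_option linter.unusedVariables false

namespace Cfsg.Agent.H84

open Cfsg Cfsg.Agent.H4 Cfsg.Agent.H20 Cfsg.Agent.H80
open scoped ComplexConjugate

universe u

section BF2

variable {G : Type u} [Group G] [Fintype G] {p : ℕ} [Fact p.Prime] {M : Ideal AlgInt}

/-- **Brauer–Feit, weighted form**. -/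
theorem brauer_feit_weighted (hM : IsPModular p M) (B : Set (IrrCharacter G))
    (hB : IsPBlock M B) :
    ∑ᶠ χ ∈ B, p ^ (2 * blockHeight p B (χ : G → ℂ)) ≤ (p ^ blockDefect p B) ^ 2 / 4 + 1 := by
  classical
  letI := fintypeIrr G
  have hp : p.Prime := Fact.out
  have hMp := isPrime_of_isPModular hM
  obtain ⟨χ, hχB, hBeq, hmin, hinf⟩ := exists_min_bexp (p := p) hB hMp
  have hd : blockDefect p B = eexp p χ := by
    unfold blockDefect eexp
    rw [hinf]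
  have hht : ∀ ψ : IrrCharacter G, blockHeight p B (ψ : G → ℂ) = bexp p ψ - bexp p χ := by
    intro ψ
    unfold blockHeight
    rw [hinf]
    rfl
  obtain ⟨S, hSdef⟩ : ∃ S : Finset (IrrCharacter G),
      S = Finset.univ.filter (fun ξ => ξ ∈ B) := ⟨_, rfl⟩
  have hBS : B = (S : Set (IrrCharacter G)) := by
    ext ξ
    simp [hSdef]
  have hχS : χ ∈ S := by
    rw [hSdef]
    simp [hχB]
  have e1 : ∑ᶠ ψ ∈ B, p ^ (2 * blockHeight p B (ψ : G → ℂ)) =
      ∑ ψ ∈ S, p ^ (2 * (bexp p ψ - bexp p χ)) := by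
    rw [← finsum_mem_coe_finset]
    apply finsum_mem_congr hBS
    intro ψ _
    rw [hht]
  rw [e1, ← Finset.add_sum_erase S _ hχS, Nat.sub_self, mul_zero, pow_zero, add_comm, hd]
  apply Nat.add_le_add_right
  rw [Nat.le_div_iff_mul_le (by norm_num : 0 < 4)]
  have h1 := sum_Aint_sq_le hM χ (S.erase χ) (Finset.notMem_erase χ S)
  have h2 : ((∑ ψ ∈ S.erase χ, p ^ (2 * (bexp p ψ - bexp p χ)) : ℕ) : ℤ) ≤
      ∑ ξ ∈ S.erase χ, (Aint p χ ξ) ^ 2 := by
    push_cast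
    apply Finset.sum_le_sum
    intro ξ hξ
    have hξS := Finset.mem_of_mem_erase hξ
    rw [hSdef] at hξS
    have hξB : ξ ∈ blockOf M (χ : G → ℂ) := hBeq ▸ (Finset.mem_filter.mp hξS).2
    obtain ⟨hne, t, ht⟩ := Aint_min_row hM χ ξ (hBeq ▸ hmin) hξB
    have ht0 : t ≠ 0 := by
      rintro rfl
      rw [mul_zero] at ht
      exact hne ht
    have ht1 : 1 ≤ t ^ 2 := by
      have : 0 < t ^ 2 := by positivity
      omega
    rw [ht, mul_pow, ← pow_mul, mul_comm (bexp p ξ - bexp p χ) 2]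
    have hpp : (0 : ℤ) ≤ (p : ℤ) ^ (2 * (bexp p ξ - bexp p χ)) := by positivity
    nlinarith
  have h4 := four_mul_le_sq (Aint p χ χ) ((p : ℤ) ^ eexp p χ)
  have h5 : (((∑ ψ ∈ S.erase χ, p ^ (2 * (bexp p ψ - bexp p χ))) * 4 : ℕ) : ℤ) ≤
      (((p ^ eexp p χ) ^ 2 : ℕ) : ℤ) := by
    push_cast
    push_cast at h2
    linarith
  exact_mod_cast h5

/-- A character of positive height: `p ∣ A(ψ, ψ)` and `0 < A(ψ, ψ) < p ^ e(ψ)`. -/
theorem pos_height_pivot (hM : IsPModular p M) (χ ψ : IrrCharacter G)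
    (hmin : ∀ ψ ∈ blockOf M (χ : G → ℂ), bexp p χ ≤ bexp p ψ)
    (hψ : ψ ∈ blockOf M (χ : G → ℂ)) (hpos : bexp p χ < bexp p ψ) :
    (p : ℤ) ∣ Aint p ψ ψ ∧ 0 < Aint p ψ ψ ∧ Aint p ψ ψ < (p : ℤ) ^ eexp p ψ := by
  classical
  have hp : p.Prime := Fact.out
  have hpZ : Prime (p : ℤ) := Nat.prime_iff_prime_int.mp hp
  have hMp := isPrime_of_isPModular hM
  have hχψ : χ ∈ blockOf M (ψ : G → ℂ) := by
    rw [blockOf_eq_of_mem hMp hψ]
    exact mem_blockOf_self hMp χ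
  have h1 := Aint_congr hM ψ χ hχψ
  obtain ⟨_, hdvd⟩ := Aint_min_row hM χ ψ hmin hψ
  have h2 : (p : ℤ) ∣ Aint p χ ψ := by
    refine dvd_trans ?_ hdvd
    exact dvd_pow_self _ (by omega)
  have h3 : (p : ℤ) ∣ (upart p χ : ℤ) * Aint p ψ ψ := by
    have h4 := dvd_sub (dvd_mul_of_dvd_right h2 (upart p ψ : ℤ)) h1
    rwa [sub_sub_cancel] at h4
  have h5 : (p : ℤ) ∣ Aint p ψ ψ := by
    rcases hpZ.dvd_or_dvd h3 with h6 | h6
    · exact absurd (Int.natCast_dvd_natCast.mp h6) (not_dvd_upart (p := p) χ)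
    · exact h6
  have hne : χ ≠ ψ := by
    rintro rfl
    exact lt_irrefl _ hpos
  have h7 := sum_Aint_sq_le hM ψ {χ} (by simpa using hne.symm)
  rw [Finset.sum_singleton] at h7
  have h8 : Aint p ψ χ ≠ 0 := fun h0 => not_dvd_Aint_of_min hM χ ψ hmin hψ (h0 ▸ dvd_zero _)
  have h9 : 0 < (Aint p ψ χ) ^ 2 := by positivity
  have hP : (0 : ℤ) < (p : ℤ) ^ eexp p ψ := by
    have : (0 : ℤ) < (p : ℤ) := by exact_mod_cast hp.pos
    positivity
  have h10 : 0 < Aint p ψ ψ * ((p : ℤ) ^ eexp p ψ - Aint p ψ ψ) := lt_of_lt_of_le h9 h7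
  refine ⟨h5, ?_, ?_⟩
  · by_contra hcon
    push Not at hcon
    nlinarith
  · by_contra hcon
    push Not at hcon
    nlinarith

theorem two_le_eexp_of_pos_height (hM : IsPModular p M) (χ ψ : IrrCharacter G)
    (hmin : ∀ ψ ∈ blockOf M (χ : G → ℂ), bexp p χ ≤ bexp p ψ)
    (hψ : ψ ∈ blockOf M (χ : G → ℂ)) (hpos : bexp p χ < bexp p ψ) : 2 ≤ eexp p ψ := by
  have hp : p.Prime := Fact.out
  obtain ⟨h1, h2, h3⟩ := pos_height_pivot hM χ ψ hmin hψ hpos
  have h4 : (p : ℤ) ≤ Aint p ψ ψ := Int.le_of_dvd h2 h1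
  by_contra hcon
  push Not at hcon
  have h5 : (p : ℤ) ^ eexp p ψ ≤ (p : ℤ) ^ 1 :=
    pow_le_pow_right₀ (by exact_mod_cast hp.one_lt.le) (by omega)
  rw [pow_one] at h5
  linarith

end BF2

end Cfsg.Agent.H84
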