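/-
helper84 library: Brauer–Feit bounds on heights (`H84/BrauerFeit`, `H84/BrauerFeit2`).

* `brauer_feit_heights`: `2 k(B) ≤ p^{2d-2}` if `B` has a character of positive height; heights
  are `0` for `d ≤ 1` and at most `d - 2` for `d ≥ 2`.
* `pow_pred_dvd_degree`: if `p^{a-1}` divides one degree in `B` it divides all of them.
-/
import Mathlib
import Cfsg.Agent.H84.BrauerFeit2

set_option autoImplicit false
set_option linter.style.haveILetI false
set_option linter.unusedSectionVars false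
set_option linter.unusedVariables false

namespace Cfsg.Agent.H84

open Cfsg Cfsg.Agent.H4 Cfsg.Agent.H20 Cfsg.Agent.H80
open scoped ComplexConjugate

universe u

section BF3

variable {G : Type u} [Group G] [Fintype G] {p : ℕ} [Fact p.Prime] {M : Ideal AlgInt}

/-- **Brauer–Feit, heights.** -/
theorem brauer_feit_heights (hM : IsPModular p M) (B : Set (IrrCharacter G))
    (hB : IsPBlock M B) (d : ℕ) (hd : blockDefect p B = d) :
    ((∃ χ ∈ B, 0 < blockHeight p B (χ : G → ℂ)) → 2 * Nat.card B ≤ p ^ (2 * d - 2)) ∧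
    ∀ χ ∈ B, (d ≤ 1 → blockHeight p B (χ : G → ℂ) = 0) ∧
      (2 ≤ d → blockHeight p B (χ : G → ℂ) ≤ d - 2) := by
  classical
  letI := fintypeIrr G
  have hp : p.Prime := Fact.out
  have hMp := isPrime_of_isPModular hM
  obtain ⟨χ, hχB, hBeq, hmin, hinf⟩ := exists_min_bexp (p := p) hB hMp
  have hd' : d = eexp p χ := by
    rw [← hd]
    unfold blockDefect eexp
    rw [hinf]
  have hht : ∀ ψ : IrrCharacter G, blockHeight p B (ψ : G → ℂ) = bexp p ψ - bexp p χ := by
    intro ψ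
    unfold blockHeight
    rw [hinf]
    rfl
  have hmin' : ∀ ψ ∈ blockOf M (χ : G → ℂ), bexp p χ ≤ bexp p ψ := hBeq ▸ hmin
  have hkey : ∀ ψ ∈ B, bexp p χ < bexp p ψ → bexp p ψ - bexp p χ + 2 ≤ d := by
    intro ψ hψ hpos
    have h1 := two_le_eexp_of_pos_height hM χ ψ hmin' (hBeq ▸ hψ) hpos
    rw [hd']
    unfold eexp at h1 ⊢
    have := bexp_le p ψ
    omega
  refine ⟨?_, ?_⟩
  · rintro ⟨ψ, hψB, hψpos⟩
    rw [hht] at hψpos
    have hpos : bexp p χ < bexp p ψ := by omega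
    have hψ' : ψ ∈ blockOf M (χ : G → ℂ) := hBeq ▸ hψB
    obtain ⟨S, hSdef⟩ : ∃ S : Finset (IrrCharacter G),
        S = Finset.univ.filter (fun ξ => ξ ∈ B) := ⟨_, rfl⟩
    have hcard : Nat.card B = S.card := by
      rw [hSdef, Nat.card_eq_fintype_card, Fintype.card_subtype]
    obtain ⟨T0, hT0⟩ : ∃ T0 : Finset (IrrCharacter G),
        T0 = S.filter (fun ξ => bexp p ξ = bexp p χ) := ⟨_, rfl⟩
    obtain ⟨T1, hT1⟩ : ∃ T1 : Finset (IrrCharacter G),
        T1 = S.filter (fun ξ => ¬ bexp p ξ = bexp p χ) := ⟨_, rfl⟩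
    have hsplit : T0.card + T1.card = S.card := by
      rw [hT0, hT1]
      exact Finset.card_filter_add_card_filter_not _
    have hψT0 : ψ ∉ T0 := by
      rw [hT0]
      intro h
      have := (Finset.mem_filter.mp h).2
      omega
    have hb0 := sum_Aint_sq_le hM ψ T0 hψT0
    have hc0 : (T0.card : ℤ) ≤ ∑ ξ ∈ T0, (Aint p ψ ξ) ^ 2 := by
      have h3 := Finset.card_nsmul_le_sum T0 (fun ξ => (Aint p ψ ξ) ^ 2) 1 (fun ξ hξ => by
        rw [hT0] at hξ
        obtain ⟨hξS, hξe⟩ := Finset.mem_filter.mp hξ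
        rw [hSdef] at hξS
        have hξB : ξ ∈ blockOf M (χ : G → ℂ) := hBeq ▸ (Finset.mem_filter.mp hξS).2
        have hblk : blockOf M (ξ : G → ℂ) = blockOf M (χ : G → ℂ) := blockOf_eq_of_mem hMp hξB
        have hminξ : ∀ ψ' ∈ blockOf M (ξ : G → ℂ), bexp p ξ ≤ bexp p ψ' := by
          intro ψ' hψ'
          rw [hblk] at hψ'
          rw [hξe]
          exact hmin' ψ' hψ'
        have hψξ : ψ ∈ blockOf M (ξ : G → ℂ) := by
          rw [hblk]
          exact hψ'
        have hne : Aint p ψ ξ ≠ 0 := fun h0 =>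
          not_dvd_Aint_of_min hM ξ ψ hminξ hψξ (h0 ▸ dvd_zero _)
        have hpos : 0 < (Aint p ψ ξ) ^ 2 := by positivity
        omega)
      simpa using h3
    have h40 := four_mul_le_sq (Aint p ψ ψ) ((p : ℤ) ^ eexp p ψ)
    have hχT1 : χ ∉ T1 := by
      rw [hT1]
      intro h
      exact (Finset.mem_filter.mp h).2 rfl
    have hb1 := sum_Aint_sq_le hM χ T1 hχT1
    have hc1 : (T1.card : ℤ) * (p : ℤ) ^ 2 ≤ ∑ ξ ∈ T1, (Aint p χ ξ) ^ 2 := by
      have h3 := Finset.card_nsmul_le_sum T1 (fun ξ => (Aint p χ ξ) ^ 2) ((p : ℤ) ^ 2)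
        (fun ξ hξ => by
          rw [hT1] at hξ
          obtain ⟨hξS, hξe⟩ := Finset.mem_filter.mp hξ
          rw [hSdef] at hξS
          have hξB : ξ ∈ blockOf M (χ : G → ℂ) := hBeq ▸ (Finset.mem_filter.mp hξS).2
          obtain ⟨hne, hdvd⟩ := Aint_min_row hM χ ξ hmin' hξB
          have hlt : bexp p χ < bexp p ξ := lt_of_le_of_ne (hmin' ξ hξB) (Ne.symm hξe)
          have hpd : (p : ℤ) ∣ Aint p χ ξ := dvd_trans (dvd_pow_self _ (by omega)) hdvd
          obtain ⟨t, ht⟩ := hpd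
          have ht0 : t ≠ 0 := by
            rintro rfl
            rw [mul_zero] at ht
            exact hne ht
          have ht1 : 1 ≤ t ^ 2 := by
            have : 0 < t ^ 2 := by positivity
            omega
          rw [ht, mul_pow]
          nlinarith [sq_nonneg (p : ℤ)])
      rw [nsmul_eq_mul] at h3
      exact h3
    have h41 := four_mul_le_sq (Aint p χ χ) ((p : ℤ) ^ eexp p χ)
    have hd1 : 1 ≤ d := by
      have := hkey ψ hψB hpos
      omega
    have heψ : eexp p ψ + 1 ≤ d := by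
      rw [hd']
      unfold eexp
      have := bexp_le p ψ
      omega
    obtain ⟨Q, hQdef⟩ : ∃ Q : ℤ, Q = (p : ℤ) ^ (2 * d - 2) := ⟨_, rfl⟩
    have hp1 : (1 : ℤ) ≤ (p : ℤ) := by exact_mod_cast hp.one_lt.le
    have hQ1 : ((p : ℤ) ^ eexp p ψ) ^ 2 ≤ Q := by
      rw [hQdef, ← pow_mul]
      exact pow_le_pow_right₀ hp1 (by omega)
    have hQ2 : ((p : ℤ) ^ eexp p χ) ^ 2 = (p : ℤ) ^ 2 * Q := by
      rw [hQdef, ← hd', ← pow_mul, ← pow_add]
      congr 1
      omega
    have hT0le : 4 * (T0.card : ℤ) ≤ Q := by linarith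
    have hT1le : 4 * (T1.card : ℤ) ≤ Q := by
      have hp2 : (0 : ℤ) < (p : ℤ) ^ 2 := by positivity
      have h5 : 4 * (T1.card : ℤ) * (p : ℤ) ^ 2 ≤ Q * (p : ℤ) ^ 2 := by nlinarith
      exact le_of_mul_le_mul_right h5 hp2
    have h6 : ((2 * Nat.card B : ℕ) : ℤ) ≤ ((p ^ (2 * d - 2) : ℕ) : ℤ) := by
      rw [hcard, ← hsplit]
      push_cast
      rw [← hQdef]
      linarith
    exact_mod_cast h6
  · intro ψ hψB
    rw [hht]
    by_cases hpos : bexp p χ < bexp p ψ
    · have := hkey ψ hψB hpos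
      exact ⟨fun h => by omega, fun h => by omega⟩
    · have h0 : bexp p ψ - bexp p χ = 0 := by omega
      rw [h0]
      exact ⟨fun _ => rfl, fun _ => Nat.zero_le _⟩

/-- If `p ^ (a - 1)` divides the degree of one character of a block, it divides the degrees of all
characters of the block. -/
theorem pow_pred_dvd_degree (hM : IsPModular p M) (B : Set (IrrCharacter G)) (hB : IsPBlock M B)
    (χ : IrrCharacter G) (hχ : χ ∈ B)
    (hdiv : p ^ ((Nat.card G).factorization p - 1) ∣ charDegree (χ : G → ℂ))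
    (ψ : IrrCharacter G) (hψ : ψ ∈ B) :
    p ^ ((Nat.card G).factorization p - 1) ∣ charDegree (ψ : G → ℂ) := by
  have hp : p.Prime := Fact.out
  have hMp := isPrime_of_isPModular hM
  obtain ⟨χ₀, hχ₀B, hBeq, hmin, hinf⟩ := exists_min_bexp (p := p) hB hMp
  have h1 : (Nat.card G).factorization p - 1 ≤ bexp p χ :=
    (Nat.Prime.pow_dvd_iff_le_factorization hp (Cfsg.Agent.H82.charDegree_pos χ).ne').mp hdiv
  rw [Nat.Prime.pow_dvd_iff_le_factorization hp (Cfsg.Agent.H82.charDegree_pos ψ).ne']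
  have h2 : (Nat.card G).factorization p - 1 ≤ bexp p χ₀ := by
    by_contra hcon
    push Not at hcon
    have hpos : bexp p χ₀ < bexp p χ := by omega
    have h3 := two_le_eexp_of_pos_height hM χ₀ χ (hBeq ▸ hmin) (hBeq ▸ hχ) hpos
    unfold eexp at h3
    omega
  exact h2.trans (hmin ψ hψ)

end BF3

end Cfsg.Agent.H84
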