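import Mathlib
import Cfsg.Agent.H48.EpDefs2
import Cfsg.Agent.H18.OhOrtho
import Cfsg.Agent.H62.OhDisc
import Cfsg.Agent.H73.OhSumType

/-!
# EP-JND (helper84, for helper48's S5974 project, wave 2)

For an isometry `T` with `T * T = -1` of a nondegenerate symmetric bilinear space in odd
characteristic: an invariant nondegenerate subspace has even dimension `2 t` and is of plus
type iff `(-1) ^ t` is a square; such subspaces exist for all `2 t ≤ dim V`.

Method: peel invariant planes `⟨v, T v⟩` with `B v v ≠ 0`.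
-/

set_option autoImplicit false

namespace Cfsg.Agent.H84.Ep

open Cfsg.Agent.H45 Cfsg.Agent.H42.Spd Cfsg.Agent.H42.Ti Cfsg.Agent.H48.Ep Module

universe u v

section

variable {F : Type u} [Field F] {V : Type v} [AddCommGroup V] [Module F V]

/-- `T (T v) = -v`. -/
theorem jnd_sq (T : Module.End F V) (hTT : T * T = -1) (v : V) : T (T v) = -v := by
  have h := congrArg (fun f : Module.End F V => f v) hTT
  simpa using h

/-- `B v (T v) = 0`. -/
theorem jnd_orth (B : V →ₗ[F] V →ₗ[F] F) (T : Module.End F V) (h2 : (2 : F) ≠ 0)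
    (hsym : ∀ x y, B x y = B y x) (hiso : ∀ x y, B (T x) (T y) = B x y) (hTT : T * T = -1)
    (v : V) : B v (T v) = 0 := by
  have h1 : B v (T v) = - B v (T v) := by
    calc B v (T v) = B (T v) (T (T v)) := (hiso v (T v)).symm
      _ = B (T v) (-v) := by rw [jnd_sq T hTT]
      _ = - B (T v) v := by rw [map_neg]
      _ = - B v (T v) := by rw [hsym]
  have h3 : (2 : F) * B v (T v) = 0 := by
    rw [two_mul]
    exact eq_neg_iff_add_eq_zero.mp h1
  exact (mul_eq_zero.mp h3).resolve_left h2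

/-- `IsSquare (-(a * a)) ↔ IsSquare (-1)` for `a ≠ 0`. -/
theorem jnd_sq_iff {a : F} (ha : a ≠ 0) : IsSquare ((-1 : F) ^ 1 * (a * a)) ↔ IsSquare (-1 : F) := by
  rw [pow_one]
  constructor
  · rintro ⟨s, hs⟩
    refine ⟨s / a, ?_⟩
    field_simp
    linear_combination hs
  · rintro ⟨s, hs⟩
    refine ⟨s * a, ?_⟩
    linear_combination (a * a) * hs

/-- `(IsSquare (-1) ↔ IsSquare ((-1)^t)) ↔ IsSquare ((-1)^(t+1))`. -/
theorem jnd_pow_iff (t : ℕ) :
    (IsSquare (-1 : F) ↔ IsSquare ((-1 : F) ^ t)) ↔ IsSquare ((-1 : F) ^ (t + 1)) := by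
  by_cases h : IsSquare (-1 : F)
  · have h1 : IsSquare ((-1 : F) ^ t) := h.pow t
    have h2 : IsSquare ((-1 : F) ^ (t + 1)) := h.pow (t + 1)
    exact ⟨fun _ => h2, fun _ => ⟨fun _ => h1, fun _ => h⟩⟩
  · rcases Nat.even_or_odd t with ht | ht
    · have h1 : (-1 : F) ^ t = 1 := ht.neg_one_pow
      have h2 : (-1 : F) ^ (t + 1) = -1 := (ht.add_one).neg_one_pow
      rw [h1, h2]
      constructor
      · intro h3
        exact absurd (h3.mpr IsSquare.one) h
      · intro h3
        exact absurd h3 h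
    · have h1 : (-1 : F) ^ t = -1 := ht.neg_one_pow
      have h2 : (-1 : F) ^ (t + 1) = 1 := (ht.add_one).neg_one_pow
      rw [h1, h2]
      exact ⟨fun _ => IsSquare.one, fun _ => Iff.rfl⟩

variable [Fintype F] [FiniteDimensional F V]

/-- Peeling an invariant nondegenerate plane off an invariant nondegenerate subspace. -/
theorem jnd_peel (B : V →ₗ[F] V →ₗ[F] F) (T : Module.End F V) (h2 : (2 : F) ≠ 0)
    (hsym : ∀ x y, B x y = B y x) (hiso : ∀ x y, B (T x) (T y) = B x y) (hTT : T * T = -1)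
    (W : Submodule F V) (hWi : W ∈ T.invtSubmodule) (hWn : W ⊓ perp B W = ⊥)
    (hpos : 0 < finrank F W) :
    ∃ P W' : Submodule F V, P ≤ W ∧ W' ≤ W ∧ P ∈ T.invtSubmodule ∧ W' ∈ T.invtSubmodule ∧
      P ⊓ perp B P = ⊥ ∧ W' ⊓ perp B W' = ⊥ ∧ W' ≤ perp B P ∧ P ⊔ W' = W ∧ finrank F P = 2 ∧
      finrank F W = 2 + finrank F W' ∧
      (Cfsg.Agent.H95.Oh.Plus B P ↔ IsSquare (-1 : F)) := by
  classical
  have hWT : ∀ x ∈ W, T x ∈ W :=
    fun x hx => (Module.End.mem_invtSubmodule_iff_forall_mem_of_mem T).mp hWi x hx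
  obtain ⟨w, hwW, -, hwn, -⟩ := Cfsg.Agent.H18.Oh.ortho_gen B h2 hsym W hWn
  obtain ⟨v, hvW, hv⟩ : ∃ v ∈ W, B v v ≠ 0 := ⟨w ⟨0, hpos⟩, hwW _, hwn _⟩
  have hvT : B v (T v) = 0 := jnd_orth B T h2 hsym hiso hTT v
  have hTv : B (T v) v = 0 := by rw [hsym]; exact hvT
  have hTT' : B (T v) (T v) = B v v := hiso v v
  -- the plane
  let e : Fin (2 * 1) → V := ![v, T v]
  have he0 : e 0 = v := rfl
  have he1 : e 1 = T v := rfl
  have ho : ∀ a b : Fin (2 * 1), a ≠ b → B (e a) (e b) = 0 := by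
    intro a b hab
    fin_cases a <;> fin_cases b
    · exact absurd rfl hab
    · exact hvT
    · exact hTv
    · exact absurd rfl hab
  have hn : ∀ a : Fin (2 * 1), B (e a) (e a) ≠ 0 := by
    intro a
    fin_cases a
    · exact hv
    · show B (T v) (T v) ≠ 0
      rw [hTT']; exact hv
  have hli : LinearIndependent F e := Cfsg.Agent.H62.Oh.ortho_linInd B e ho hn
  let P : Submodule F V := Submodule.span F (Set.range e)
  have hP2 : finrank F P = 2 := by
    have := finrank_span_eq_card hli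
    rw [this]
    rfl
  have hvP : v ∈ P := Submodule.subset_span ⟨0, rfl⟩
  have hTvP : T v ∈ P := Submodule.subset_span ⟨1, rfl⟩
  have hPmem : ∀ x, x ∈ P ↔ ∃ α β : F, x = α • v + β • T v := by
    intro x
    constructor
    · intro hx
      obtain ⟨c, hc⟩ := (Submodule.mem_span_range_iff_exists_fun F).mp hx
      refine ⟨c 0, c 1, ?_⟩
      rw [← hc]
      exact Fin.sum_univ_two (fun i => c i • e i)
    · rintro ⟨α, β, rfl⟩
      exact P.add_mem (P.smul_mem _ hvP) (P.smul_mem _ hTvP)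
  have hPW : P ≤ W := by
    intro x hx
    obtain ⟨α, β, rfl⟩ := (hPmem x).mp hx
    exact W.add_mem (W.smul_mem _ hvW) (W.smul_mem _ (hWT v hvW))
  have hPT : ∀ x ∈ P, T x ∈ P := by
    intro x hx
    obtain ⟨α, β, rfl⟩ := (hPmem x).mp hx
    rw [map_add, map_smul, map_smul, jnd_sq T hTT]
    exact P.add_mem (P.smul_mem _ hTvP) (P.smul_mem _ (P.neg_mem hvP))
  have hPi : P ∈ T.invtSubmodule :=
    (Module.End.mem_invtSubmodule_iff_forall_mem_of_mem T).mpr (fun x hx => hPT x hx)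
  -- membership in `perp B P`
  have hperpP : ∀ x, x ∈ perp B P ↔ (B v x = 0 ∧ B (T v) x = 0) := by
    intro x
    constructor
    · intro hx
      exact ⟨hx v hvP, hx (T v) hTvP⟩
    · rintro ⟨h1, h2'⟩ u hu
      obtain ⟨α, β, rfl⟩ := (hPmem u).mp hu
      rw [map_add, map_smul, map_smul, LinearMap.add_apply, LinearMap.smul_apply,
        LinearMap.smul_apply, h1, h2', smul_zero, smul_zero, add_zero]
  have hPn : P ⊓ perp B P = ⊥ := by
    rw [eq_bot_iff]
    rintro x ⟨hx1, hx2⟩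
    obtain ⟨α, β, rfl⟩ := (hPmem x).mp hx1
    obtain ⟨h1, h2'⟩ := (hperpP _).mp hx2
    rw [map_add, map_smul, map_smul, hvT, smul_zero, add_zero, smul_eq_mul] at h1
    rw [map_add, map_smul, map_smul, hTv, smul_zero, zero_add, hTT', smul_eq_mul] at h2'
    have hα : α = 0 := (mul_eq_zero.mp h1).resolve_right hv
    have hβ : β = 0 := (mul_eq_zero.mp h2').resolve_right hv
    rw [hα, hβ, zero_smul, zero_smul, add_zero]
    exact Submodule.zero_mem _
  -- the complement
  let W' : Submodule F V := W ⊓ perp B P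
  have hW'W : W' ≤ W := inf_le_left
  have hW'P : W' ≤ perp B P := inf_le_right
  have hW'i : W' ∈ T.invtSubmodule := by
    refine (Module.End.mem_invtSubmodule_iff_forall_mem_of_mem T).mpr (fun x hx => ?_)
    refine ⟨hWT x hx.1, ?_⟩
    intro u hu
    have h1 : B u (T x) = - B (T u) x := by
      calc B u (T x) = B (T u) (T (T x)) := (hiso u (T x)).symm
        _ = B (T u) (-x) := by rw [jnd_sq T hTT]
        _ = - B (T u) x := by rw [map_neg]
    rw [h1, hx.2 (T u) (hPT u hu), neg_zero]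
  have hsup : P ⊔ W' = W := by
    apply le_antisymm (sup_le hPW hW'W)
    intro x hx
    let p : V := (B v x / B v v) • v + (B (T v) x / B v v) • T v
    have hp : p ∈ P := (hPmem p).mpr ⟨_, _, rfl⟩
    have hxp : x - p ∈ W' := by
      refine ⟨W.sub_mem hx (hPW hp), (hperpP _).mpr ⟨?_, ?_⟩⟩
      · rw [map_sub, map_add, map_smul, map_smul, hvT, smul_zero, add_zero, smul_eq_mul,
          div_mul_cancel₀ _ hv, sub_self]
      · rw [map_sub, map_add, map_smul, map_smul, hTv, smul_zero, zero_add, hTT', smul_eq_mul,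
          div_mul_cancel₀ _ hv, sub_self]
    have : x = p + (x - p) := by abel
    rw [this]
    exact Submodule.add_mem_sup hp hxp
  have hW'n : W' ⊓ perp B W' = ⊥ := by
    rw [eq_bot_iff]
    rintro x ⟨hx1, hx2⟩
    rw [← hWn]
    refine ⟨hx1.1, ?_⟩
    intro u hu
    rw [← hsup] at hu
    obtain ⟨p, hp, w', hw', rfl⟩ := Submodule.mem_sup.mp hu
    rw [map_add, LinearMap.add_apply, hx1.2 p hp, hx2 w' hw', add_zero]
  have hdim : finrank F W = 2 + finrank F W' := by
    have hinf : P ⊓ W' = ⊥ := by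
      rw [eq_bot_iff]
      intro x hx
      rw [← hPn]
      exact ⟨hx.1, hW'P hx.2⟩
    have h := Submodule.finrank_sup_add_finrank_inf_eq P W'
    rw [hinf, finrank_bot, hsup, hP2] at h
    omega
  refine ⟨P, W', hPW, hW'W, hPi, hW'i, hPn, hW'n, hW'P, hsup, hP2, hdim, ?_⟩
  have hD := Cfsg.Agent.H62.Oh.disc F V B h2 hsym 1 e ho hn
  have hprod : ∏ a : Fin (2 * 1), B (e a) (e a) = B v v * B v v := by
    have h := Fin.prod_univ_two (fun a : Fin 2 => B (e a) (e a))
    rw [h, he0, he1, hTT']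
  rw [hprod] at hD
  exact hD.trans (jnd_sq_iff hv)

/-- The type of an invariant nondegenerate subspace. -/
theorem jnd_type (B : V →ₗ[F] V →ₗ[F] F) (T : Module.End F V) (h2 : (2 : F) ≠ 0)
    (hsym : ∀ x y, B x y = B y x) (hiso : ∀ x y, B (T x) (T y) = B x y) (hTT : T * T = -1) :
    ∀ (n : ℕ) (W : Submodule F V), finrank F W = n → W ∈ T.invtSubmodule → W ⊓ perp B W = ⊥ →
      ∃ t : ℕ, finrank F W = 2 * t ∧
        (Cfsg.Agent.H95.Oh.Plus B W ↔ IsSquare ((-1 : F) ^ t)) := by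
  intro n
  induction n using Nat.strong_induction_on with
  | _ n ih =>
    intro W hn hWi hWn
    rcases Nat.eq_zero_or_pos n with h0 | hpos
    · refine ⟨0, by omega, ?_⟩
      rw [pow_zero]
      constructor
      · intro _; exact IsSquare.one
      · intro _
        refine ⟨⊥, bot_le, ?_, ?_⟩
        · intro a ha b _
          rw [(Submodule.mem_bot F).mp ha, map_zero, LinearMap.zero_apply]
        · rw [finrank_bot, hn, h0]
    · obtain ⟨P, W', hPW, hW'W, hPi, hW'i, hPn, hW'n, hperp, hsup, hP2, hdim, hPplus⟩ :=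
        jnd_peel B T h2 hsym hiso hTT W hWi hWn (by omega)
      obtain ⟨t', ht', hplus'⟩ := ih (finrank F W') (by omega) W' rfl hW'i hW'n
      have hst := Cfsg.Agent.H73.Oh.sumType Cfsg.Agent.H18.Oh.ortho Cfsg.Agent.H62.Oh.disc
        F V B h2 hsym P W' hPn hW'n hperp (by rw [hP2]; exact even_two)
        (by rw [ht']; exact even_two_mul t')
      rw [hsup] at hst
      refine ⟨t' + 1, by omega, ?_⟩
      rw [hst.2.2, hPplus, hplus']
      exact jnd_pow_iff t'

/-- Existence of invariant nondegenerate subspaces of every even dimension. -/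
theorem jnd_ex (B : V →ₗ[F] V →ₗ[F] F) (T : Module.End F V) (h2 : (2 : F) ≠ 0)
    (hsym : ∀ x y, B x y = B y x) (hiso : ∀ x y, B (T x) (T y) = B x y) (hTT : T * T = -1) :
    ∀ (n : ℕ) (W : Submodule F V), finrank F W = n → W ∈ T.invtSubmodule → W ⊓ perp B W = ⊥ →
      ∀ t : ℕ, 2 * t ≤ n → ∃ W₁ : Submodule F V, W₁ ≤ W ∧ W₁ ∈ T.invtSubmodule ∧
        W₁ ⊓ perp B W₁ = ⊥ ∧ finrank F W₁ = 2 * t := by
  intro n
  induction n using Nat.strong_induction_on with
  | _ n ih =>
    intro W hn hWi hWn t ht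
    rcases t with _ | s
    · refine ⟨⊥, bot_le, ?_, bot_inf_eq _, ?_⟩
      · refine (Module.End.mem_invtSubmodule_iff_forall_mem_of_mem T).mpr (fun x hx => ?_)
        rw [(Submodule.mem_bot F).mp hx, map_zero]
        exact Submodule.zero_mem _
      · rw [finrank_bot]
    · obtain ⟨P, W', hPW, hW'W, hPi, hW'i, hPn, hW'n, hperp, hsup, hP2, hdim, -⟩ :=
        jnd_peel B T h2 hsym hiso hTT W hWi hWn (by omega)
      obtain ⟨W₁, hW₁, hW₁i, hW₁n, hW₁d⟩ :=
        ih (finrank F W') (by omega) W' rfl hW'i hW'n s (by omega)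
      have hst := Cfsg.Agent.H73.Oh.sumType Cfsg.Agent.H18.Oh.ortho Cfsg.Agent.H62.Oh.disc
        F V B h2 hsym P W₁ hPn hW₁n (hW₁.trans hperp) (by rw [hP2]; exact even_two)
        (by rw [hW₁d]; exact even_two_mul s)
      refine ⟨P ⊔ W₁, sup_le hPW (hW₁.trans hW'W), ?_, hst.1, ?_⟩
      · refine (Module.End.mem_invtSubmodule_iff_forall_mem_of_mem T).mpr (fun x hx => ?_)
        obtain ⟨p, hp, w, hw, rfl⟩ := Submodule.mem_sup.mp hx
        show T (p + w) ∈ P ⊔ W₁
        rw [map_add]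
        exact Submodule.add_mem_sup
          ((Module.End.mem_invtSubmodule_iff_forall_mem_of_mem T).mp hPi p hp)
          ((Module.End.mem_invtSubmodule_iff_forall_mem_of_mem T).mp hW₁i w hw)
      · rw [hst.2.1, hP2, hW₁d]
        omega

end

/-- EP-JND. -/
theorem jNd : StJNd.{u, v} := by
  intro F _ _ V _ _ _ B T h2 hsym hnd hiso hTT
  refine ⟨fun W hWi hWn => jnd_type B T h2 hsym hiso hTT _ W rfl hWi hWn, fun t ht => ?_⟩
  have htop : (⊤ : Submodule F V) ⊓ perp B ⊤ = ⊥ := by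
    rw [eq_bot_iff]
    rintro x ⟨-, hx⟩
    rw [Submodule.mem_bot]
    apply hnd
    intro y
    rw [hsym]
    exact hx y Submodule.mem_top
  have hti : (⊤ : Submodule F V) ∈ T.invtSubmodule :=
    (Module.End.mem_invtSubmodule_iff_forall_mem_of_mem T).mpr (fun x _ => Submodule.mem_top)
  obtain ⟨W₁, -, h1, h2', h3⟩ := jnd_ex B T h2 hsym hiso hTT _ ⊤ rfl hti htop t
    (by rw [finrank_top]; exact ht)
  exact ⟨W₁, h1, h2', h3⟩

example : Cfsg.Agent.H48.Ep.StJNd.{u, v} := jNd

end Cfsg.Agent.H84.Ep
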