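import Mathlib
import Cfsg.Agent.H48.EpDefs2
import Cfsg.Agent.H62.Ev2BrP
import Cfsg.Agent.H84.EpJNd

/-!
# EP-TWONEG (helper84, for helper48's S5974 project, wave 2)

Odd characteristic: an isometry `x` of the plus space with `x * x = -1` fixes a nondegenerate
plus-type `m`-space (`m` even, `2 ≤ m < d`) iff `-1` is a square or `4 ∣ m`.
-/

set_option autoImplicit false

namespace Cfsg.Agent.H84.Ep

open Cfsg.Agent.H45 Cfsg.Agent.H42.Spd Cfsg.Agent.H42.Ti Cfsg.Agent.H48.Ep Module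

universe u

/-- EP-TWONEG. -/
theorem twoNeg (hJ : StJNd.{u, u}) : StTwoNeg.{u} := by
  intro F _ _ d m h2 hm2 hme hmd x hx hxx
  obtain ⟨B, hBp, hsym, hnd, hBQ, -, -, hiso⟩ := Cfsg.Agent.H62.Ev2.brP F d h2
  obtain ⟨T, hT⟩ : ∃ T : Module.End F (Fin d ⊕ Fin d → F),
      T = Matrix.toLin' (x : Matrix (Fin d ⊕ Fin d) (Fin d ⊕ Fin d) F) := ⟨_, rfl⟩
  have hTiso : ∀ a b, B (T a) (T b) = B a b := by
    rw [hT]
    exact (hiso x).mp hx
  have hTT : T * T = -1 := by
    apply LinearMap.ext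
    intro v
    show T (T v) = -v
    rw [hT, Matrix.toLin'_apply, Matrix.toLin'_apply, Matrix.mulVec_mulVec, hxx,
      Matrix.neg_mulVec, Matrix.one_mulVec]
  obtain ⟨hJ1, hJ2⟩ := hJ F (Fin d ⊕ Fin d → F) B T h2 hsym hnd hTiso hTT
  have hnd_iff : ∀ W : Submodule F (Fin d ⊕ Fin d → F),
      (∀ u ∈ W, u ≠ 0 → ∃ v ∈ W, QuadraticMap.polar (Cfsg.quadFormPlus d F) u v ≠ 0) ↔
        W ⊓ perp B W = ⊥ := by
    intro W
    constructor
    · intro h
      rw [eq_bot_iff]
      rintro y ⟨hy1, hy2⟩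
      rw [Submodule.mem_bot]
      by_contra hy0
      obtain ⟨v, hv, hvy⟩ := h y hy1 hy0
      apply hvy
      rw [← hBp, hsym]
      exact hy2 v hv
    · intro h u hu hu0
      by_contra hcon
      push Not at hcon
      apply hu0
      have : u ∈ W ⊓ perp B W := by
        refine ⟨hu, fun v hv => ?_⟩
        rw [hsym, hBp]
        exact hcon v hv
      rw [h] at this
      exact (Submodule.mem_bot F).mp this
  have hti_iff : ∀ U : Submodule F (Fin d ⊕ Fin d → F),
      (∀ u ∈ U, Cfsg.quadFormPlus d F u = 0) ↔ TI B U := by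
    intro U
    constructor
    · intro hs u hu v hv
      rw [hBp, QuadraticMap.polar, hs _ (U.add_mem hu hv), hs u hu, hs v hv]
      simp
    · intro hti u hu
      have h := hti u hu u hu
      rw [hBQ] at h
      exact (mul_eq_zero.mp h).resolve_left h2
  have hfin : finrank F (Fin d ⊕ Fin d → F) = 2 * d := by
    rw [Module.finrank_fintype_fun_eq_card, Fintype.card_sum, Fintype.card_fin]
    omega
  constructor
  · rintro ⟨W, ⟨hWm, hWnd, U, hUW, hUd, hUs⟩, hWinv⟩
    have hWi : W ∈ T.invtSubmodule := by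
      rw [Module.End.mem_invtSubmodule_iff_map_le, hT]
      exact hWinv
    obtain ⟨t, ht, hpl⟩ := hJ1 W hWi ((hnd_iff W).mp hWnd)
    have hP : Cfsg.Agent.H95.Oh.Plus B W := ⟨U, hUW, (hti_iff U).mp hUs, by rw [hUd, hWm]⟩
    have hsq : IsSquare ((-1 : F) ^ t) := hpl.mp hP
    by_cases h1 : IsSquare (-1 : F)
    · exact Or.inl h1
    · right
      rcases Nat.even_or_odd t with hte | hto
      · obtain ⟨k, hk⟩ := hte
        omega
      · rw [hto.neg_one_pow] at hsq
        exact absurd hsq h1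
  · intro h
    obtain ⟨t, ht⟩ := hme
    obtain ⟨W, hWi, hWn, hWd⟩ := hJ2 t (by rw [hfin]; omega)
    obtain ⟨t', ht', hpl⟩ := hJ1 W hWi hWn
    have htt : t' = t := by omega
    subst htt
    have hsq : IsSquare ((-1 : F) ^ t') := by
      rcases h with h | h
      · exact h.pow _
      · have he : Even t' := by
          rcases Nat.even_or_odd t' with he | ho
          · exact he
          · obtain ⟨k, hk⟩ := ho
            omega
        rw [he.neg_one_pow]
        exact IsSquare.one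
    obtain ⟨U, hUW, hUti, hUd⟩ := hpl.mpr hsq
    refine ⟨W, ⟨by omega, (hnd_iff W).mpr hWn, U, hUW, by omega, (hti_iff U).mpr hUti⟩, ?_⟩
    have := (Module.End.mem_invtSubmodule_iff_map_le T).mp hWi
    rw [hT] at this
    exact this

example (hJ : Cfsg.Agent.H48.Ep.StJNd.{u, u}) : Cfsg.Agent.H48.Ep.StTwoNeg.{u} := twoNeg hJ

/-- EP-TWONEG, hypothesis-free (with EP-JND plugged in). -/
theorem twoNeg0 : StTwoNeg.{u} := twoNeg jNd

example : Cfsg.Agent.H48.Ep.StTwoNeg.{u} := twoNeg0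

end Cfsg.Agent.H84.Ep
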