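import Mathlib
import Cfsg.Agent.H85.PtExDefs

/-!
# S5973-EX-NONSCAL (helper84, for helper85's S5973-EXEVEN sub-tree)

For `i = ord_r(q)` even, an endomorphism with `g ^ r = 1` whose fixed space is proper is not a
scalar.
-/

set_option autoImplicit false

namespace Cfsg.Agent.H84.PtEx

open Cfsg.Agent.H45 Cfsg.Agent.H42.Ti Cfsg.Agent.H77.Tq Cfsg.Agent.H77.Tm Cfsg.Agent.H85.PtEx
  Module Polynomial

universe u

/-- S5973-EX-NONSCAL. -/
theorem nonScal : StNonScal.{u} := by
  intro F _ _ V _ _ _ r g z hr hev hgr hlt hgz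
  classical
  subst hgz
  by_cases hz1 : z = 1
  · subst hz1
    rw [one_smul, sub_self, LinearMap.ker_zero, finrank_top] at hlt
    exact lt_irrefl _ hlt
  · -- `V ≠ 0`
    have hV : 0 < Module.finrank F V := lt_of_le_of_lt (Nat.zero_le _) hlt
    obtain ⟨v, hv⟩ : ∃ v : V, v ≠ 0 := by
      have : Nontrivial V := Module.finrank_pos_iff.mp hV
      exact exists_ne 0
    have hzr : z ^ r = 1 := by
      have h1 : ((z • (1 : Module.End F V)) ^ r) v = v := by rw [hgr]; rfl
      rw [_root_.smul_pow, one_pow] at h1
      have h2 : (z ^ r - 1) • v = 0 := by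
        rw [sub_smul, one_smul]
        have : (z ^ r • (1 : Module.End F V)) v = z ^ r • v := rfl
        rw [← this, h1, sub_self]
      rcases smul_eq_zero.mp h2 with h3 | h3
      · exact sub_eq_zero.mp h3
      · exact absurd h3 hv
    have hz0 : z ≠ 0 := by
      rintro rfl
      rw [zero_pow hr.ne_zero] at hzr
      exact zero_ne_one hzr
    have hord : orderOf z = r := by
      have hd : orderOf z ∣ r := orderOf_dvd_of_pow_eq_one hzr
      rcases (Nat.dvd_prime hr).mp hd with h | h
      · exact absurd (orderOf_eq_one_iff.mp h) hz1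
      · exact h
    have hdvd : r ∣ Fintype.card F - 1 := by
      have h1 : orderOf (Units.mk0 z hz0) = r := by
        rw [← orderOf_units, Units.val_mk0, hord]
      have h2 := orderOf_dvd_card (x := Units.mk0 z hz0)
      rw [h1, Fintype.card_units] at h2
      exact h2
    have hq : 1 ≤ Fintype.card F := Fintype.card_pos
    have hcast : ((Fintype.card F : ℕ) : ZMod r) = 1 := by
      have h1 : ((Fintype.card F - 1 : ℕ) : ZMod r) = 0 :=
        (ZMod.natCast_eq_zero_iff _ _).mpr hdvd
      have h2 : Fintype.card F = (Fintype.card F - 1) + 1 := by omega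
      rw [h2, Nat.cast_add, h1, zero_add, Nat.cast_one]
    have hii : ii F r = 1 := by
      unfold ii
      rw [hcast, orderOf_one]
    rw [hii] at hev
    exact absurd hev (by decide)

example : Cfsg.Agent.H85.PtEx.StNonScal.{u} := nonScal

end Cfsg.Agent.H84.PtEx
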