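import Mathlib
import Cfsg.Agent.H85.PtExDefs
import Cfsg.Agent.H32.TiModAdd

/-!
# S5973-EX-PRODFIX (helper84, for helper85's S5973-EXEVEN sub-tree)

The orthogonal sum of a fixed-point-free model `(V, Q, g)` and a nondegenerate space `(C, QC)`
with the identity.
-/

set_option autoImplicit false

namespace Cfsg.Agent.H84.PtEx

open Cfsg.Agent.H45 Cfsg.Agent.H42.Ti Cfsg.Agent.H77.Tq Cfsg.Agent.H77.Tm Cfsg.Agent.H85.PtEx
  Module Polynomial

universe u

/-- Powers of a product map. -/
theorem prodMap_pow_one {F : Type*} [Field F] {V₁ V₂ : Type*} [AddCommGroup V₁] [Module F V₁]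
    [AddCommGroup V₂] [Module F V₂] (g : Module.End F V₁) (n : ℕ) :
    (g.prodMap (1 : Module.End F V₂) : Module.End F (V₁ × V₂)) ^ n
      = (g ^ n).prodMap (1 : Module.End F V₂) := by
  induction n with
  | zero =>
    rw [pow_zero, pow_zero]
    exact LinearMap.prodMap_one.symm
  | succ n ih =>
    rw [pow_succ, ih, pow_succ]
    apply LinearMap.ext
    rintro ⟨x, y⟩
    rfl

/-- `aeval 1 φ` is the scalar `φ(1)`. -/
theorem aeval_one_end {F : Type*} [Field F] {C : Type*} [AddCommGroup C] [Module F C]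
    (φ : F[X]) : aeval (1 : Module.End F C) φ = algebraMap F (Module.End F C) (φ.eval 1) := by
  have h := Polynomial.aeval_algebraMap_apply (A := F) (Module.End F C) (1 : F) φ
  rw [map_one] at h
  rw [h, Polynomial.coe_aeval_eq_eval]

/-- S5973-EX-PRODFIX. -/
theorem prodFix : StProdFix.{u} := by
  intro F _ _ V _ _ _ C _ _ _ r Q g QC h hker hC
  have hgr : (g.prodMap (1 : Module.End F C) : Module.End F (V × C)) ^ r = 1 := by
    rw [prodMap_pow_one, h.pow]
    exact LinearMap.prodMap_one
  refine ⟨⟨h.prime, h.ne_two, h.cast_ne, ?_, ?_, hgr⟩, ?_, ?_⟩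
  · rintro ⟨v, c⟩ hx
    apply Prod.ext
    · apply h.nondeg
      intro y
      have := hx (y, 0)
      rw [QuadraticMap.polar_prod] at this
      simpa using this
    · apply hC
      intro y
      have := hx (0, y)
      rw [QuadraticMap.polar_prod] at this
      simpa using this
  · rintro ⟨v, c⟩
    have h1 : (g.prodMap (1 : Module.End F C) : Module.End F (V × C)) (v, c) = (g v, c) := rfl
    rw [h1, QuadraticMap.prod_apply, QuadraticMap.prod_apply, h.isom]
  · have h1 : (g.prodMap (1 : Module.End F C) : Module.End F (V × C)) - 1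
        = (g - 1).prodMap (0 : Module.End F C) := by
      apply LinearMap.ext
      rintro ⟨x, y⟩
      simp only [LinearMap.sub_apply, LinearMap.prodMap_apply, Module.End.one_apply,
        Prod.mk_sub_mk, sub_self, LinearMap.zero_apply]
    rw [h1, Cfsg.Agent.H32.Ti.ker_prodMap, Cfsg.Agent.H32.Ti.finrank_prod_sub, hker,
      LinearMap.ker_zero, finrank_bot, zero_add, finrank_top]
  · intro φ hφ
    have hr : Fact r.Prime := ⟨h.prime⟩
    have he : φ.eval 1 ≠ 0 := by
      obtain ⟨ψ, hψ⟩ := hφ
      intro h0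
      have h1 : (cyclotomic r F).eval 1 = (r : F) := Polynomial.eval_one_cyclotomic_prime
      rw [hψ, Polynomial.eval_mul, h0, zero_mul] at h1
      exact h.cast_ne h1.symm
    have h2 : LinearMap.ker (aeval (1 : Module.End F C) φ) = ⊥ := by
      rw [aeval_one_end, LinearMap.ker_eq_bot']
      intro x hx
      rw [Module.algebraMap_end_apply] at hx
      rcases smul_eq_zero.mp hx with h3 | h3
      · exact absurd h3 he
      · exact h3
    rw [Cfsg.Agent.H32.Ti.aeval_prodMap, Cfsg.Agent.H32.Ti.ker_prodMap,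
      Cfsg.Agent.H32.Ti.finrank_prod_sub, h2, finrank_bot, add_zero]

example : Cfsg.Agent.H85.PtEx.StProdFix.{u} := prodFix

end Cfsg.Agent.H84.PtEx
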