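import Mathlib
import Cfsg.Agent.H85.PtExDefs

/-!
# S5973-EX-TSPROD (helper84, for helper85's S5973-EXEVEN sub-tree)

The product of two totally singular subspaces is totally singular in the orthogonal sum, and
dimensions add.
-/

set_option autoImplicit false

namespace Cfsg.Agent.H84.PtEx

open Cfsg.Agent.H45 Cfsg.Agent.H42.Ti Cfsg.Agent.H77.Tq Cfsg.Agent.H77.Tm Cfsg.Agent.H85.PtEx
  Module Polynomial

universe u

/-- The dimension of a product of subspaces. -/
theorem finrank_prod_sub' {F : Type*} [Field F] {V₁ V₂ : Type*} [AddCommGroup V₁] [Module F V₁]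
    [AddCommGroup V₂] [Module F V₂] [FiniteDimensional F V₁] [FiniteDimensional F V₂]
    (K₁ : Submodule F V₁) (K₂ : Submodule F V₂) :
    Module.finrank F ↥(K₁.prod K₂) = Module.finrank F ↥K₁ + Module.finrank F ↥K₂ := by
  rw [← Module.finrank_prod]
  exact LinearEquiv.finrank_eq
    { toFun := fun x => (⟨x.1.1, x.2.1⟩, ⟨x.1.2, x.2.2⟩)
      invFun := fun y => ⟨(y.1.1, y.2.1), ⟨y.1.2, y.2.2⟩⟩
      map_add' := fun _ _ => rfl
      map_smul' := fun _ _ => rfl
      left_inv := fun _ => rfl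
      right_inv := fun _ => rfl }

/-- S5973-EX-TSPROD. -/
theorem tsProd : StTsProd.{u} := by
  intro F _ V _ _ _ C _ _ _ Q QC L N hL hN
  refine ⟨?_, finrank_prod_sub' L N⟩
  rintro ⟨v, c⟩ ⟨hv, hc⟩
  have h1 : Q v = 0 := hL v hv
  have h2 : QC c = 0 := hN c hc
  rw [QuadraticMap.prod_apply, h1, h2, add_zero]

example : Cfsg.Agent.H85.PtEx.StTsProd.{u} := tsProd

end Cfsg.Agent.H84.PtEx
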