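import Cfsg.Agent.H48.SpUDefs

/-!
# S2316 piece LAGADAPT (helper84)

For `X` in the affine space `{X | J X + Xᵀ J = -J}` with `X (X + 1)` nilpotent, the generalized
kernels of `X` and of `X + 1` are complementary Lagrangians; a symplectic frame adapted to them
conjugates `X` to `fromBlocks N 0 0 (-1 - Nᵀ)` with `N` nilpotent.
-/

set_option autoImplicit false

open Matrix Cfsg.Agent.H48.SpU

namespace Cfsg.Agent.H84.SpU

universe u

section

variable {F : Type*} [Field F]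

/-- If `Aᵀ M = M B` then `p(A)ᵀ M = M p(B)` for every polynomial `p`. -/
theorem aeval_transpose_mul {n : Type*} [Fintype n] [DecidableEq n] (M A B : Matrix n n F)
    (h : Aᵀ * M = M * B) (p : Polynomial F) :
    (Polynomial.aeval A p)ᵀ * M = M * Polynomial.aeval B p := by
  induction p using Polynomial.induction_on with
  | C a =>
    simp only [Polynomial.aeval_C, Algebra.algebraMap_eq_smul_one, transpose_smul, transpose_one,
      Matrix.smul_mul, Matrix.mul_smul, Matrix.one_mul, Matrix.mul_one]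
  | add p q hp hq => simp only [map_add, transpose_add, Matrix.add_mul, Matrix.mul_add, hp, hq]
  | monomial n a ih =>
    have e1 : (Polynomial.C a * Polynomial.X ^ (n + 1) : Polynomial F)
        = (Polynomial.C a * Polynomial.X ^ n) * Polynomial.X := by ring
    have e2 : (Polynomial.C a * Polynomial.X ^ (n + 1) : Polynomial F)
        = Polynomial.X * (Polynomial.C a * Polynomial.X ^ n) := by ring
    conv_lhs => rw [e1]
    conv_rhs => rw [e2]
    rw [map_mul (Polynomial.aeval A) (Polynomial.C a * Polynomial.X ^ n) Polynomial.X,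
      map_mul (Polynomial.aeval B) Polynomial.X (Polynomial.C a * Polynomial.X ^ n),
      Polynomial.aeval_X, Polynomial.aeval_X, transpose_mul, Matrix.mul_assoc,
      ih, ← Matrix.mul_assoc, h, Matrix.mul_assoc]

/-- Rank factorization of an idempotent matrix of rank `card κ`. -/
theorem exists_rank_factor {n κ : Type*} [Fintype n] [DecidableEq n] [Fintype κ] [DecidableEq κ]
    (E : Matrix n n F) (hEE : E * E = E) (hr : E.rank = Fintype.card κ) :
    ∃ (C : Matrix n κ F) (R : Matrix κ n F), C * R = E ∧ R * C = 1 := by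
  classical
  let W := LinearMap.range E.mulVecLin
  have hW : Module.finrank F W = Fintype.card κ := hr
  let bW : Module.Basis κ F W :=
    (Module.finBasis F W).reindex (Fintype.equivOfCardEq (by rw [Fintype.card_fin, hW]))
  let c₁ : (κ → F) →ₗ[F] (n → F) := W.subtype ∘ₗ bW.equivFun.symm.toLinearMap
  let r : (n → F) →ₗ[F] (κ → F) := bW.equivFun.toLinearMap ∘ₗ E.mulVecLin.rangeRestrict
  have hc₁r : c₁ ∘ₗ r = E.mulVecLin := by
    apply LinearMap.ext
    intro v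
    simp [c₁, r]
  have hfix : ∀ w : W, E.mulVecLin.rangeRestrict (w : n → F) = w := by
    rintro ⟨w, v, rfl⟩
    apply Subtype.ext
    simp [Matrix.mulVec_mulVec, hEE]
  have hrc₁ : r ∘ₗ c₁ = LinearMap.id := by
    apply LinearMap.ext
    intro x
    simp only [r, c₁, LinearMap.comp_apply, LinearEquiv.coe_coe, Submodule.subtype_apply, hfix,
      LinearEquiv.apply_symm_apply, LinearMap.id_apply]
  refine ⟨LinearMap.toMatrix' c₁, LinearMap.toMatrix' r, ?_, ?_⟩
  · rw [← LinearMap.toMatrix'_comp, hc₁r, ← Matrix.toLin'_apply', LinearMap.toMatrix'_toLin']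
  · rw [← LinearMap.toMatrix'_comp, hrc₁, LinearMap.toMatrix'_id]

end

theorem lagAdapt : LagAdaptStmt.{u} := by
  intro F _ _ ι _ _ X hX
  obtain ⟨hA, k, hk⟩ := hX
  obtain ⟨Jm, hJm⟩ : ∃ Jm : Matrix (ι ⊕ ι) (ι ⊕ ι) F, Jm = Matrix.J ι F := ⟨_, rfl⟩
  rw [← hJm] at hA ⊢
  have hJJ : Jm * Jm = -1 := by rw [hJm]; exact Matrix.J_squared ι F
  have hJt : Jmᵀ = -Jm := by rw [hJm]; exact Matrix.J_transpose ι F
  have hJdet : IsUnit Jm.det := by rw [hJm]; exact Matrix.isUnit_det_J ι F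
  obtain ⟨T, hT⟩ : ∃ T : Polynomial F, T = Polynomial.X := ⟨_, rfl⟩
  obtain ⟨φ, hφ⟩ : ∃ φ : Polynomial F →ₐ[F] Matrix (ι ⊕ ι) (ι ⊕ ι) F, φ = Polynomial.aeval X :=
    ⟨_, rfl⟩
  have hφT : φ T = X := by rw [hφ, hT, Polynomial.aeval_X]
  have hcop : IsCoprime (T ^ k) ((T + 1) ^ k) := by
    apply IsCoprime.pow
    exact ⟨-1, 1, by ring⟩
  obtain ⟨a, b, hab⟩ := hcop
  have hzero : ∀ p : Polynomial F, φ (p * (T ^ k * (T + 1) ^ k)) = 0 := by
    intro p
    have h0 : φ (T ^ k * (T + 1) ^ k) = 0 := by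
      rw [← mul_pow, map_pow, map_mul, map_add, map_one, hφT]
      exact hk
    rw [map_mul, h0, mul_zero]
  -- the transpose rule
  have hσ : Xᵀ * Jm = Jm * (-(X + 1)) := by
    have h1 : Xᵀ * Jm = -Jm - Jm * X := by rw [← hA]; abel
    rw [h1, Matrix.mul_neg, Matrix.mul_add, Matrix.mul_one]; abel
  have htr : ∀ p : Polynomial F, (φ p)ᵀ * Jm = Jm * φ (p.comp (-(T + 1))) := by
    intro p
    have h1 := aeval_transpose_mul Jm X (-(X + 1)) hσ p
    have h2 : φ (p.comp (-(T + 1))) = Polynomial.aeval (-(X + 1)) p := by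
      rw [hφ, Polynomial.aeval_comp, map_neg, map_add, map_one, ← hφ, hφT]
    rw [h2, hφ]; exact h1
  -- the two projections
  obtain ⟨e, he⟩ : ∃ e : Polynomial F, e = b * (T + 1) ^ k := ⟨_, rfl⟩
  obtain ⟨e', he'⟩ : ∃ e' : Polynomial F, e' = a * T ^ k := ⟨_, rfl⟩
  obtain ⟨E, hE⟩ : ∃ E : Matrix (ι ⊕ ι) (ι ⊕ ι) F, E = φ e := ⟨_, rfl⟩
  obtain ⟨E', hE'⟩ : ∃ E' : Matrix (ι ⊕ ι) (ι ⊕ ι) F, E' = φ e' := ⟨_, rfl⟩
  have hEE' : E + E' = 1 := by
    rw [hE, hE', ← map_add, he, he', add_comm, hab, map_one]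
  have hE'eq : E' = 1 - E := by rw [← hEE']; abel
  have hcompT : (T + 1).comp (-(T + 1)) = -T := by
    rw [hT]; simp
  have hcompT' : T.comp (-(T + 1)) = -(T + 1) := by
    rw [hT]; simp only [Polynomial.X_comp]
  have hEi : Eᵀ * Jm * E = 0 := by
    rw [hE, htr, Matrix.mul_assoc, ← map_mul]
    have h1 : e.comp (-(T + 1)) * e
        = (b.comp (-(T + 1)) * b * (-1) ^ k) * (T ^ k * (T + 1) ^ k) := by
      rw [he, Polynomial.mul_comp, Polynomial.pow_comp, hcompT, neg_pow]; ring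
    rw [h1, hzero, Matrix.mul_zero]
  have he'c : e'.comp (-(T + 1)) * e'
      = (a.comp (-(T + 1)) * a * (-1) ^ k) * (T ^ k * (T + 1) ^ k) := by
    rw [he', Polynomial.mul_comp, Polynomial.pow_comp, hcompT', neg_pow]; ring
  have hE'i : E'ᵀ * Jm * E' = 0 := by
    rw [hE', htr, Matrix.mul_assoc, ← map_mul, he'c, hzero, Matrix.mul_zero]
  have hE'i2 : E' * Jm * E'ᵀ = 0 := by
    have h1 : E'ᵀ = Jm * φ (e'.comp (-(T + 1))) * (-Jm) := by
      rw [← htr, ← hE', Matrix.mul_assoc, Matrix.mul_neg, hJJ, neg_neg, Matrix.mul_one]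
    have h2 : E' * φ (e'.comp (-(T + 1))) = 0 := by
      rw [hE', ← map_mul, mul_comm, he'c, hzero]
    calc E' * Jm * E'ᵀ = E' * (Jm * Jm) * φ (e'.comp (-(T + 1))) * (-Jm) := by
          rw [h1]; simp only [Matrix.mul_assoc]
      _ = (E' * φ (e'.comp (-(T + 1)))) * Jm := by
          rw [hJJ]; simp only [Matrix.mul_neg, Matrix.neg_mul, Matrix.mul_one, neg_neg]
      _ = 0 := by rw [h2, Matrix.zero_mul]
  have hE'JE : E' * Jm * Eᵀ = E' * Jm := by
    have h1 : E'ᵀ = 1 - Eᵀ := by rw [hE'eq, transpose_sub, transpose_one]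
    have h0 := hE'i2
    rw [h1, Matrix.mul_sub, Matrix.mul_one, sub_eq_zero] at h0
    exact h0.symm
  have hEmulE' : E * E' = 0 := by
    rw [hE, hE', ← map_mul]
    have h1 : e * e' = (a * b) * (T ^ k * (T + 1) ^ k) := by rw [he, he']; ring
    rw [h1, hzero]
  have hEE : E * E = E := by
    have h1 : E * E = E * (1 - E') := by rw [← hEE']; congr 1; abel
    rw [h1, Matrix.mul_sub, hEmulE', Matrix.mul_one, sub_zero]
  have hEX : E * X = X * E := by
    calc E * X = φ (e * T) := by rw [map_mul, hφT, hE]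
      _ = φ (T * e) := by rw [mul_comm]
      _ = X * E := by rw [map_mul, hφT, hE]
  have hXE' : X * E' = E' * X := by
    rw [hE'eq, Matrix.mul_sub, Matrix.sub_mul, Matrix.mul_one, Matrix.one_mul, hEX]
  have hXkE : X ^ k * E = 0 := by
    calc X ^ k * E = φ (T ^ k * e) := by rw [map_mul, map_pow, hφT, hE]
      _ = φ (b * (T ^ k * (T + 1) ^ k)) := by congr 1; rw [he]; ring
      _ = 0 := hzero b
  -- ranks
  have hrE : E.rank + E.rank ≤ Fintype.card (ι ⊕ ι) := by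
    have h1 := Matrix.rank_add_rank_le_card_of_mul_eq_zero (A := Eᵀ) (B := Jm * E)
      (by rw [← Matrix.mul_assoc]; exact hEi)
    rwa [Matrix.rank_transpose, Matrix.rank_mul_eq_right_of_isUnit_det _ _ hJdet] at h1
  have hrE' : E'.rank + E'.rank ≤ Fintype.card (ι ⊕ ι) := by
    have h1 := Matrix.rank_add_rank_le_card_of_mul_eq_zero (A := E'ᵀ) (B := Jm * E')
      (by rw [← Matrix.mul_assoc]; exact hE'i)
    rwa [Matrix.rank_transpose, Matrix.rank_mul_eq_right_of_isUnit_det _ _ hJdet] at h1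
  have hsum : Fintype.card (ι ⊕ ι) ≤ E.rank + E'.rank := by
    have h1 : LinearMap.range E.mulVecLin ⊔ LinearMap.range E'.mulVecLin = ⊤ := by
      rw [eq_top_iff]
      intro v _
      have h2 : v = E *ᵥ v + E' *ᵥ v := by rw [← Matrix.add_mulVec, hEE', Matrix.one_mulVec]
      rw [h2]
      exact Submodule.add_mem_sup ⟨v, rfl⟩ ⟨v, rfl⟩
    have h3 := Submodule.finrank_add_le_finrank_add_finrank (LinearMap.range E.mulVecLin)
      (LinearMap.range E'.mulVecLin)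
    rw [h1, finrank_top, Module.finrank_fintype_fun_eq_card] at h3
    exact h3
  have hcard : Fintype.card (ι ⊕ ι) = Fintype.card ι + Fintype.card ι := Fintype.card_sum
  have hrank : E.rank = Fintype.card ι := by omega
  obtain ⟨C₁, R, hCR, hRC⟩ := exists_rank_factor E hEE hrank
  have hEC : E * C₁ = C₁ := by rw [← hCR, Matrix.mul_assoc, hRC, Matrix.mul_one]
  obtain ⟨N, hN⟩ : ∃ N : Matrix ι ι F, N = R * X * C₁ := ⟨_, rfl⟩
  have hXC : X * C₁ = C₁ * N := by
    rw [hN, ← Matrix.mul_assoc, ← Matrix.mul_assoc, hCR, hEX, Matrix.mul_assoc, hEC]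
  have hNpow : ∀ j : ℕ, C₁ * N ^ j = X ^ j * C₁ := by
    intro j
    induction j with
    | zero => simp
    | succ j ih =>
      rw [pow_succ, ← Matrix.mul_assoc, ih, Matrix.mul_assoc, ← hXC, ← Matrix.mul_assoc,
        ← pow_succ]
  have hNnil : IsNilpotent N := by
    refine ⟨k, ?_⟩
    have h1 : C₁ * N ^ k = 0 := by
      rw [hNpow, ← hEC, ← Matrix.mul_assoc, hXkE, Matrix.zero_mul]
    calc N ^ k = (R * C₁) * N ^ k := by rw [hRC, Matrix.one_mul]
      _ = 0 := by rw [Matrix.mul_assoc, h1, Matrix.mul_zero]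
  obtain ⟨C₂, hC₂⟩ : ∃ C₂ : Matrix (ι ⊕ ι) ι F, C₂ = E' * Jm * Rᵀ := ⟨_, rfl⟩
  have hCtE : C₁ᵀ * Eᵀ = C₁ᵀ := by rw [← transpose_mul, hEC]
  have h11 : C₁ᵀ * Jm * C₁ = 0 := by
    calc C₁ᵀ * Jm * C₁ = (C₁ᵀ * Eᵀ) * Jm * (E * C₁) := by rw [hCtE, hEC]
      _ = C₁ᵀ * (Eᵀ * Jm * E) * C₁ := by simp only [Matrix.mul_assoc]
      _ = 0 := by rw [hEi, Matrix.mul_zero, Matrix.zero_mul]
  have hCJE' : C₁ᵀ * Jm * E' = C₁ᵀ * Jm := by
    have h1 : C₁ᵀ * Jm * E = 0 := by
      calc C₁ᵀ * Jm * E = (C₁ᵀ * Eᵀ) * Jm * E := by rw [hCtE]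
        _ = C₁ᵀ * (Eᵀ * Jm * E) := by simp only [Matrix.mul_assoc]
        _ = 0 := by rw [hEi, Matrix.mul_zero]
    rw [hE'eq, Matrix.mul_sub, h1, Matrix.mul_one, sub_zero]
  have h12 : C₁ᵀ * Jm * C₂ = -1 := by
    calc C₁ᵀ * Jm * C₂ = (C₁ᵀ * Jm * E') * Jm * Rᵀ := by
          rw [hC₂]; simp only [Matrix.mul_assoc]
      _ = C₁ᵀ * (Jm * Jm) * Rᵀ := by rw [hCJE']; simp only [Matrix.mul_assoc]
      _ = -(R * C₁)ᵀ := by
          rw [hJJ, transpose_mul, Matrix.mul_neg, Matrix.mul_one, Matrix.neg_mul]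
      _ = -1 := by rw [hRC, transpose_one]
  have h22 : C₂ᵀ * Jm * C₂ = 0 := by
    calc C₂ᵀ * Jm * C₂ = (Rᵀ)ᵀ * Jmᵀ * (E'ᵀ * Jm * E') * Jm * Rᵀ := by
          rw [hC₂]; simp only [transpose_mul, Matrix.mul_assoc]
      _ = 0 := by rw [hE'i, Matrix.mul_zero, Matrix.zero_mul, Matrix.zero_mul]
  have h21 : C₂ᵀ * Jm * C₁ = 1 := by
    have h1 := congrArg transpose h12
    rw [transpose_mul, transpose_mul, transpose_transpose, hJt, transpose_neg, transpose_one,
      Matrix.neg_mul, Matrix.mul_neg, neg_inj] at h1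
    rw [Matrix.mul_assoc]; exact h1
  have hXJ : X * Jm = -Jm - Jm * Xᵀ := by
    have h1 : Jm * (Jm * X + Xᵀ * Jm) * Jm = Jm * (-Jm) * Jm := by rw [hA]
    have h2 : Jm * (Jm * X + Xᵀ * Jm) * Jm = -(X * Jm) - Jm * Xᵀ := by
      rw [Matrix.mul_add, Matrix.add_mul, ← Matrix.mul_assoc, hJJ, Matrix.neg_mul, Matrix.one_mul,
        Matrix.neg_mul, Matrix.mul_assoc Jm (Xᵀ * Jm) Jm, Matrix.mul_assoc Xᵀ Jm Jm, hJJ,
        Matrix.mul_neg, Matrix.mul_one, Matrix.mul_neg]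
      abel
    have h3 : Jm * (-Jm) * Jm = Jm := by
      rw [Matrix.mul_neg, hJJ, neg_neg, Matrix.one_mul]
    rw [h2, h3] at h1
    have h4 : X * Jm = -(-(X * Jm) - Jm * Xᵀ) - Jm * Xᵀ := by abel
    rw [h4, h1]
  refine ⟨fromCols C₁ C₂, ?_, N, hNnil, ?_⟩
  · rw [transpose_fromCols, fromRows_mul, fromRows_mul_fromCols, h11, h12, h21, h22, hJm]
    rfl
  · rw [mul_fromCols, fromCols_mul_fromBlocks]
    simp only [Matrix.mul_zero, add_zero, zero_add]
    rw [hXC]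
    congr 1
    calc X * C₂ = E' * (X * Jm) * Rᵀ := by
          rw [hC₂, ← Matrix.mul_assoc, ← Matrix.mul_assoc, hXE', Matrix.mul_assoc E' X Jm]
      _ = -C₂ - E' * Jm * Xᵀ * Rᵀ := by
          rw [hXJ, hC₂]
          simp only [Matrix.mul_sub, Matrix.sub_mul, Matrix.mul_neg, Matrix.neg_mul,
            Matrix.mul_assoc]
      _ = -C₂ - E' * Jm * Eᵀ * Xᵀ * Rᵀ := by rw [hE'JE]
      _ = C₂ * (-1 - Nᵀ) := by
          rw [hC₂, hN, ← hCR]
          simp only [transpose_mul, Matrix.mul_sub, Matrix.mul_neg, Matrix.mul_one,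
            Matrix.mul_assoc]

example : LagAdaptStmt.{u} := lagAdapt

end Cfsg.Agent.H84.SpU
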