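import Mathlib
import Cfsg.Agent.H14.CqDefs
import Cfsg.Agent.H49.Count

/-!
# CQ-ZPLUS (helper84, for helper14's COUNT sub-tree of S5987 / S5973)

The number of zeros of the plus form, from helper49's `card_zeros_plus`.
-/

set_option autoImplicit false

namespace Cfsg.Agent.H84.Cq

open Cfsg.Agent.H14.Cq

universe u

/-- CQ-ZPLUS. -/
theorem zPlus : StZPlus.{u} := by
  intro F _ _ d hd
  rw [Cfsg.Agent.H49.card_zeros_plus d]
  have hq : 1 ≤ Fintype.card F ^ d := Nat.one_le_pow _ _ Fintype.card_pos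
  obtain ⟨A', hA⟩ : ∃ A', Fintype.card F ^ d = A' + 1 := ⟨Fintype.card F ^ d - 1, by omega⟩
  have h2 : Fintype.card F ^ (2 * d - 1) = Fintype.card F ^ d * Fintype.card F ^ (d - 1) := by
    rw [← pow_add]
    congr 1
    omega
  rw [h2, hA, Nat.add_sub_cancel]
  ring

example : Cfsg.Agent.H14.Cq.StZPlus.{u} := zPlus

end Cfsg.Agent.H84.Cq
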