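import Mathlib
import Cfsg.Agent.H42.SpnDefs

/-! S5956 (helper42's project): shared lemmas for the involution pieces SPN-INVODD and
SPN-INV2PIECE — Gram criterion for a spanned subspace to be nondegenerate. -/

set_option autoImplicit false

namespace Cfsg.Agent.H84.Spn

open Cfsg.Agent.H45 Cfsg.Agent.H42.Spd Cfsg.Agent.H42.Spn Module

universe u v

variable {F : Type u} [Field F] {V : Type v} [AddCommGroup V] [Module F V]

lemma alt_skew {B : V →ₗ[F] V →ₗ[F] F} (halt : ∀ x, B x x = 0) (x y : V) : B x y = -B y x := by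
  have h := halt (x + y)
  simp only [map_add, LinearMap.add_apply, halt, zero_add, add_zero] at h
  exact eq_neg_of_add_eq_zero_right h

/-- Gram criterion. -/
lemma gram_nd {k : ℕ} (B : V →ₗ[F] V →ₗ[F] F) (x : Fin k → V)
    (hG : ∀ a : Fin k → F, (∀ i, ∑ j, a j * B (x i) (x j) = 0) → a = 0) :
    LinearIndependent F x ∧
      Submodule.span F (Set.range x) ⊓ perp B (Submodule.span F (Set.range x)) = ⊥ := by
  have key : ∀ (a : Fin k → F) (i : Fin k),
      B (x i) (∑ j, a j • x j) = ∑ j, a j * B (x i) (x j) := by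
    intro a i
    rw [map_sum]
    apply Finset.sum_congr rfl
    intro j _
    rw [map_smul, smul_eq_mul]
  constructor
  · rw [Fintype.linearIndependent_iff]
    intro a ha
    have := hG a (fun i => by rw [← key, ha, map_zero])
    intro i
    rw [this]
    rfl
  · rw [eq_bot_iff]
    rintro y ⟨hy1, hy2⟩
    obtain ⟨a, rfl⟩ := (Submodule.mem_span_range_iff_exists_fun F).mp hy1
    have := hG a (fun i => by
      rw [← key]
      exact hy2 _ (Submodule.subset_span ⟨i, rfl⟩))
    rw [this]
    simp

/-- A spanned invariant subspace with nondegenerate Gram matrix. -/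
lemma nd_span {k : ℕ} (B : V →ₗ[F] V →ₗ[F] F) (T : Module.End F V) (W : Submodule F V)
    (x : Fin k → V)
    (hG : ∀ a : Fin k → F, (∀ i, ∑ j, a j * B (x i) (x j) = 0) → a = 0)
    (hW : ∀ i, x i ∈ W) (hT : ∀ i, T (x i) ∈ Submodule.span F (Set.range x)) :
    ∃ P : Submodule F V, P ≤ W ∧ Nd B T P ∧ Module.finrank F P = k := by
  obtain ⟨hli, hnd⟩ := gram_nd B x hG
  refine ⟨Submodule.span F (Set.range x), ?_, ⟨?_, hnd⟩, ?_⟩
  · rw [Submodule.span_le]
    rintro _ ⟨i, rfl⟩
    exact hW i
  · rw [Module.End.mem_invtSubmodule, Submodule.span_le]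
    rintro _ ⟨i, rfl⟩
    exact hT i
  · rw [finrank_span_eq_card hli, Fintype.card_fin]

/-- The plane spanned by `v` and `T v` when `B v (T v) ≠ 0` and `T (T v)` is a multiple
of `v`. -/
lemma plane_of_ne {B : V →ₗ[F] V →ₗ[F] F} {T : Module.End F V} (halt : ∀ x, B x x = 0)
    (W : Submodule F V) (hW : W ∈ T.invtSubmodule) (v : V) (hv : v ∈ W)
    (hne : B v (T v) ≠ 0) (c : F) (hTT : T (T v) = c • v) :
    ∃ P : Submodule F V, P ≤ W ∧ Nd B T P ∧ Module.finrank F P = 2 := by
  have hne' : B (T v) v ≠ 0 := by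
    rw [alt_skew halt]
    exact neg_ne_zero.mpr hne
  have hTv : T v ∈ W := (Module.End.mem_invtSubmodule T).mp hW hv
  apply nd_span B T W ![v, T v]
  · intro a ha
    have h0 := ha 0
    have h1 := ha 1
    simp only [Fin.sum_univ_two, Matrix.cons_val_zero, Matrix.cons_val_one, halt, mul_zero,
      zero_add, add_zero] at h0 h1
    ext i
    fin_cases i
    · rcases mul_eq_zero.mp h1 with h | h
      · exact h
      · exact absurd h hne'
    · rcases mul_eq_zero.mp h0 with h | h
      · exact h
      · exact absurd h hne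
  · intro i
    fin_cases i
    · exact hv
    · exact hTv
  · intro i
    fin_cases i
    · exact Submodule.subset_span ⟨1, rfl⟩
    · change T (T v) ∈ _
      rw [hTT]
      exact Submodule.smul_mem _ _ (Submodule.subset_span ⟨0, rfl⟩)

end Cfsg.Agent.H84.Spn
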