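import Mathlib
import Cfsg.Agent.H84.SpnBase

/-! S5956 piece SPN-INVODD (helper42's project): in odd characteristic an isometry `T` with
`T * T = z • 1`, `z * z = 1`, has an invariant nondegenerate plane inside every nonzero
invariant nondegenerate subspace. -/

set_option autoImplicit false

namespace Cfsg.Agent.H84.Spn

open Cfsg.Agent.H45 Cfsg.Agent.H42.Spd Cfsg.Agent.H42.Spn Module

universe u v

/-- An eigenvector of an involutory isometry in a nondegenerate invariant subspace gives a
nondegenerate plane of eigenvectors. -/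
lemma eig_plane (hH : StIsoHyp.{u,v}) {F : Type u} [Field F] [Fintype F] {V : Type v}
    [AddCommGroup V] [Module F V] [FiniteDimensional F V] (B : V →ₗ[F] V →ₗ[F] F)
    (T : Module.End F V) (h2 : (2 : F) ≠ 0) (hI : Iso B T) (hTTv : ∀ v, T (T v) = v)
    (W : Submodule F V) (hWT : ∀ w ∈ W, T w ∈ W) (hWnd : W ⊓ perp B W = ⊥)
    (ε : F) (hε : ε * ε = 1) (x₀ : V) (hx₀ : x₀ ∈ W) (hx₀T : T x₀ = ε • x₀) (hx₀ne : x₀ ≠ 0) :
    ∃ P : Submodule F V, P ≤ W ∧ Nd B T P ∧ Module.finrank F P = 2 := by
  have hKmem : ∀ x, x ∈ W ⊓ LinearMap.ker (T - ε • (1 : Module.End F V)) ↔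
      x ∈ W ∧ T x = ε • x := by
    intro x
    rw [Submodule.mem_inf, LinearMap.mem_ker, LinearMap.sub_apply, LinearMap.smul_apply,
      Module.End.one_apply, sub_eq_zero]
  have hKnd : (W ⊓ LinearMap.ker (T - ε • (1 : Module.End F V))) ⊓
      perp B (W ⊓ LinearMap.ker (T - ε • (1 : Module.End F V))) = ⊥ := by
    rw [eq_bot_iff]
    rintro x ⟨hx1, hx2⟩
    obtain ⟨hxW, hxT⟩ := (hKmem x).mp hx1
    have hperp : x ∈ perp B W := by
      intro w hw
      -- w + ε T w is in the eigenspace
      have h1 : w + ε • T w ∈ W ⊓ LinearMap.ker (T - ε • (1 : Module.End F V)) := by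
        rw [hKmem]
        refine ⟨W.add_mem hw (W.smul_mem _ (hWT w hw)), ?_⟩
        rw [map_add, map_smul, hTTv, smul_add, smul_smul, hε, one_smul, add_comm]
      have h3 : B (w + ε • T w) x = 0 := hx2 _ h1
      have h4 : B (T w) x = ε * B w x := by
        rw [← hI.isom (T w) x, hTTv, hxT, map_smul, smul_eq_mul]
      rw [map_add, LinearMap.add_apply, map_smul, LinearMap.smul_apply, smul_eq_mul, h4,
        ← mul_assoc, hε, one_mul] at h3
      have h5 : (2 : F) * B w x = 0 := by linear_combination h3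
      rcases mul_eq_zero.mp h5 with h | h
      · exact absurd h h2
      · exact h
    have : x ∈ W ⊓ perp B W := ⟨hxW, hperp⟩
    rw [hWnd] at this
    exact this
  have hKne : W ⊓ LinearMap.ker (T - ε • (1 : Module.End F V)) ≠ ⊥ := by
    rw [Submodule.ne_bot_iff]
    exact ⟨x₀, (hKmem x₀).mpr ⟨hx₀, hx₀T⟩, hx₀ne⟩
  obtain ⟨U, hUK, hUnd, hfr⟩ := hH F V B T hI _ hKnd hKne
  refine ⟨U, fun u hu => ((hKmem u).mp (hUK hu)).1, ⟨?_, hUnd⟩, hfr⟩
  rw [Module.End.mem_invtSubmodule]
  intro u hu
  change T u ∈ U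
  rw [((hKmem u).mp (hUK hu)).2]
  exact U.smul_mem _ hu

theorem invOdd (hH : StIsoHyp.{u,v}) : StInvOdd.{u,v} := by
  intro F _ _ V _ _ _ B T h2 hI z hz hTT W hW hW0
  obtain ⟨hWinv, hWnd⟩ := hW
  have hWT : ∀ w ∈ W, T w ∈ W := fun w hw => (Module.End.mem_invtSubmodule T).mp hWinv hw
  have hTTv : ∀ v, T (T v) = z • v := by
    intro v
    have := congrArg (fun f : Module.End F V => f v) hTT
    simpa [Module.End.mul_apply] using this
  have hz' : z = 1 ∨ z = -1 := by
    have : (z - 1) * (z + 1) = 0 := by linear_combination hz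
    rcases mul_eq_zero.mp this with h | h
    · left; exact sub_eq_zero.mp h
    · right; exact eq_neg_of_add_eq_zero_left h
  obtain ⟨w, hw, hwne⟩ := (Submodule.ne_bot_iff W).mp hW0
  rcases hz' with rfl | rfl
  · -- `T * T = 1`
    have hTT1 : ∀ v, T (T v) = v := by
      intro v; rw [hTTv, one_smul]
    by_cases hp : w + T w = 0
    · -- `T w = -w`
      have hTw : T w = (-1 : F) • w := by
        rw [neg_smul, one_smul]
        exact eq_neg_of_add_eq_zero_right hp
      exact eig_plane hH B T h2 hI hTT1 W hWT hWnd (-1) (by ring) w hw hTw hwne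
    · have hT : T (w + T w) = (1 : F) • (w + T w) := by
        rw [map_add, hTT1, one_smul, add_comm]
      exact eig_plane hH B T h2 hI hTT1 W hWT hWnd 1 (by ring) (w + T w)
        (W.add_mem hw (hWT w hw)) hT hp
  · -- `T * T = -1`
    by_cases hq : ∃ v ∈ W, B v (T v) ≠ 0
    · obtain ⟨v, hv, hne⟩ := hq
      exact plane_of_ne hI.alt W hWinv v hv hne (-1) (hTTv v)
    · push Not at hq
      exfalso
      have hpol : ∀ u ∈ W, ∀ v ∈ W, B u (T v) = 0 := by
        intro u hu v hv
        have h1 := hq (u + v) (W.add_mem hu hv)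
        rw [map_add, map_add, LinearMap.add_apply, map_add, map_add, hq u hu, hq v hv,
          zero_add, add_zero] at h1
        have h3 : B v (T u) = B u (T v) := by
          rw [← hI.isom v (T u), hTTv, map_smul, smul_eq_mul, alt_skew hI.alt (T v) u]
          ring
        rw [h3] at h1
        have h5 : (2 : F) * B u (T v) = 0 := by linear_combination h1
        rcases mul_eq_zero.mp h5 with h | h
        · exact absurd h h2
        · exact h
      have hTw : T w ∈ W ⊓ perp B W := ⟨hWT w hw, fun u hu => hpol u hu w hw⟩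
      rw [hWnd] at hTw
      have hTw0 : T w = 0 := (Submodule.mem_bot F).mp hTw
      have := hTTv w
      rw [hTw0, map_zero, neg_smul, one_smul] at this
      exact hwne (neg_eq_zero.mp this.symm)

example : Cfsg.Agent.H42.Spn.StIsoHyp.{u,v} → Cfsg.Agent.H42.Spn.StInvOdd.{u,v} := invOdd

end Cfsg.Agent.H84.Spn
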