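import Cfsg.Agent.H26.AIC.Basic
import Cfsg.Agent.H25.NormFour

set_option autoImplicit false
set_option linter.style.haveILetI false
set_option linter.unusedSectionVars false
set_option linter.unusedVariables false

/-! S2202 piece SE (helper26's project, layer 1): the normalizer of a good Sylow 2-subgroup is
strongly embedded, transitive on the involutions of the Sylow subgroup, and its order. -/

namespace Cfsg.Agent.H84.AIC

open Subgroup Cfsg.Agent.H26 Cfsg.Agent.H26.AIC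

variable {G : Type*} [Group G] [Finite G]

theorem exists_two_inv (hH : Hyp G) (P : Sylow 2 G) (hnc : ¬ IsCyclic (P : Subgroup G)) :
    ∃ u v : G, orderOf u = 2 ∧ u ∈ (P : Subgroup G) ∧ orderOf v = 2 ∧ v ∈ (P : Subgroup G) ∧ u ≠ v := by
  have hc : ∀ a b : (P : Subgroup G), a * b = b * a :=
    fun a b => Subtype.ext (syl_comm hH P a.2 b.2)
  obtain ⟨x, y, hx1, hy1, hxy, hxx, hyy⟩ :=
    Cfsg.Agent.H25.exists_two_invol_of_not_cyclic P.isPGroup' hc hnc
  refine ⟨x, y, orderOf_eq_two_of ?_ ?_, x.2, orderOf_eq_two_of ?_ ?_, y.2, ?_⟩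
  · exact congrArg Subtype.val hxx
  · intro h; exact hx1 (Subtype.ext h)
  · exact congrArg Subtype.val hyy
  · intro h; exact hy1 (Subtype.ext h)
  · intro h; exact hxy (Subtype.ext h)

theorem NT_se (hH : Hyp G) (P : Sylow 2 G) (hP : Good P) : Cfsg.IsStronglyEmbedded (NT P) := by
  refine ⟨?_, ?_, ?_⟩
  · intro h
    exact hP.2 (Subgroup.normalizer_eq_top_iff.mp h)
  · obtain ⟨u, ho, hu⟩ := exists_inv_mem (good_ne_bot hP)
    exact even_card_of_inv_mem _ ho (Subgroup.le_normalizer hu)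
  · intro g hg
    by_contra hodd
    rw [Nat.not_odd_iff_even] at hodd
    obtain ⟨s, hs, hso⟩ := exists_inv_of_even_card _ hodd
    have hsT : s ∈ (P : Subgroup G) := inv_NT_mem P hso hs.1
    have hs2 : g⁻¹ * s * g ∈ NT P := (mem_map_conj_iff _ g s).mp hs.2
    have hso2 : orderOf (g⁻¹ * s * g) = 2 := by
      have := orderOf_conj_eq g⁻¹ s
      rw [inv_inv] at this
      rw [this, hso]
    have hsT2 : g⁻¹ * s * g ∈ (P : Subgroup G) := inv_NT_mem P hso2 hs2
    have h1 : g⁻¹ ∈ NT P := mem_NT_of_conj_mem hH P hso hsT (by rw [inv_inv]; exact hsT2)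
    exact hg (by simpa using (NT P).inv_mem h1)

theorem exists_inv_coset (hH : Hyp G) (P : Sylow 2 G) (hP : Good P) {g : G} (hg : g ∉ NT P) :
    ∃ t : G, orderOf t = 2 ∧ t ∉ NT P ∧ t⁻¹ * g ∈ NT P := by
  have hse := NT_se hH P hP
  have hcard := se_card_swap hse hg
  have hpos : 0 < Nat.card {t : G // orderOf t = 2 ∧ t ∈ NT P} := by
    obtain ⟨t, ht1, ht2⟩ := se_exists_inv hse
    have : Nonempty {t : G // orderOf t = 2 ∧ t ∈ NT P} := ⟨⟨t, ht1, ht2⟩⟩
    exact Nat.card_pos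
  rw [← hcard] at hpos
  obtain ⟨⟨u, hu1, hu2⟩⟩ := (Nat.card_pos_iff.mp hpos).1
  refine ⟨u, hu1, ?_, hu2⟩
  intro hu
  apply hg
  have := (NT P).mul_mem hu hu2
  simpa using this

theorem NT_trans (hH : Hyp G) (P : Sylow 2 G) (hP : Good P) {u v : G} (hu : orderOf u = 2)
    (huP : u ∈ (P : Subgroup G)) (hv : orderOf v = 2) (hvP : v ∈ (P : Subgroup G)) :
    ∃ h ∈ NT P, h * u * h⁻¹ = v := by
  have hse := NT_se hH P hP
  obtain ⟨g, hg⟩ : ∃ g : G, g ∉ NT P := by
    by_contra hcon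
    push Not at hcon
    exact hse.1 (eq_top_iff.mpr fun x _ => hcon x)
  obtain ⟨t, ht, htN, -⟩ := exists_inv_coset hH P hP hg
  have hconj := se_all_conj hse ht htN hu (Subgroup.le_normalizer huP) hv
  obtain ⟨c, hc⟩ := isConj_iff.mp hconj
  exact ⟨c, mem_NT_of_conj_mem hH P hu huP (by rw [hc]; exact hvP), hc⟩

theorem card_NT (hH : Hyp G) (P : Sylow 2 G) (hP : Good P) :
    Nat.card (NT P) = Nat.card (MT P) * Nat.card {s : G // orderOf s = 2 ∧ s ∈ (P : Subgroup G)} := by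
  obtain ⟨u, hu, huP⟩ := exists_inv_mem (good_ne_bot hP)
  have hex : ∀ s : {s : G // orderOf s = 2 ∧ s ∈ (P : Subgroup G)},
      ∃ h ∈ NT P, h * u * h⁻¹ = s.1 :=
    fun s => NT_trans hH P hP hu huP s.2.1 s.2.2
  choose r hrN hr using hex
  have hs : ∀ h : NT P, orderOf (h.1 * u * h.1⁻¹) = 2 ∧ h.1 * u * h.1⁻¹ ∈ (P : Subgroup G) := by
    intro h
    refine ⟨by rw [orderOf_conj_eq]; exact hu, ?_⟩
    exact (Subgroup.mem_normalizer_iff.mp h.2 u).mp huP
  let S : NT P → {s : G // orderOf s = 2 ∧ s ∈ (P : Subgroup G)} :=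
    fun h => ⟨h.1 * u * h.1⁻¹, hs h⟩
  have hm : ∀ h : NT P, (r (S h))⁻¹ * h.1 ∈ MT P := by
    intro h
    rw [mem_MT_iff hH P hu huP]
    have h1 : r (S h) * u * (r (S h))⁻¹ = h.1 * u * h.1⁻¹ := hr (S h)
    calc (r (S h))⁻¹ * h.1 * u = (r (S h))⁻¹ * (h.1 * u * h.1⁻¹) * h.1 := by group
      _ = (r (S h))⁻¹ * (r (S h) * u * (r (S h))⁻¹) * h.1 := by rw [h1]
      _ = u * ((r (S h))⁻¹ * h.1) := by group
  let e : (NT P) ≃ (MT P) × {s : G // orderOf s = 2 ∧ s ∈ (P : Subgroup G)} :=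
    { toFun := fun h => (⟨(r (S h))⁻¹ * h.1, hm h⟩, S h)
      invFun := fun p => ⟨r p.2 * p.1.1, (NT P).mul_mem (hrN p.2) (MT_le_NT P p.1.2)⟩
      left_inv := fun h => by
        apply Subtype.ext
        show r (S h) * ((r (S h))⁻¹ * h.1) = h.1
        group
      right_inv := fun p => by
        obtain ⟨⟨m, hmM⟩, s⟩ := p
        have hmu : m * u = u * m := (mem_MT_iff hH P hu huP m).mp hmM
        have hS : S ⟨r s * m, (NT P).mul_mem (hrN s) (MT_le_NT P hmM)⟩ = s := by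
          apply Subtype.ext
          show r s * m * u * (r s * m)⁻¹ = s.1
          rw [← hr s]
          calc r s * m * u * (r s * m)⁻¹ = r s * (m * u) * m⁻¹ * (r s)⁻¹ := by group
            _ = r s * (u * m) * m⁻¹ * (r s)⁻¹ := by rw [hmu]
            _ = r s * u * (r s)⁻¹ := by group
        apply Prod.ext
        · apply Subtype.ext
          show (r (S ⟨r s * m, (NT P).mul_mem (hrN s) (MT_le_NT P hmM)⟩))⁻¹ * (r s * m) = m
          rw [hS]
          group
        · exact hS }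
  rw [Nat.card_congr e, Nat.card_prod]

example (hH : Hyp G) (P : Sylow 2 G) (hnc : ¬ IsCyclic (P : Subgroup G)) :
    ∃ u v : G, orderOf u = 2 ∧ u ∈ (P : Subgroup G) ∧ orderOf v = 2 ∧ v ∈ (P : Subgroup G) ∧ u ≠ v :=
  exists_two_inv hH P hnc

example (hH : Hyp G) (P : Sylow 2 G) (hP : Good P) : Cfsg.IsStronglyEmbedded (NT P) :=
  NT_se hH P hP

example (hH : Hyp G) (P : Sylow 2 G) (hP : Good P) {g : G} (hg : g ∉ NT P) :
    ∃ t : G, orderOf t = 2 ∧ t ∉ NT P ∧ t⁻¹ * g ∈ NT P :=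
  exists_inv_coset hH P hP hg

example (hH : Hyp G) (P : Sylow 2 G) (hP : Good P) {u v : G} (hu : orderOf u = 2)
    (huP : u ∈ (P : Subgroup G)) (hv : orderOf v = 2) (hvP : v ∈ (P : Subgroup G)) :
    ∃ h ∈ NT P, h * u * h⁻¹ = v :=
  NT_trans hH P hP hu huP hv hvP

example (hH : Hyp G) (P : Sylow 2 G) (hP : Good P) :
    Nat.card (NT P) = Nat.card (MT P) * Nat.card {s : G // orderOf s = 2 ∧ s ∈ (P : Subgroup G)} :=
  card_NT hH P hP

end Cfsg.Agent.H84.AIC
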