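import Cfsg.Agent.H93.ConwayDefs

/-! S0406 piece C-DIM (helper93's project): a doubly even binary code of length 24 has dimension
at most 12 (it is self-orthogonal). -/

set_option autoImplicit false

namespace Cfsg.Agent.H84.Conway

open Matrix Cfsg.Agent.H93.Conway

theorem zmod2_ind (x y : ZMod 2) :
    (if x + y ≠ 0 then 1 else 0) + 2 * (if x ≠ 0 ∧ y ≠ 0 then 1 else 0) =
      ((if x ≠ 0 then 1 else 0) + (if y ≠ 0 then 1 else 0) : ℕ) := by
  revert x y; decide

theorem zmod2_mul (x y : ZMod 2) : x * y = if x ≠ 0 ∧ y ≠ 0 then 1 else 0 := by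
  revert x y; decide

/-- `wt (a + b) + 2 |supp a ∩ supp b| = wt a + wt b` -/
theorem wt_add (a b : Fin 24 → ZMod 2) :
    hammingNorm (a + b) + 2 * (Finset.univ.filter fun i => a i ≠ 0 ∧ b i ≠ 0).card =
      hammingNorm a + hammingNorm b := by
  unfold hammingNorm
  rw [Finset.card_filter, Finset.card_filter, Finset.card_filter, Finset.card_filter,
    Finset.mul_sum, ← Finset.sum_add_distrib, ← Finset.sum_add_distrib]
  apply Finset.sum_congr rfl
  intro i _
  exact zmod2_ind (a i) (b i)

theorem dot_eq (a b : Fin 24 → ZMod 2) :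
    a ⬝ᵥ b = ((Finset.univ.filter fun i => a i ≠ 0 ∧ b i ≠ 0).card : ZMod 2) := by
  unfold dotProduct
  rw [Finset.card_filter]
  push_cast
  apply Finset.sum_congr rfl
  intro i _
  rw [zmod2_mul]

theorem dot_zero (a b : Fin 24 → ZMod 2) (ha : 4 ∣ hammingNorm a) (hb : 4 ∣ hammingNorm b)
    (hab : 4 ∣ hammingNorm (a + b)) : a ⬝ᵥ b = 0 := by
  rw [dot_eq]
  have h := wt_add a b
  have h2 : 2 ∣ (Finset.univ.filter fun i => a i ≠ 0 ∧ b i ≠ 0).card := by omega
  exact (ZMod.natCast_eq_zero_iff _ 2).mpr h2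

theorem dim : StmtDim := by
  intro C hC
  classical
  set k := Module.finrank (ZMod 2) C with hk
  let b := Module.finBasis (ZMod 2) C
  let M : Matrix (Fin k) (Fin 24) (ZMod 2) := Matrix.of fun j => (b j : Fin 24 → ZMod 2)
  have hMM : M * Mᵀ = 0 := by
    ext j j'
    have h := dot_zero (b j : Fin 24 → ZMod 2) (b j') (hC _ (b j).2) (hC _ (b j').2)
      (hC _ (C.add_mem (b j).2 (b j').2))
    simp only [Matrix.mul_apply, Matrix.transpose_apply, Matrix.zero_apply]
    exact h
  have hrank : M.rank = k := by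
    have hli : LinearIndependent (ZMod 2) M.row :=
      b.linearIndependent.map' C.subtype (Submodule.ker_subtype C)
    rw [hli.rank_matrix, Fintype.card_fin]
  have h := Matrix.rank_add_rank_le_card_of_mul_eq_zero hMM
  rw [Matrix.rank_transpose, hrank, Fintype.card_fin] at h
  omega

example : StmtDim := dim

end Cfsg.Agent.H84.Conway
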