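import Cfsg.Agent.H84.ConwayDim

/-! S0406 piece C-OCT (helper93's project): a doubly even binary code of length 24 without words
of weight 4 has at most 759 words of weight 8. -/

set_option autoImplicit false

namespace Cfsg.Agent.H84.Conway

open Matrix Cfsg.Agent.H93.Conway

theorem zmod2_eq_of_add (a b : ZMod 2) (h : a + b = 0) : a = b := by
  revert a b; decide

theorem oct : StmtOct := by
  intro C h4 hne4
  classical
  set W : Finset (Fin 24 → ZMod 2) :=
    Finset.univ.filter (fun w => w ∈ C ∧ hammingNorm w = 8) with hW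
  have hset : {w : Fin 24 → ZMod 2 | w ∈ C ∧ hammingNorm w = 8} =
      (W : Set (Fin 24 → ZMod 2)) := by
    ext w; simp [hW]
  rw [hset, Set.ncard_coe_finset]
  let supp : (Fin 24 → ZMod 2) → Finset (Fin 24) :=
    fun w => Finset.univ.filter (fun i => w i ≠ 0)
  have hsupp : ∀ w ∈ W, (supp w).card = 8 := by
    intro w hw
    rw [hW, Finset.mem_filter] at hw
    exact hw.2.2
  have hinter : ∀ w ∈ W, ∀ w' ∈ W, w ≠ w' → (supp w ∩ supp w').card ≤ 4 := by
    intro w hw w' hw' hne
    rw [hW, Finset.mem_filter] at hw hw'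
    have h1 := wt_add w w'
    have h2 : (supp w ∩ supp w') = Finset.univ.filter fun i => w i ≠ 0 ∧ w' i ≠ 0 := by
      ext i; simp [supp]
    rw [h2]
    have h3 : 4 ∣ hammingNorm (w + w') := h4 _ (C.add_mem hw.2.1 hw'.2.1)
    have h4' : hammingNorm (w + w') ≠ 4 := hne4 _ (C.add_mem hw.2.1 hw'.2.1)
    have h5 : hammingNorm (w + w') ≠ 0 := by
      rw [hammingNorm_ne_zero_iff]
      intro h0
      apply hne
      funext i
      have := congrFun h0 i
      simp only [Pi.add_apply, Pi.zero_apply] at this
      exact zmod2_eq_of_add _ _ this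
    rw [hw.2.2, hw'.2.2] at h1
    omega
  have hdisj : ∀ w ∈ W, ∀ w' ∈ W, w ≠ w' →
      Disjoint (Finset.powersetCard 5 (supp w)) (Finset.powersetCard 5 (supp w')) := by
    intro w hw w' hw' hne
    rw [Finset.disjoint_left]
    intro t ht ht'
    rw [Finset.mem_powersetCard] at ht ht'
    have h1 : t ⊆ supp w ∩ supp w' := Finset.subset_inter ht.1 ht'.1
    have h2 := Finset.card_le_card h1
    have h3 := hinter w hw w' hw' hne
    omega
  have hcard : (W.biUnion fun w => Finset.powersetCard 5 (supp w)).card =
      ∑ w ∈ W, (Finset.powersetCard 5 (supp w)).card :=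
    Finset.card_biUnion hdisj
  have hsub : (W.biUnion fun w => Finset.powersetCard 5 (supp w)) ⊆
      Finset.powersetCard 5 (Finset.univ : Finset (Fin 24)) := by
    intro t ht
    rw [Finset.mem_biUnion] at ht
    obtain ⟨w, _, ht⟩ := ht
    rw [Finset.mem_powersetCard] at ht ⊢
    exact ⟨Finset.subset_univ _, ht.2⟩
  have hle := Finset.card_le_card hsub
  rw [hcard, Finset.card_powersetCard, Finset.card_univ, Fintype.card_fin] at hle
  have hsum : ∑ w ∈ W, (Finset.powersetCard 5 (supp w)).card = W.card * 56 := by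
    rw [Finset.sum_congr rfl (fun w hw => by rw [Finset.card_powersetCard, hsupp w hw])]
    rw [Finset.sum_const, smul_eq_mul]
    have : Nat.choose 8 5 = 56 := by decide
    rw [this]
  rw [hsum] at hle
  have h24 : Nat.choose 24 5 = 42504 := by decide
  omega

example : StmtOct := oct

end Cfsg.Agent.H84.Conway
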