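/-
helper84 library: a `p'`-automorphism of a finite `p`-group acting trivially modulo the commutator
subgroup is trivial.
-/
import Mathlib

set_option autoImplicit false
set_option linter.style.haveILetI false
set_option linter.unusedSectionVars false
set_option linter.unusedVariables false

namespace Cfsg.Agent.H84

universe u

open scoped commutatorElement

/-- An automorphism of a finite `p`-group of order prime to `p` which acts trivially modulo the
commutator subgroup is trivial. -/
theorem aut_eq_one_of_coprime (p : ℕ) [Fact p.Prime] :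
    ∀ (n : ℕ) (D : Type u) [Group D] [Finite D], Nat.card D = n → IsPGroup p D →
      ∀ (α : MulAut D) (k : ℕ), ¬ p ∣ k → α ^ k = 1 →
        (∀ x : D, α x * x⁻¹ ∈ commutator D) → α = 1 := by
  intro n
  induction n using Nat.strong_induction_on with
  | _ n ih =>
    intro D _ _ hn hD α k hk hαk hα
    by_cases htriv : Subsingleton D
    · ext x; exact Subsingleton.elim _ _
    rw [not_subsingleton_iff_nontrivial] at htriv
    have hZ : Nontrivial (Subgroup.center D) := hD.center_nontrivial
    -- the induced automorphism of the central quotient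
    have hmap : (Subgroup.center D).map (α : D ≃* D).toMonoidHom = Subgroup.center D :=
      Subgroup.characteristic_iff_map_eq.mp inferInstance α
    let β : MulAut (D ⧸ Subgroup.center D) := QuotientGroup.congr _ _ α hmap
    have hβ : ∀ x : D, β (x : D ⧸ Subgroup.center D) = ((α x : D) : D ⧸ Subgroup.center D) :=
      fun x => QuotientGroup.congr_mk _ _ α hmap x
    have hβpow : ∀ j : ℕ, ∀ x : D,
        (β ^ j) (x : D ⧸ Subgroup.center D) = (((α ^ j) x : D) : D ⧸ Subgroup.center D) := by
      intro j
      induction j with
      | zero => intro x; simp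
      | succ j ihj =>
        intro x
        rw [pow_succ', MulAut.mul_apply, ihj, hβ, pow_succ', MulAut.mul_apply]
    have hβk : β ^ k = 1 := by
      ext q
      obtain ⟨x, rfl⟩ := QuotientGroup.mk_surjective q
      rw [hβpow, hαk]; rfl
    have hβc : ∀ q, β q * q⁻¹ ∈ commutator (D ⧸ Subgroup.center D) := by
      intro q
      obtain ⟨x, rfl⟩ := QuotientGroup.mk_surjective q
      rw [hβ]
      have h1 : ((α x * x⁻¹ : D) : D ⧸ Subgroup.center D) ∈
          (commutator D).map (QuotientGroup.mk' (Subgroup.center D)) :=
        Subgroup.mem_map_of_mem _ (hα x)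
      have h2 : (commutator D).map (QuotientGroup.mk' (Subgroup.center D)) ≤
          commutator (D ⧸ Subgroup.center D) := by
        rw [commutator_def, commutator_def, Subgroup.map_commutator]
        exact Subgroup.commutator_mono le_top le_top
      exact h2 h1
    have hcard : Nat.card (D ⧸ Subgroup.center D) < n := by
      rw [← hn, ← Subgroup.index_eq_card, ← Subgroup.card_mul_index (Subgroup.center D)]
      have h1 : 1 < Nat.card (Subgroup.center D) := Finite.one_lt_card
      have h2 : 0 < (Subgroup.center D).index :=
        Nat.pos_of_ne_zero Subgroup.index_ne_zero_of_finite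
      nlinarith
    have hβ1 : β = 1 :=
      ih _ hcard (D ⧸ Subgroup.center D) rfl (hD.to_quotient _) β k hk hβk hβc
    have hz : ∀ x : D, α x * x⁻¹ ∈ Subgroup.center D := by
      intro x
      have h1 := hβ x
      rw [hβ1, MulAut.one_apply] at h1
      have h2 : x⁻¹ * α x ∈ Subgroup.center D := QuotientGroup.eq.mp h1
      have h3 := (inferInstance : (Subgroup.center D).Normal).conj_mem _ h2 x
      have e : x * (x⁻¹ * α x) * x⁻¹ = α x * x⁻¹ := by group
      rwa [e] at h3
    -- `α` fixes the commutator subgroup
    have hconj : ∀ z : D, z ∈ Subgroup.center D → ∀ a y : D, ⁅z * a, y⁆ = ⁅a, y⁆ := by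
      intro z hzc a y
      rw [commutatorElement_def, commutatorElement_def]
      have h1 := Subgroup.mem_center_iff.mp hzc
      calc z * a * y * (z * a)⁻¹ * y⁻¹ = z * (a * y * a⁻¹) * z⁻¹ * y⁻¹ := by group
        _ = (a * y * a⁻¹) * z * z⁻¹ * y⁻¹ := by rw [← h1 (a * y * a⁻¹)]
        _ = a * y * a⁻¹ * y⁻¹ := by group
    have hfix : ∀ c ∈ commutator D, α c = c := by
      intro c hc
      rw [commutator_eq_closure] at hc
      induction hc using Subgroup.closure_induction with
      | mem x hx =>
        obtain ⟨a, b, rfl⟩ := hx
        have ha : α a = (α a * a⁻¹) * a := by group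
        have hb : α b = (α b * b⁻¹) * b := by group
        rw [map_commutatorElement, ha, hconj _ (hz a), ← commutatorElement_inv, hb,
          hconj _ (hz b), commutatorElement_inv]
      | one => exact map_one α
      | mul x y _ _ hx hy => rw [map_mul, hx, hy]
      | inv x _ hx => rw [map_inv, hx]
    have hpow : ∀ j : ℕ, ∀ x : D, (α ^ j) x = (α x * x⁻¹) ^ j * x := by
      intro j
      induction j with
      | zero => intro x; simp
      | succ j ihj =>
        intro x
        rw [pow_succ', MulAut.mul_apply, ihj, map_mul, map_pow, hfix _ (hα x), pow_succ]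
        group
    ext x
    have h1 := hpow k x
    rw [hαk, MulAut.one_apply] at h1
    have h2 : (α x * x⁻¹) ^ k = 1 := mul_eq_right.mp h1.symm
    obtain ⟨e, he⟩ := (IsPGroup.iff_orderOf.mp hD) (α x * x⁻¹)
    have h3 : p ^ e ∣ k := he ▸ orderOf_dvd_of_pow_eq_one h2
    have he0 : e = 0 := by
      by_contra h0
      exact hk ((dvd_pow_self p h0).trans h3)
    rw [he0, pow_zero, orderOf_eq_one_iff] at he
    rw [MulAut.one_apply]
    exact mul_inv_eq_one.mp he

/-- A `p`-regular element acting trivially on `D ⧸ D'` (`D` a normal `p`-subgroup) centralizes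
`D`. -/
theorem mem_centralizer_of_coprime {G : Type u} [Group G] [Finite G] (p : ℕ) [Fact p.Prime]
    (D : Subgroup G) [D.Normal] (hD : IsPGroup p D) (g : G) (hg : ¬ p ∣ orderOf g)
    (h : ∀ d ∈ D, g * d * g⁻¹ * d⁻¹ ∈ ⁅D, D⁆) : g ∈ Subgroup.centralizer (D : Set G) := by
  have key := aut_eq_one_of_coprime p (Nat.card D) D rfl hD (MulAut.conjNormal g) (orderOf g) hg
    (by rw [← map_pow, pow_orderOf_eq_one, map_one])
    (by
      intro x
      have h1 := h x x.2
      rw [← Subgroup.map_subtype_commutator D] at h1
      obtain ⟨c, hc, hc'⟩ := h1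
      have : c = MulAut.conjNormal g x * x⁻¹ := Subtype.ext (by simpa using hc')
      rwa [← this])
  rw [Subgroup.mem_centralizer_iff]
  intro d hd
  have h2 := congrArg (fun β : MulAut D => ((β ⟨d, hd⟩ : D) : G)) key
  simp only [MulAut.conjNormal_apply, MulAut.one_apply] at h2
  exact (mul_inv_eq_iff_eq_mul.mp h2).symm

end Cfsg.Agent.H84
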