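import Cfsg.Agent.H81.CycDefs
import Cfsg.Agent.H32.Virtual
import Cfsg.Agent.S1505
import Cfsg.Agent.H4.Blich1
import Cfsg.Agent.H4.BrauerBasic
import Cfsg.Agent.H4.Exceptional
import Cfsg.Agent.H4.PaQb

/-! S1502 piece GRAM (helper81's project): the virtual characters `Ind (1-φ)(1-ψ) - 1` have
integer coordinates on the irreducible characters whose Gram matrix is the one of `Arr`. -/

set_option autoImplicit false
open Cfsg

namespace Cfsg.Agent.H84.Cyc

open Cfsg.Agent.H4 Cfsg.Agent.H32 Cfsg.Agent.H81.Cyc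

universe u

theorem classInner_one_one {G : Type u} [Group G] [Fintype G] :
    classInner (fun _ : G => (1 : ℂ)) (fun _ => 1) = 1 :=
  irr_inner_self ⟨fun _ => 1, isIrrCharacter_one⟩

theorem gram : StmtGram.{u} := by
  intro G _ _ instIrr W₁ W₂ hW
  classical
  have : Fintype ↥(W₁ ⊔ W₂) := Fintype.ofFinite _
  set α : (↥(W₁ ⊔ W₂) →* ℂˣ) → (↥(W₁ ⊔ W₂) →* ℂˣ) → ↥(W₁ ⊔ W₂) → ℂ :=
    fun φ ψ w => 1 - (φ w : ℂ) - (ψ w : ℂ) + (φ w : ℂ) * (ψ w : ℂ) with hα
  set e : (↥(W₁ ⊔ W₂) →* ℂˣ) → (↥(W₁ ⊔ W₂) → ℂ) := fun ω w => ((ω w : ℂˣ) : ℂ) with he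
  have hαe : ∀ φ ψ : ↥(W₁ ⊔ W₂) →* ℂˣ, α φ ψ = e 1 - e φ - e ψ + e (φ * ψ) := by
    intro φ ψ
    funext w
    simp [he, hα]
  have hchar : ∀ ω : ↥(W₁ ⊔ W₂) →* ℂˣ, IsGeneralizedCharacter G (indFun (W₁ ⊔ W₂) (e ω)) :=
    fun ω => isGeneralizedCharacter_of_isCharacter
      (isCharacter_indFun (W₁ ⊔ W₂) (e ω) (isCharacter_of_hom ω))
  have hone : IsCharacter G (fun _ => (1 : ℂ)) := isCharacter_of_isIrrCharacter isIrrCharacter_one
  have hgen : ∀ φ ψ : ↥(W₁ ⊔ W₂) →* ℂˣ,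
      IsGeneralizedCharacter G (indFun (W₁ ⊔ W₂) (α φ ψ) - fun _ => 1) := by
    intro φ ψ
    rw [hαe, indFun_add, indFun_sub, indFun_sub]
    exact isGeneralizedCharacter_sub
      (isGeneralizedCharacter_add (isGeneralizedCharacter_sub (isGeneralizedCharacter_sub
        (hchar 1) (hchar φ)) (hchar ψ)) (hchar (φ * ψ)))
      (isGeneralizedCharacter_of_isCharacter hone)
  choose X hX using fun (i : IdxL W₁ W₂) (j : IdxR W₁ W₂) => genChar_coeff (hgen i.1 j.1)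
  -- inner products
  have hin : ∀ (i i' : IdxL W₁ W₂) (j j' : IdxR W₁ W₂),
      classInner (indFun (W₁ ⊔ W₂) (α i.1 j.1) - fun _ => 1)
        (indFun (W₁ ⊔ W₂) (α i'.1 j'.1) - fun _ => 1) =
        (if i = i' then 1 else 0) + (if j = j' then 1 else 0) +
          (if i = i' then 1 else 0) * (if j = j' then 1 else 0) := by
    intro i i' j j'
    have h1 := Cfsg.Agent.S1505.result W₁ W₂ hW i.1 i'.1 j.1 j'.1 i.2.1 i'.2.1 j.2.1 j'.2.1
      (fun w hw => ⟨i.2.2 w hw, i'.2.2 w hw⟩) (fun w hw => ⟨j.2.2 w hw, j'.2.2 w hw⟩)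
    have h2 := Cfsg.Agent.S1505.result W₁ W₂ hW i'.1 i'.1 j'.1 j'.1 i'.2.1 i'.2.1 j'.2.1 j'.2.1
      (fun w hw => ⟨i'.2.2 w hw, i'.2.2 w hw⟩) (fun w hw => ⟨j'.2.2 w hw, j'.2.2 w hw⟩)
    have h3 : classInner (fun _ : G => (1 : ℂ)) (indFun (W₁ ⊔ W₂) (α i'.1 j'.1)) = 1 := by
      rw [← classInner_conj_symm]
      show (starRingEnd ℂ) (classInner (indFun (W₁ ⊔ W₂) (α i'.1 j'.1)) fun _ => 1) = 1
      rw [show classInner (indFun (W₁ ⊔ W₂) (α i'.1 j'.1)) (fun _ => 1) = 1 from h2.1]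
      simp
    rw [classInner_sub_left, classInner_sub_right, classInner_sub_right, classInner_one_one, h3]
    rw [show classInner (indFun (W₁ ⊔ W₂) (α i.1 j.1)) (fun _ => 1) = 1 from h1.1]
    rw [show classInner (indFun (W₁ ⊔ W₂) (α i.1 j.1)) (indFun (W₁ ⊔ W₂) (α i'.1 j'.1)) = _
      from h1.2]
    have e1 : (i.1 = i'.1) ↔ i = i' := Subtype.ext_iff.symm
    have e2 : (j.1 = j'.1) ↔ j = j' := Subtype.ext_iff.symm
    by_cases hi : i = i' <;> by_cases hj : j = j' <;>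
      simp [hi, hj, e1, e2]
  have hsum : ∀ (i i' : IdxL W₁ W₂) (j j' : IdxR W₁ W₂),
      ((∑ t, X i j t * X i' j' t : ℤ) : ℂ) =
        (if i = i' then 1 else 0) + (if j = j' then 1 else 0) +
          (if i = i' then 1 else 0) * (if j = j' then 1 else 0) := by
    intro i i' j j'
    rw [← hin i i' j j', hX i j, hX i' j', classInner_finsum_finsum, finsum_eq_sum_of_fintype]
    push_cast
    apply Finset.sum_congr rfl
    intro χ _
    rw [map_intCast]
  have hexp : ∀ (i : IdxL W₁ W₂) (j : IdxR W₁ W₂) (g : G),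
      indFun (W₁ ⊔ W₂) (α i.1 j.1) g = 1 + ∑ χ : IrrCharacter G, (X i j χ : ℂ) * (χ : G → ℂ) g := by
    intro i j g
    have h := congrFun (hX i j) g
    rw [finsum_eq_sum_of_fintype, Finset.sum_apply] at h
    simp only [Pi.sub_apply, Pi.smul_apply, smul_eq_mul] at h
    rw [← h]
    ring
  refine ⟨fun χ => (charDegree χ.1 : ℤ), X, ⟨?_, ?_, ?_, ?_, ?_, ?_⟩, ?_, hexp⟩
  · intro t
    exact_mod_cast irr_charDegree_pos t
  · intro i j
    have h := hsum i i j j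
    simp only [if_true] at h
    have : ((∑ t, X i j t * X i j t : ℤ) : ℂ) = ((3 : ℤ) : ℂ) := by rw [h]; norm_num
    exact_mod_cast this
  · intro i j j' hj
    have h := hsum i i j j'
    simp only [if_true, if_neg hj] at h
    have : ((∑ t, X i j t * X i j' t : ℤ) : ℂ) = ((1 : ℤ) : ℂ) := by rw [h]; norm_num
    exact_mod_cast this
  · intro i i' j hi
    have h := hsum i i' j j
    simp only [if_true, if_neg hi] at h
    have : ((∑ t, X i j t * X i' j t : ℤ) : ℂ) = ((1 : ℤ) : ℂ) := by rw [h]; norm_num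
    exact_mod_cast this
  · intro i i' j j' hi hj
    have h := hsum i i' j j'
    simp only [if_neg hi, if_neg hj] at h
    have : ((∑ t, X i j t * X i' j' t : ℤ) : ℂ) = ((0 : ℤ) : ℂ) := by rw [h]; norm_num
    exact_mod_cast this
  · intro i j
    have h := hexp i j 1
    have h0 : indFun (W₁ ⊔ W₂) (α i.1 j.1) 1 = 0 := by
      apply indFun_one_eq_zero
      simp [hα]
    rw [h0] at h
    have hdeg : ∀ χ : IrrCharacter G, (χ : G → ℂ) 1 = ((charDegree χ.1 : ℕ) : ℂ) :=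
      fun χ => isCharacter_one_eq (isCharacter_of_isIrrCharacter χ.2)
    simp only [hdeg] at h
    have : ((∑ t, X i j t * (charDegree t.1 : ℤ) : ℤ) : ℂ) = ((-1 : ℤ) : ℂ) := by
      push_cast
      linear_combination -h
    exact_mod_cast this
  · intro i j χ hχ
    have h := genChar_coeff_eq (X i j) χ
    rw [← hX i j, hχ, classInner_sub_left, classInner_one_one] at h
    have h1 := Cfsg.Agent.S1505.result W₁ W₂ hW i.1 i.1 j.1 j.1 i.2.1 i.2.1 j.2.1 j.2.1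
      (fun w hw => ⟨i.2.2 w hw, i.2.2 w hw⟩) (fun w hw => ⟨j.2.2 w hw, j.2.2 w hw⟩)
    rw [show classInner (indFun (W₁ ⊔ W₂) (α i.1 j.1)) (fun _ => 1) = 1 from h1.1, sub_self] at h
    exact_mod_cast h.symm

example : StmtGram.{u} := gram

end Cfsg.Agent.H84.Cyc
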