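/-
helper84 library (Mathlib only): finite groups with a four-group all of whose involutions have
small centralizers have bounded order, the bound depending only on the centralizer bound and the
order of a Sylow 2-subgroup.  The proof is an elementary Brauer–Fowler type induction.
-/
import Mathlib

set_option autoImplicit false
set_option linter.style.haveILetI false
set_option linter.unusedSectionVars false
set_option linter.unusedVariables false

namespace Cfsg.Agent.H84

universe u

section SmallCent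

variable {G : Type u} [Group G]

theorem mem_cent_singleton {g x : G} :
    g ∈ Subgroup.centralizer ({x} : Set G) ↔ x * g = g * x := by
  rw [Subgroup.mem_centralizer_iff]
  constructor
  · intro h
    exact h x rfl
  · intro h y hy
    rw [Set.mem_singleton_iff] at hy
    rw [hy]
    exact h

theorem card_cent_eq_filter [Fintype G] [DecidableEq G] (x : G) :
    Nat.card (Subgroup.centralizer ({x} : Set G)) =
      (Finset.univ.filter (fun g : G => x * g = g * x)).card := by
  apply Nat.subtype_card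
  intro g
  rw [Finset.mem_filter, mem_cent_singleton]
  simp

theorem card_subgroup_eq_filter [Fintype G] (H : Subgroup G)
    [DecidablePred fun g : G => g ∈ H] :
    Nat.card H = (Finset.univ.filter (fun g : G => g ∈ H)).card := by
  apply Nat.subtype_card
  intro g
  simp

/-- If the fibres of `f` on `s` are contained in left translates of `T`, then
`|s| ≤ |T| · |f(s)|`. -/
theorem card_le_mul_of_translate [DecidableEq G] {β : Type*} [DecidableEq β] (s T : Finset G)
    (f : G → β) (h : ∀ g ∈ s, ∀ g' ∈ s, f g = f g' → g⁻¹ * g' ∈ T) :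
    s.card ≤ T.card * (s.image f).card := by
  apply Finset.card_le_mul_card_image
  intro b hb
  obtain ⟨g0, hg0, rfl⟩ := Finset.mem_image.mp hb
  apply Finset.card_le_card_of_injOn (fun g => g0⁻¹ * g)
  · intro g hg
    have hg' := Finset.mem_filter.mp (Finset.mem_coe.mp hg)
    exact Finset.mem_coe.mpr (h g0 hg0 g hg'.1 hg'.2.symm)
  · intro g _ g' _ hgg
    exact mul_left_cancel hgg

/-- Centralizers of conjugate elements have the same order. -/
theorem card_centralizer_conj (h x : G) :
    Nat.card (Subgroup.centralizer ({h * x * h⁻¹} : Set G)) =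
      Nat.card (Subgroup.centralizer ({x} : Set G)) := by
  apply Nat.card_congr
  refine Equiv.subtypeEquiv (MulAut.conj h⁻¹).toEquiv ?_
  intro g
  rw [mem_cent_singleton, mem_cent_singleton]
  simp only [MulEquiv.toEquiv_eq_coe, EquivLike.coe_coe, MulAut.conj_apply, inv_inv]
  constructor
  · intro hg
    calc x * (h⁻¹ * g * h) = h⁻¹ * ((h * x * h⁻¹) * g) * h := by group
      _ = h⁻¹ * (g * (h * x * h⁻¹)) * h := by rw [hg]
      _ = h⁻¹ * g * h * x := by group
  · intro hg
    calc h * x * h⁻¹ * g = h * (x * (h⁻¹ * g * h)) * h⁻¹ := by group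
      _ = h * ((h⁻¹ * g * h) * x) * h⁻¹ := by rw [hg]
      _ = g * (h * x * h⁻¹) := by group

theorem card_comap_mk' [Finite G] (N : Subgroup G) [N.Normal] (H : Subgroup (G ⧸ N)) :
    Nat.card (H.comap (QuotientGroup.mk' N)) = Nat.card H * Nat.card N := by
  have hidx : (H.comap (QuotientGroup.mk' N)).index = H.index :=
    Subgroup.index_comap_of_surjective H (QuotientGroup.mk'_surjective N)
  have e1 := Subgroup.card_mul_index (H.comap (QuotientGroup.mk' N))
  have e2 := Subgroup.card_mul_index H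
  have e3 : Nat.card G = Nat.card (G ⧸ N) * Nat.card N :=
    Subgroup.card_eq_card_quotient_mul_card_subgroup N
  have hpos : 0 < H.index := Nat.pos_of_ne_zero Subgroup.index_ne_zero_of_finite
  rw [hidx] at e1
  have h4 : Nat.card (H.comap (QuotientGroup.mk' N)) * H.index =
      (Nat.card H * Nat.card N) * H.index := by
    rw [e1, e3, ← e2]
    ring
  exact Nat.eq_of_mul_eq_mul_right hpos h4

/-- The centralizer of the image of `x` in a quotient is no bigger than the centralizer of `x`. -/
theorem card_centralizer_quotient_le [Finite G] (N : Subgroup G) [N.Normal] (x : G) :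
    Nat.card (Subgroup.centralizer ({(x : G ⧸ N)} : Set (G ⧸ N))) ≤
      Nat.card (Subgroup.centralizer ({x} : Set G)) := by
  classical
  letI := Fintype.ofFinite G
  obtain ⟨Cb, hCb⟩ : ∃ Cb : Subgroup (G ⧸ N),
      Cb = Subgroup.centralizer ({(x : G ⧸ N)} : Set (G ⧸ N)) := ⟨_, rfl⟩
  rw [← hCb]
  have h1 := card_comap_mk' N Cb
  have h2 : Nat.card (Cb.comap (QuotientGroup.mk' N)) ≤
      Nat.card (Subgroup.centralizer ({x} : Set G)) * Nat.card N := by
    rw [card_cent_eq_filter x, card_subgroup_eq_filter (Cb.comap (QuotientGroup.mk' N)),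
      card_subgroup_eq_filter N]
    refine (card_le_mul_of_translate _ (Finset.univ.filter (fun g : G => x * g = g * x))
      (fun g => g * x * g⁻¹ * x⁻¹) ?_).trans ?_
    · intro g hg g' hg' hgg
      rw [Finset.mem_filter]
      refine ⟨Finset.mem_univ _, ?_⟩
      have h3 : g * x * g⁻¹ = g' * x * g'⁻¹ := by
        have := congrArg (· * x) hgg
        simpa using this
      calc x * (g⁻¹ * g') = g⁻¹ * (g * x * g⁻¹) * g' := by group
        _ = g⁻¹ * (g' * x * g'⁻¹) * g' := by rw [h3]
        _ = g⁻¹ * g' * x := by group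
    · apply Nat.mul_le_mul_left
      apply Finset.card_le_card
      intro n hn
      obtain ⟨g, hg, rfl⟩ := Finset.mem_image.mp hn
      rw [Finset.mem_filter] at hg ⊢
      refine ⟨Finset.mem_univ _, ?_⟩
      have hgL : (QuotientGroup.mk' N g) ∈ Cb := hg.2
      rw [hCb, mem_cent_singleton] at hgL
      have h4 : ((g * x * g⁻¹ * x⁻¹ : G) : G ⧸ N) = 1 := by
        have h5 : ((x : G ⧸ N)) * (g : G ⧸ N) = (g : G ⧸ N) * (x : G ⧸ N) := hgL
        rw [QuotientGroup.mk_mul, QuotientGroup.mk_mul, QuotientGroup.mk_mul,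
          QuotientGroup.mk_inv, QuotientGroup.mk_inv, ← h5]
        group
      exact (QuotientGroup.eq_one_iff _).mp h4
  rw [h1] at h2
  exact Nat.le_of_mul_le_mul_right h2 Nat.card_pos

/-- A subgroup of odd order has no involutions. -/
theorem eq_one_of_sq_of_odd [Finite G] (K : Subgroup G) (hK : Odd (Nat.card K)) (z : G)
    (hz : z ∈ K) (hzz : z * z = 1) : z = 1 := by
  by_contra hne
  have h2 : orderOf z = 2 := by
    apply orderOf_eq_prime
    · rw [pow_two]
      exact hzz
    · exact hne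
  have hdvd : orderOf z ∣ Nat.card K := by
    have := orderOf_dvd_natCard (⟨z, hz⟩ : K)
    rwa [Subgroup.orderOf_mk] at this
  rw [h2] at hdvd
  exact (Nat.not_even_iff_odd.mpr hK) (even_iff_two_dvd.mpr hdvd)

theorem inv_eq_self_of_sq {x : G} (hx : x * x = 1) : x⁻¹ = x :=
  inv_eq_of_mul_eq_one_left hx

/-- For `k` in a normal subgroup `K` of odd order and commuting involutions `u ≠ v`, the conjugate
`k v k⁻¹` centralizes an involution `z` that centralizes `u` and is conjugate to `u v`. -/
theorem exists_central_invol_of_odd_normal [Finite G] (K : Subgroup G) [K.Normal]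
    (hK : Odd (Nat.card K)) (u v : G) (hu : u * u = 1) (hv : v * v = 1) (huv : u * v = v * u)
    (hne : u ≠ v) (k : G) (hk : k ∈ K) :
    ∃ z : G, u * z = z * u ∧ z * (k * v * k⁻¹) = (k * v * k⁻¹) * z ∧
      Nat.card (Subgroup.centralizer ({z} : Set G)) =
        Nat.card (Subgroup.centralizer ({u * v} : Set G)) := by
  have hui := inv_eq_self_of_sq hu
  have hvi := inv_eq_self_of_sq hv
  obtain ⟨w, hw⟩ : ∃ w : G, w = u * v := ⟨_, rfl⟩
  have hww : w * w = 1 := by
    rw [hw]
    calc u * v * (u * v) = u * (v * u) * v := by group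
      _ = u * (u * v) * v := by rw [huv]
      _ = (u * u) * (v * v) := by group
      _ = 1 := by rw [hu, hv, one_mul]
  have hwi := inv_eq_self_of_sq hww
  have hw1 : w ≠ 1 := by
    intro h
    apply hne
    have : u * v = 1 := by rw [← hw]; exact h
    calc u = (v⁻¹) := eq_inv_of_mul_eq_one_left this
      _ = v := hvi
  have hwK : w ∉ K := fun h => hw1 (eq_one_of_sq_of_odd K hK w h hww)
  obtain ⟨y, hy⟩ : ∃ y : G, y = k * v * k⁻¹ := ⟨_, rfl⟩
  have hyy : y * y = 1 := by
    rw [hy]
    calc k * v * k⁻¹ * (k * v * k⁻¹) = k * (v * v) * k⁻¹ := by group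
      _ = 1 := by rw [hv]; group
  have hyi := inv_eq_self_of_sq hyy
  obtain ⟨g, hg⟩ : ∃ g : G, g = u * y := ⟨_, rfl⟩
  -- images in the quotient
  have hk1 : ((k : G) : G ⧸ K) = 1 := (QuotientGroup.eq_one_iff k).mpr hk
  have hgw : ((g : G) : G ⧸ K) = ((w : G) : G ⧸ K) := by
    rw [hg, hy, hw, QuotientGroup.mk_mul, QuotientGroup.mk_mul, QuotientGroup.mk_mul,
      QuotientGroup.mk_inv, hk1, QuotientGroup.mk_mul]
    group
  have hwq1 : ((w : G) : G ⧸ K) ≠ 1 := fun h => hwK ((QuotientGroup.eq_one_iff w).mp h)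
  have hwq2 : ((w : G) : G ⧸ K) * ((w : G) : G ⧸ K) = 1 := by
    rw [← QuotientGroup.mk_mul, hww, QuotientGroup.mk_one]
  have hwpow : ∀ m : ℕ, ((w : G) : G ⧸ K) ^ (2 * m) = 1 := by
    intro m
    rw [pow_mul, pow_two, hwq2, one_pow]
  have hgpow : ∀ m : ℕ, ((g ^ m : G) : G ⧸ K) = ((w : G) : G ⧸ K) ^ m := by
    intro m
    rw [QuotientGroup.mk_pow, hgw]
  -- the order of `g` is even
  have hn0 : 0 < orderOf g := orderOf_pos g
  obtain ⟨m, hm⟩ : ∃ m : ℕ, orderOf g = 2 * m := by
    rcases Nat.even_or_odd' (orderOf g) with ⟨m, hm | hm⟩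
    · exact ⟨m, hm⟩
    · exfalso
      have h1 := hgpow (orderOf g)
      rw [pow_orderOf_eq_one, QuotientGroup.mk_one, hm, pow_succ, hwpow, one_mul] at h1
      exact hwq1 h1.symm
  have hm0 : m ≠ 0 := by
    rintro rfl
    omega
  obtain ⟨z, hz⟩ : ∃ z : G, z = g ^ m := ⟨_, rfl⟩
  have hzz : z * z = 1 := by
    rw [hz, ← pow_add, ← two_mul, ← hm, pow_orderOf_eq_one]
  have hzi := inv_eq_self_of_sq hzz
  have hz1 : z ≠ 1 := by
    rw [hz]
    apply pow_ne_one_of_lt_orderOf hm0
    omega
  have hzK : z ∉ K := fun h => hz1 (eq_one_of_sq_of_odd K hK z h hzz)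
  -- `m` is odd, so `z ∈ wK`
  have hzw : ((z : G) : G ⧸ K) = ((w : G) : G ⧸ K) := by
    rcases Nat.even_or_odd' m with ⟨j, hj | hj⟩
    · exfalso
      apply hzK
      apply (QuotientGroup.eq_one_iff z).mp
      rw [hz, hgpow, hj, hwpow]
    · rw [hz, hgpow, hj, pow_succ, hwpow, one_mul]
  obtain ⟨κ, hκ⟩ : ∃ κ : G, κ = w⁻¹ * z := ⟨_, rfl⟩
  have hκK : κ ∈ K := by
    rw [hκ]
    exact QuotientGroup.eq.mp hzw.symm
  have hzκ : z = w * κ := by
    rw [hκ]
    group
  -- `w` inverts `κ`
  have hwκ : w * κ * w⁻¹ = κ⁻¹ := by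
    have h1 : w * κ * (w * κ) = 1 := by rw [← hzκ]; exact hzz
    have h2 : w * κ * w = κ⁻¹ := by
      have : (w * κ * w) * κ = 1 := by rw [← h1]; group
      exact eq_inv_of_mul_eq_one_left this
    rw [hwi]
    exact h2
  -- a square root of `κ`
  have hκodd : Odd (orderOf κ) := by
    have hdvd : orderOf κ ∣ Nat.card K := by
      have := orderOf_dvd_natCard (⟨κ, hκK⟩ : K)
      rwa [Subgroup.orderOf_mk] at this
    exact Odd.of_dvd_nat hK hdvd
  obtain ⟨j, hj⟩ := hκodd
  obtain ⟨s, hs⟩ : ∃ s : G, s = κ ^ (j + 1) := ⟨_, rfl⟩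
  have hss : s * s = κ := by
    rw [hs, ← pow_add]
    have : j + 1 + (j + 1) = orderOf κ + 1 := by omega
    rw [this, pow_succ, pow_orderOf_eq_one, one_mul]
  have hws : w * s * w⁻¹ = s⁻¹ := by
    rw [hs, ← conj_pow, hwκ, inv_pow]
  have hzs : z = s⁻¹ * w * s⁻¹⁻¹ := by
    have h1 : w⁻¹ * s⁻¹ * w = s := by
      have : w⁻¹ * s⁻¹ * w = (w * s * w⁻¹)⁻¹ := by
        calc w⁻¹ * s⁻¹ * w = w * s⁻¹ * w⁻¹ := by rw [hwi]
          _ = (w * s * w⁻¹)⁻¹ := by group
      rw [this, hws, inv_inv]
    calc z = w * κ := hzκ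
      _ = w * (s * s) := by rw [hss]
      _ = w * ((w⁻¹ * s⁻¹ * w) * s) := by rw [h1]
      _ = s⁻¹ * w * s⁻¹⁻¹ := by group
  refine ⟨z, ?_, ?_, ?_⟩
  · -- `u` inverts `g`
    have h1 : u * g * u⁻¹ = g⁻¹ := by
      rw [hg, hui, mul_inv_rev, hui, hyi]
      calc u * (u * y) * u = (u * u) * y * u := by group
        _ = y * u := by rw [hu, one_mul]
    have h2 : u * z * u⁻¹ = z := by
      rw [hz, ← conj_pow, h1, inv_pow, ← hz, hzi]
    calc u * z = (u * z * u⁻¹) * u := by group
      _ = z * u := by rw [h2]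
  · have h1 : y * g * y⁻¹ = g⁻¹ := by
      rw [hg, hyi, mul_inv_rev, hui, hyi]
      calc y * (u * y) * y = y * u * (y * y) := by group
        _ = y * u := by rw [hyy, mul_one]
    have h2 : y * z * y⁻¹ = z := by
      rw [hz, ← conj_pow, h1, inv_pow, ← hz, hzi]
    rw [← hy]
    calc z * y = (y * z * y⁻¹) * y := by rw [h2]
      _ = y * z := by group
  · rw [hzs, card_centralizer_conj, hw]

/-- A normal subgroup of odd order has order at most `c³` if the involutions of a four-group
have centralizers of order at most `c`. -/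
theorem card_le_of_odd_normal [Finite G] (K : Subgroup G) [K.Normal] (hK : Odd (Nat.card K))
    (u v : G) (hu : u * u = 1) (hv : v * v = 1) (huv : u * v = v * u) (hne : u ≠ v) (c : ℕ)
    (hcu : Nat.card (Subgroup.centralizer ({u} : Set G)) ≤ c)
    (hcv : Nat.card (Subgroup.centralizer ({v} : Set G)) ≤ c)
    (hcw : Nat.card (Subgroup.centralizer ({u * v} : Set G)) ≤ c) :
    Nat.card K ≤ c * (c * c) := by
  classical
  letI := Fintype.ofFinite G
  rw [card_subgroup_eq_filter K]
  obtain ⟨U, hU⟩ : ∃ U : Finset G, U = (Finset.univ.filter (fun z : G => u * z = z * u)).biUnion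
      (fun z => if Nat.card (Subgroup.centralizer ({z} : Set G)) ≤ c then
        Finset.univ.filter (fun g : G => z * g = g * z) else ∅) := ⟨_, rfl⟩
  have hUcard : U.card ≤ c * c := by
    rw [hU]
    refine Finset.card_biUnion_le.trans ?_
    refine (Finset.sum_le_card_nsmul _ _ c ?_).trans ?_
    · intro z _
      split_ifs with h
      · exact le_of_eq_of_le (card_cent_eq_filter z).symm h
      · simp
    · rw [smul_eq_mul]
      exact Nat.mul_le_mul_right c (le_of_eq_of_le (card_cent_eq_filter u).symm hcu)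
  refine (card_le_mul_of_translate _ (Finset.univ.filter (fun g : G => v * g = g * v))
    (fun k => k * v * k⁻¹) ?_).trans ?_
  · intro k _ k' _ hkk
    rw [Finset.mem_filter]
    refine ⟨Finset.mem_univ _, ?_⟩
    have hkk' : k * v * k⁻¹ = k' * v * k'⁻¹ := hkk
    calc v * (k⁻¹ * k') = k⁻¹ * (k * v * k⁻¹) * k' := by group
      _ = k⁻¹ * (k' * v * k'⁻¹) * k' := by rw [hkk']
      _ = k⁻¹ * k' * v := by group
  · refine Nat.mul_le_mul (le_of_eq_of_le (card_cent_eq_filter v).symm hcv) ?_
    refine le_trans (Finset.card_le_card ?_) hUcard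
    intro y hy
    obtain ⟨k, hk, rfl⟩ := Finset.mem_image.mp hy
    have hkK : k ∈ K := (Finset.mem_filter.mp hk).2
    obtain ⟨z, hz1, hz2, hz3⟩ :=
      exists_central_invol_of_odd_normal K hK u v hu hv huv hne k hkK
    rw [hU, Finset.mem_biUnion]
    refine ⟨z, Finset.mem_filter.mpr ⟨Finset.mem_univ _, hz1⟩, ?_⟩
    rw [if_pos (by rw [hz3]; exact hcw)]
    exact Finset.mem_filter.mpr ⟨Finset.mem_univ _, hz2⟩

/-- **Brauer–Fowler**: if the involution `u` has a centralizer of order at most `c`, then either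
`|G| ≤ c` or some non-identity element has a centralizer of index at most `2c²`. -/
theorem brauer_fowler [Finite G] (u : G) (hu : u * u = 1) (c : ℕ)
    (hcu : Nat.card (Subgroup.centralizer ({u} : Set G)) ≤ c) :
    Nat.card G ≤ c ∨ ∃ g : G, g ≠ 1 ∧
      Nat.card G ≤ 2 * c * c * Nat.card (Subgroup.centralizer ({g} : Set G)) := by
  classical
  letI := Fintype.ofFinite G
  have hcpos : 0 < c := lt_of_lt_of_le Nat.card_pos hcu
  obtain ⟨K, hK⟩ : ∃ K : Finset G, K = Finset.univ.image (fun h : G => h * u * h⁻¹) := ⟨_, rfl⟩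
  have hGK : Nat.card G ≤ c * K.card := by
    rw [Nat.card_eq_fintype_card, ← Finset.card_univ, hK]
    refine (card_le_mul_of_translate _ (Finset.univ.filter (fun g : G => u * g = g * u))
      (fun h : G => h * u * h⁻¹) ?_).trans ?_
    · intro h _ h' _ hh
      rw [Finset.mem_filter]
      refine ⟨Finset.mem_univ _, ?_⟩
      have hh' : h * u * h⁻¹ = h' * u * h'⁻¹ := hh
      calc u * (h⁻¹ * h') = h⁻¹ * (h * u * h⁻¹) * h' := by group
        _ = h⁻¹ * (h' * u * h'⁻¹) * h' := by rw [hh']
        _ = h⁻¹ * h' * u := by group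
    · exact Nat.mul_le_mul_right _ (le_of_eq_of_le (card_cent_eq_filter u).symm hcu)
  have hKinv : ∀ x ∈ K, x * x = 1 := by
    intro x hx
    rw [hK] at hx
    obtain ⟨h, _, rfl⟩ := Finset.mem_image.mp hx
    calc h * u * h⁻¹ * (h * u * h⁻¹) = h * (u * u) * h⁻¹ := by group
      _ = 1 := by rw [hu]; group
  by_cases hn : K.card ≤ 1
  · left
    calc Nat.card G ≤ c * K.card := hGK
      _ ≤ c * 1 := Nat.mul_le_mul_left c hn
      _ = c := mul_one c
  right
  by_contra hcon
  push Not at hcon
  -- every non-identity centralizer is small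
  obtain ⟨B, hB⟩ : ∃ B : ℕ, B = (Nat.card G - 1) / (2 * c * c) := ⟨_, rfl⟩
  have hBle : ∀ g : G, g ≠ 1 → Nat.card (Subgroup.centralizer ({g} : Set G)) ≤ B := by
    intro g hg
    have h1 := hcon g hg
    rw [hB, Nat.le_div_iff_mul_le (by positivity)]
    have : Nat.card (Subgroup.centralizer ({g} : Set G)) * (2 * c * c) + 1 ≤ Nat.card G := by
      rw [mul_comm]
      exact h1
    omega
  have hBmul : B * (2 * c * c) ≤ Nat.card G - 1 := by
    rw [hB]
    exact Nat.div_mul_le_self _ _
  -- count pairs of distinct conjugates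
  have hoff : K.offDiag.card ≤ B * (Nat.card G - 1) := by
    refine (Finset.card_le_mul_card_image (f := fun q : G × G => q.1 * q.2) K.offDiag B ?_).trans ?_
    · intro g hg
      obtain ⟨q0, hq0, rfl⟩ := Finset.mem_image.mp hg
      have hq0' := Finset.mem_offDiag.mp hq0
      have hx0 := hKinv _ hq0'.1
      have hy0 := hKinv _ hq0'.2.1
      have hg1 : q0.1 * q0.2 ≠ 1 := by
        intro h
        apply hq0'.2.2
        calc q0.1 = (q0.2)⁻¹ := eq_inv_of_mul_eq_one_left h
          _ = q0.2 := inv_eq_self_of_sq hy0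
      refine le_trans ?_ (hBle _ hg1)
      rw [card_cent_eq_filter]
      apply Finset.card_le_card_of_injOn (fun q : G × G => q0.1⁻¹ * q.1)
      · intro q hq
        have hq' := Finset.mem_filter.mp (Finset.mem_coe.mp hq)
        have hq'' := Finset.mem_offDiag.mp hq'.1
        have hx := hKinv _ hq''.1
        have hy := hKinv _ hq''.2.1
        have heq : q.1 * q.2 = q0.1 * q0.2 := hq'.2
        apply Finset.mem_coe.mpr
        rw [Finset.mem_filter]
        refine ⟨Finset.mem_univ _, ?_⟩
        -- `q.1` and `q0.1` both invert `g`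
        have hq2 : q.2 = q.1 * (q0.1 * q0.2) := by
          rw [← heq, ← mul_assoc, hx, one_mul]
        have hq1i := inv_eq_self_of_sq hx
        have hq01i := inv_eq_self_of_sq hx0
        have hinv1 : q.1 * (q0.1 * q0.2) * q.1 = (q0.1 * q0.2)⁻¹ := by
          have : (q.1 * (q0.1 * q0.2) * q.1) * (q0.1 * q0.2) = 1 := by
            calc (q.1 * (q0.1 * q0.2) * q.1) * (q0.1 * q0.2)
                = (q.1 * (q0.1 * q0.2)) * (q.1 * (q0.1 * q0.2)) := by group
              _ = q.2 * q.2 := by rw [← hq2]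
              _ = 1 := hy
          exact eq_inv_of_mul_eq_one_left this
        have hinv0 : q0.1 * (q0.1 * q0.2) * q0.1 = (q0.1 * q0.2)⁻¹ := by
          have : (q0.1 * (q0.1 * q0.2) * q0.1) * (q0.1 * q0.2) = 1 := by
            calc (q0.1 * (q0.1 * q0.2) * q0.1) * (q0.1 * q0.2)
                = (q0.1 * q0.1) * q0.2 * (q0.1 * q0.1) * q0.2 := by group
              _ = q0.2 * q0.2 := by rw [hx0, one_mul, mul_one]
              _ = 1 := hy0
          exact eq_inv_of_mul_eq_one_left this
        have hconj : q.1 * (q0.1 * q0.2) * q.1 = q0.1 * (q0.1 * q0.2) * q0.1 := by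
          rw [hinv1, hinv0]
        calc q0.1 * q0.2 * (q0.1⁻¹ * q.1)
            = q0.1⁻¹ * (q0.1 * (q0.1 * q0.2) * q0.1) * (q0.1⁻¹ * q0.1⁻¹ * q.1) := by group
          _ = q0.1⁻¹ * (q.1 * (q0.1 * q0.2) * q.1) * (q0.1⁻¹ * q0.1⁻¹ * q.1) := by rw [hconj]
          _ = q0.1⁻¹ * (q.1 * (q0.1 * q0.2) * q.1) * ((q0.1 * q0.1)⁻¹ * q.1) := by group
          _ = q0.1⁻¹ * (q.1 * (q0.1 * q0.2) * q.1) * q.1 := by rw [hx0, inv_one, one_mul]
          _ = q0.1⁻¹ * q.1 * (q0.1 * q0.2) * (q.1 * q.1) := by group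
          _ = q0.1⁻¹ * q.1 * (q0.1 * q0.2) := by rw [hx, mul_one]
      · intro q hq q' hq' hqq
        have hq1 := Finset.mem_filter.mp (Finset.mem_coe.mp hq)
        have hq1' := Finset.mem_filter.mp (Finset.mem_coe.mp hq')
        have h1 : q.1 = q'.1 := mul_left_cancel hqq
        have h2 : q.1 * q.2 = q'.1 * q'.2 := hq1.2.trans hq1'.2.symm
        rw [h1] at h2
        exact Prod.ext h1 (mul_left_cancel h2)
    · apply Nat.mul_le_mul_left
      have hsub : K.offDiag.image (fun q : G × G => q.1 * q.2) ⊆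
          (Finset.univ : Finset G).erase 1 := by
        intro g hg
        obtain ⟨q0, hq0, rfl⟩ := Finset.mem_image.mp hg
        have hq0' := Finset.mem_offDiag.mp hq0
        have hy0 := hKinv _ hq0'.2.1
        rw [Finset.mem_erase]
        refine ⟨?_, Finset.mem_univ _⟩
        intro h
        apply hq0'.2.2
        calc q0.1 = (q0.2)⁻¹ := eq_inv_of_mul_eq_one_left h
          _ = q0.2 := inv_eq_self_of_sq hy0
      refine (Finset.card_le_card hsub).trans ?_
      rw [Finset.card_erase_of_mem (Finset.mem_univ _), Finset.card_univ,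
        Nat.card_eq_fintype_card]
  rw [Finset.offDiag_card] at hoff
  -- arithmetic
  obtain ⟨n, hn'⟩ : ∃ n : ℕ, n = K.card := ⟨_, rfl⟩
  rw [← hn'] at hoff hGK hn
  obtain ⟨N, hN⟩ : ∃ N : ℕ, N = Nat.card G := ⟨_, rfl⟩
  rw [← hN] at hoff hGK hBmul
  have hNpos : 0 < N := by rw [hN]; exact Nat.card_pos
  have hn2 : 2 ≤ n := by omega
  have h1 : (n * n - n) * (2 * c * c) ≤ (N - 1) * (N - 1) := by
    calc (n * n - n) * (2 * c * c) ≤ B * (N - 1) * (2 * c * c) := Nat.mul_le_mul_right _ hoff
      _ = B * (2 * c * c) * (N - 1) := by ring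
      _ ≤ (N - 1) * (N - 1) := Nat.mul_le_mul_right _ hBmul
  have h2 : (N - 1) * (N - 1) < N * N := by
    have : N - 1 < N := by omega
    nlinarith
  have h3 : N * N ≤ (c * n) * (c * n) := Nat.mul_le_mul hGK hGK
  have h4 : (n * n - n) * (2 * c * c) < (c * n) * (c * n) := lt_of_le_of_lt h1 (lt_of_lt_of_le h2 h3)
  have h5 : n * n - n + n = n * n := Nat.sub_add_cancel (Nat.le_mul_self n)
  have h6 : 2 * (n * n - n) ≥ n * n := by
    have : n * 2 ≤ n * n := Nat.mul_le_mul_left n hn2
    omega
  have h7 : (c * n) * (c * n) ≤ (n * n - n) * (2 * c * c) := by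
    calc (c * n) * (c * n) = (n * n) * (c * c) := by ring
      _ ≤ (2 * (n * n - n)) * (c * c) := Nat.mul_le_mul_right _ h6
      _ = (n * n - n) * (2 * c * c) := by ring
  omega

/-- An abelian normal subgroup has order at most `c³` if the involutions of a four-group
have centralizers of order at most `c`. -/
theorem card_le_of_abelian_normal [Finite G] (A : Subgroup G) [A.Normal]
    (hA : ∀ a ∈ A, ∀ b ∈ A, a * b = b * a)
    (u v : G) (hu : u * u = 1) (hv : v * v = 1) (huv : u * v = v * u) (c : ℕ)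
    (hcu : Nat.card (Subgroup.centralizer ({u} : Set G)) ≤ c)
    (hcv : Nat.card (Subgroup.centralizer ({v} : Set G)) ≤ c)
    (hcw : Nat.card (Subgroup.centralizer ({u * v} : Set G)) ≤ c) :
    Nat.card A ≤ c * (c * c) := by
  classical
  letI := Fintype.ofFinite G
  have hui := inv_eq_self_of_sq hu
  have hvi := inv_eq_self_of_sq hv
  rw [card_subgroup_eq_filter A]
  -- key: for an involution `t`, equal values of `a ↦ a (t a t⁻¹)` force `t` to invert `a⁻¹ b`
  have key : ∀ t : G, t * t = 1 → ∀ a ∈ A, ∀ b ∈ A, a * (t * a * t⁻¹) = b * (t * b * t⁻¹) →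
      t * (a⁻¹ * b) * t⁻¹ = (a⁻¹ * b)⁻¹ := by
    intro t ht a ha b hb hab
    have ha' : t * a * t⁻¹ ∈ A := Subgroup.Normal.conj_mem inferInstance a ha t
    have hb' : t * b * t⁻¹ ∈ A := Subgroup.Normal.conj_mem inferInstance b hb t
    have h1 : b⁻¹ * a = (t * b * t⁻¹) * (t * a * t⁻¹)⁻¹ := by
      calc b⁻¹ * a = b⁻¹ * (a * (t * a * t⁻¹)) * (t * a * t⁻¹)⁻¹ := by group
        _ = b⁻¹ * (b * (t * b * t⁻¹)) * (t * a * t⁻¹)⁻¹ := by rw [hab]
        _ = (t * b * t⁻¹) * (t * a * t⁻¹)⁻¹ := by group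
    have h2 : (t * b * t⁻¹) * (t * a * t⁻¹)⁻¹ = (t * a * t⁻¹)⁻¹ * (t * b * t⁻¹) :=
      hA _ hb' _ (A.inv_mem ha')
    calc t * (a⁻¹ * b) * t⁻¹ = (t * a * t⁻¹)⁻¹ * (t * b * t⁻¹) := by group
      _ = (t * b * t⁻¹) * (t * a * t⁻¹)⁻¹ := h2.symm
      _ = b⁻¹ * a := h1.symm
      _ = (a⁻¹ * b)⁻¹ := by group
  have key2 : ∀ t : G, t * t = 1 → ∀ a ∈ A, t * (a * (t * a * t⁻¹)) = (a * (t * a * t⁻¹)) * t := by
    intro t ht a ha
    have hti := inv_eq_self_of_sq ht
    have ha' : t * a * t⁻¹ ∈ A := Subgroup.Normal.conj_mem inferInstance a ha t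
    have h1 : a * (t * a * t⁻¹) = (t * a * t⁻¹) * a := hA _ ha _ ha'
    calc t * (a * (t * a * t⁻¹)) = (t * a * t⁻¹) * (t * t) * a * t⁻¹ := by group
      _ = (t * a * t⁻¹) * a * t⁻¹ := by rw [ht, mul_one]
      _ = a * (t * a * t⁻¹) * t⁻¹ := by rw [← h1]
      _ = (a * (t * a * t⁻¹)) * t := by rw [hti]
  refine (card_le_mul_of_translate _ (Finset.univ.filter (fun g : G => (u * v) * g = g * (u * v)))
    (fun a : G => (a * (u * a * u⁻¹), a * (v * a * v⁻¹))) ?_).trans ?_
  · intro a ha b hb hab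
    have haA : a ∈ A := (Finset.mem_filter.mp ha).2
    have hbA : b ∈ A := (Finset.mem_filter.mp hb).2
    have hab1 : a * (u * a * u⁻¹) = b * (u * b * u⁻¹) := congrArg Prod.fst hab
    have hab2 : a * (v * a * v⁻¹) = b * (v * b * v⁻¹) := congrArg Prod.snd hab
    have h1 := key u hu a haA b hbA hab1
    have h2 := key v hv a haA b hbA hab2
    rw [Finset.mem_filter]
    refine ⟨Finset.mem_univ _, ?_⟩
    have h3 : (u * v) * (a⁻¹ * b) * (u * v)⁻¹ = a⁻¹ * b := by
      calc (u * v) * (a⁻¹ * b) * (u * v)⁻¹ = u * (v * (a⁻¹ * b) * v⁻¹) * u⁻¹ := by group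
        _ = u * (a⁻¹ * b)⁻¹ * u⁻¹ := by rw [h2]
        _ = (u * (a⁻¹ * b) * u⁻¹)⁻¹ := by group
        _ = a⁻¹ * b := by rw [h1, inv_inv]
    calc u * v * (a⁻¹ * b) = ((u * v) * (a⁻¹ * b) * (u * v)⁻¹) * (u * v) := by group
      _ = a⁻¹ * b * (u * v) := by rw [h3]
  · refine Nat.mul_le_mul (le_of_eq_of_le (card_cent_eq_filter (u * v)).symm hcw) ?_
    have hsub : (Finset.univ.filter (fun g : G => g ∈ A)).image
        (fun a : G => (a * (u * a * u⁻¹), a * (v * a * v⁻¹))) ⊆
        (Finset.univ.filter (fun g : G => u * g = g * u)) ×ˢ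
          (Finset.univ.filter (fun g : G => v * g = g * v)) := by
      intro q hq
      obtain ⟨a, ha, rfl⟩ := Finset.mem_image.mp hq
      have haA : a ∈ A := (Finset.mem_filter.mp ha).2
      rw [Finset.mem_product, Finset.mem_filter, Finset.mem_filter]
      exact ⟨⟨Finset.mem_univ _, key2 u hu a haA⟩, ⟨Finset.mem_univ _, key2 v hv a haA⟩⟩
    refine (Finset.card_le_card hsub).trans ?_
    rw [Finset.card_product]
    exact Nat.mul_le_mul (le_of_eq_of_le (card_cent_eq_filter u).symm hcu)
      (le_of_eq_of_le (card_cent_eq_filter v).symm hcv)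

/-- The normal core of a subgroup of index `n` has index at most `n!`. -/
theorem index_normalCore_le [Finite G] (H : Subgroup G) :
    H.normalCore.index ≤ (H.index).factorial := by
  classical
  rw [Subgroup.normalCore_eq_ker, Subgroup.index_ker]
  refine (Subgroup.card_le_card_group _).trans ?_
  rw [Nat.card_perm, Subgroup.index_eq_card]

end SmallCent

/-- `N` bounds the order of every finite group whose Sylow 2-subgroups have order at most `2^a`
and which has a four-group all of whose involutions have centralizers of order at most `c`. -/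
def SmallCentBound (a c N : ℕ) : Prop :=
  ∀ (G : Type u) [Group G] [Finite G], (Nat.card G).factorization 2 ≤ a →
    ∀ u v : G, u * u = 1 → v * v = 1 → u * v = v * u → u ≠ 1 → v ≠ 1 → u ≠ v →
      Nat.card (Subgroup.centralizer ({u} : Set G)) ≤ c →
      Nat.card (Subgroup.centralizer ({v} : Set G)) ≤ c →
      Nat.card (Subgroup.centralizer ({u * v} : Set G)) ≤ c → Nat.card G ≤ N

/-- The same for groups without nontrivial normal subgroups of odd order. -/
def SmallCentBound' (a c N : ℕ) : Prop :=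
  ∀ (G : Type u) [Group G] [Finite G], (Nat.card G).factorization 2 ≤ a →
    (∀ K : Subgroup G, K.Normal → Odd (Nat.card K) → K = ⊥) →
    ∀ u v : G, u * u = 1 → v * v = 1 → u * v = v * u → u ≠ 1 → v ≠ 1 → u ≠ v →
      Nat.card (Subgroup.centralizer ({u} : Set G)) ≤ c →
      Nat.card (Subgroup.centralizer ({v} : Set G)) ≤ c →
      Nat.card (Subgroup.centralizer ({u * v} : Set G)) ≤ c → Nat.card G ≤ N

theorem smallCentBound'_zero (c : ℕ) : SmallCentBound'.{u} 0 c 0 := by
  intro G _ _ hfac hO u v hu hv huv hu1 hv1 hne hcu hcv hcw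
  exfalso
  have h2 : orderOf u = 2 := orderOf_eq_prime (by rw [pow_two]; exact hu) hu1
  have hdvd : 2 ∣ Nat.card G := by
    rw [← h2]
    exact orderOf_dvd_natCard u
  have := Nat.Prime.factorization_pos_of_dvd Nat.prime_two Nat.card_pos.ne' hdvd
  omega

theorem smallCentBound_of_prime (a c N : ℕ) (h : SmallCentBound'.{u} a c N) :
    SmallCentBound.{u} a c (N * (c * (c * c))) := by
  intro G _ _ hfac u v hu hv huv hu1 hv1 hne hcu hcv hcw
  classical
  obtain ⟨K, ⟨hKn, hKo⟩, hKmax⟩ := Set.exists_max_image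
    {K : Subgroup G | K.Normal ∧ Odd (Nat.card K)} (fun K => Nat.card K) (Set.toFinite _)
    ⟨⊥, inferInstance, by simp⟩
  haveI := hKn
  have hKle := card_le_of_odd_normal K hKo u v hu hv huv hne c hcu hcv hcw
  have hcardG : Nat.card G = Nat.card (G ⧸ K) * Nat.card K :=
    Subgroup.card_eq_card_quotient_mul_card_subgroup K
  have hQ : Nat.card (G ⧸ K) ≤ N := by
    apply h (G ⧸ K) ?_ ?_ (u : G ⧸ K) (v : G ⧸ K)
    · rw [← QuotientGroup.mk_mul, hu, QuotientGroup.mk_one]
    · rw [← QuotientGroup.mk_mul, hv, QuotientGroup.mk_one]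
    · rw [← QuotientGroup.mk_mul, ← QuotientGroup.mk_mul, huv]
    · intro h1
      exact hu1 (eq_one_of_sq_of_odd K hKo u ((QuotientGroup.eq_one_iff u).mp h1) hu)
    · intro h1
      exact hv1 (eq_one_of_sq_of_odd K hKo v ((QuotientGroup.eq_one_iff v).mp h1) hv)
    · intro h1
      have hmem : u⁻¹ * v ∈ K := QuotientGroup.eq.mp h1
      have hsq : (u⁻¹ * v) * (u⁻¹ * v) = 1 := by
        rw [inv_eq_self_of_sq hu]
        calc u * v * (u * v) = u * (v * u) * v := by group
          _ = u * (u * v) * v := by rw [huv]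
          _ = (u * u) * (v * v) := by group
          _ = 1 := by rw [hu, hv, one_mul]
      have h2 := eq_one_of_sq_of_odd K hKo _ hmem hsq
      rw [inv_mul_eq_one] at h2
      exact hne h2
    · exact (card_centralizer_quotient_le K u).trans hcu
    · exact (card_centralizer_quotient_le K v).trans hcv
    · have h3 := card_centralizer_quotient_le K (u * v)
      rw [QuotientGroup.mk_mul] at h3
      exact h3.trans hcw
    · have hdvd : Nat.card (G ⧸ K) ∣ Nat.card G := ⟨_, hcardG⟩
      exact le_trans ((Nat.factorization_le_iff_dvd Nat.card_pos.ne' Nat.card_pos.ne').mpr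
        hdvd 2) hfac
    · intro L hLn hLo
      haveI := hLn
      have hcomap := card_comap_mk' K L
      have hmem : L.comap (QuotientGroup.mk' K) ∈
          {K : Subgroup G | K.Normal ∧ Odd (Nat.card K)} :=
        ⟨inferInstance, by rw [hcomap]; exact hLo.mul hKo⟩
      have h4 := hKmax _ hmem
      simp only [hcomap] at h4
      have hL1 : Nat.card L = 1 := by
        have hKpos : 0 < Nat.card K := Nat.card_pos
        have hLpos : 0 < Nat.card L := Nat.card_pos
        nlinarith
      exact Subgroup.card_eq_one.mp hL1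
  calc Nat.card G = Nat.card (G ⧸ K) * Nat.card K := hcardG
    _ ≤ N * (c * (c * c)) := Nat.mul_le_mul hQ hKle

theorem smallCentBound'_succ (a c N : ℕ) (h : SmallCentBound.{u} a c N) :
    SmallCentBound'.{u} (a + 1) c
      (c * (2 * c * c).factorial + N * (c * (c * c) * (2 * c * c).factorial)) := by
  intro G _ _ hfac hO u v hu hv huv hu1 hv1 hne hcu hcv hcw
  classical
  letI := Fintype.ofFinite G
  have hfpos : 0 < (2 * c * c).factorial := Nat.factorial_pos _
  rcases brauer_fowler u hu c hcu with hle | ⟨g, hg1, hg⟩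
  · calc Nat.card G ≤ c := hle
      _ ≤ c * (2 * c * c).factorial := Nat.le_mul_of_pos_right c hfpos
      _ ≤ _ := Nat.le_add_right _ _
  obtain ⟨H, hH⟩ : ∃ H : Subgroup G, H = Subgroup.centralizer ({g} : Set G) := ⟨_, rfl⟩
  rw [← hH] at hg
  have hidx : H.index ≤ 2 * c * c := by
    have h1 := Subgroup.card_mul_index H
    have h2 : Nat.card H * H.index ≤ Nat.card H * (2 * c * c) := by
      rw [h1, mul_comm]
      exact hg
    exact Nat.le_of_mul_le_mul_left h2 Nat.card_pos
  obtain ⟨Nc, hNc⟩ : ∃ Nc : Subgroup G, Nc = H.normalCore := ⟨_, rfl⟩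
  haveI hNcn : Nc.Normal := by
    rw [hNc]
    infer_instance
  have hNcH : Nc ≤ H := by
    rw [hNc]
    exact Subgroup.normalCore_le H
  have hNcidx : Nc.index ≤ (2 * c * c).factorial := by
    rw [hNc]
    exact (index_normalCore_le H).trans (Nat.factorial_le hidx)
  have hGNc : Nat.card G = Nat.card Nc * Nc.index := (Subgroup.card_mul_index Nc).symm
  obtain ⟨C, hC⟩ : ∃ C : Subgroup G, C = Subgroup.centralizer (Nc : Set G) := ⟨_, rfl⟩
  haveI hCn : C.Normal := by
    rw [hC]
    infer_instance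
  have hmemC : ∀ x : G, x ∈ C ↔ ∀ n ∈ Nc, n * x = x * n := by
    intro x
    rw [hC, Subgroup.mem_centralizer_iff]
    rfl
  have hgC : g ∈ C := by
    rw [hmemC]
    intro n hn
    have h1 : n ∈ Subgroup.centralizer ({g} : Set G) := by
      rw [← hH]
      exact hNcH hn
    rw [mem_cent_singleton] at h1
    exact h1.symm
  have hCne : C ≠ ⊥ := by
    intro h1
    rw [h1, Subgroup.mem_bot] at hgC
    exact hg1 hgC
  have hCeven : 2 ∣ Nat.card C := by
    by_contra h2
    exact hCne (hO C hCn (Nat.odd_iff.mpr (Nat.two_dvd_ne_zero.mp h2)))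
  obtain ⟨A, hA⟩ : ∃ A : Subgroup G, A = C ⊓ Nc := ⟨_, rfl⟩
  haveI hAn : A.Normal := by
    rw [hA]
    infer_instance
  have hAab : ∀ a ∈ A, ∀ b ∈ A, a * b = b * a := by
    intro a ha b hb
    rw [hA] at ha hb
    exact ((hmemC a).mp ha.1 b hb.2).symm
  have hAle := card_le_of_abelian_normal A hAab u v hu hv huv c hcu hcv hcw
  have hCle : Nat.card C ≤ c * (c * c) * (2 * c * c).factorial := by
    letI : Fintype (G ⧸ Nc) := Fintype.ofFinite _
    rw [card_subgroup_eq_filter C]
    refine (card_le_mul_of_translate _ (Finset.univ.filter (fun g : G => g ∈ A))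
      (fun g : G => (g : G ⧸ Nc)) ?_).trans ?_
    · intro x hx y hy hxy
      have hxC := (Finset.mem_filter.mp hx).2
      have hyC := (Finset.mem_filter.mp hy).2
      rw [Finset.mem_filter]
      refine ⟨Finset.mem_univ _, ?_⟩
      rw [hA]
      exact ⟨C.mul_mem (C.inv_mem hxC) hyC, QuotientGroup.eq.mp hxy⟩
    · rw [← card_subgroup_eq_filter A]
      refine Nat.mul_le_mul hAle ?_
      refine (Finset.card_le_univ _).trans ?_
      rw [← Nat.card_eq_fintype_card, ← Subgroup.index_eq_card]
      exact hNcidx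
  by_cases hD : u ∈ C ∨ v ∈ C ∨ u * v ∈ C
  · have hNcle : Nat.card Nc ≤ c := by
      obtain ⟨x, hxC, hxc⟩ : ∃ x : G, x ∈ C ∧
          Nat.card (Subgroup.centralizer ({x} : Set G)) ≤ c := by
        rcases hD with h1 | h1 | h1
        exacts [⟨u, h1, hcu⟩, ⟨v, h1, hcv⟩, ⟨u * v, h1, hcw⟩]
      refine le_trans (Subgroup.card_le_of_le ?_) hxc
      intro n hn
      rw [mem_cent_singleton]
      exact ((hmemC x).mp hxC n hn).symm
    calc Nat.card G = Nat.card Nc * Nc.index := hGNc
      _ ≤ c * (2 * c * c).factorial := Nat.mul_le_mul hNcle hNcidx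
      _ ≤ _ := Nat.le_add_right _ _
  · push Not at hD
    obtain ⟨huC, hvC, hwC⟩ := hD
    have hcardG : Nat.card G = Nat.card (G ⧸ C) * Nat.card C :=
      Subgroup.card_eq_card_quotient_mul_card_subgroup C
    have hQ : Nat.card (G ⧸ C) ≤ N := by
      apply h (G ⧸ C) ?_ (u : G ⧸ C) (v : G ⧸ C)
      · rw [← QuotientGroup.mk_mul, hu, QuotientGroup.mk_one]
      · rw [← QuotientGroup.mk_mul, hv, QuotientGroup.mk_one]
      · rw [← QuotientGroup.mk_mul, ← QuotientGroup.mk_mul, huv]
      · intro h1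
        exact huC ((QuotientGroup.eq_one_iff u).mp h1)
      · intro h1
        exact hvC ((QuotientGroup.eq_one_iff v).mp h1)
      · intro h1
        have hmem : u⁻¹ * v ∈ C := QuotientGroup.eq.mp h1
        rw [inv_eq_self_of_sq hu] at hmem
        exact hwC hmem
      · exact (card_centralizer_quotient_le C u).trans hcu
      · exact (card_centralizer_quotient_le C v).trans hcv
      · have h3 := card_centralizer_quotient_le C (u * v)
        rw [QuotientGroup.mk_mul] at h3
        exact h3.trans hcw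
      · have h1 : (Nat.card G).factorization 2 =
            (Nat.card (G ⧸ C)).factorization 2 + (Nat.card C).factorization 2 := by
          rw [hcardG, Nat.factorization_mul Nat.card_pos.ne' Nat.card_pos.ne']
          rfl
        have h2 : 1 ≤ (Nat.card C).factorization 2 :=
          Nat.Prime.factorization_pos_of_dvd Nat.prime_two Nat.card_pos.ne' hCeven
        omega
    calc Nat.card G = Nat.card (G ⧸ C) * Nat.card C := hcardG
      _ ≤ N * (c * (c * c) * (2 * c * c).factorial) := Nat.mul_le_mul hQ hCle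
      _ ≤ _ := Nat.le_add_left _ _

/-- **Bounded order from small involution centralizers**: the order of a finite group with
Sylow 2-subgroups of order at most `2^a` and a four-group whose involutions have centralizers of
order at most `c` is bounded in terms of `a` and `c`. -/
theorem exists_smallCentBound (a c : ℕ) : ∃ N : ℕ, SmallCentBound.{u} a c N := by
  induction a with
  | zero => exact ⟨_, smallCentBound_of_prime 0 c 0 (smallCentBound'_zero c)⟩
  | succ a ih =>
    obtain ⟨N, hN⟩ := ih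
    exact ⟨_, smallCentBound_of_prime (a + 1) c _ (smallCentBound'_succ a c N hN)⟩

end Cfsg.Agent.H84
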