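/-
helper84 library: groups of 2-deficiency class `r` containing an elementary abelian subgroup of
order `2^(r+1)` have bounded order (Brauer).  Induction on `r`: for an involution `t` of the
elementary abelian subgroup, `C(t)/⟨t⟩` has deficiency class `r - 1` (S4717 and domination, S0941),
so `C(t)` is bounded; then `H84.SmallCent` bounds the group.
-/
import Mathlib
import Cfsg.Prelude.Def_Blocks
import Cfsg.Agent.S4717
import Cfsg.Agent.S4718
import Cfsg.Agent.S0941
import Cfsg.Agent.H79.QuotientRank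
import Cfsg.Agent.H82.Irr
import Cfsg.Agent.H82.IndDeg
import Cfsg.Agent.H80.Block
import Cfsg.Agent.H84.SmallCent

set_option autoImplicit false
set_option linter.style.haveILetI false
set_option linter.unusedSectionVars false
set_option linter.unusedVariables false

namespace Cfsg.Agent.H84

open Cfsg

universe u

/-- Factoring out a central subgroup of order 2 lowers the 2-deficiency class. -/
theorem defclass_quotient {C : Type u} [Group C] [Finite C] {M : Ideal AlgInt}
    (hM : IsPModular 2 M) (Z : Subgroup C) [Z.Normal] (hZ2 : Nat.card Z = 2)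
    (hZc : ∀ z ∈ Z, ∀ g : C, z * g = g * z) (r : ℕ)
    (hdef : ∀ B' : Set (IrrCharacter C), IsPBlock M B' → B' ≠ principalBlock M C →
      blockDefect 2 B' < r + 1) :
    ∀ B' : Set (IrrCharacter (C ⧸ Z)), IsPBlock M B' → B' ≠ principalBlock M (C ⧸ Z) →
      blockDefect 2 B' < r := by
  classical
  letI : Fintype C := Fintype.ofFinite C
  letI : Fintype (C ⧸ Z) := Fintype.ofFinite _
  haveI : Fact (Nat.Prime 2) := ⟨Nat.prime_two⟩
  have hMp := Cfsg.Agent.H20.isPrime_of_isPModular hM
  have hZp : IsPGroup 2 Z := IsPGroup.of_card (n := 1) (by rw [hZ2, pow_one])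
  have hcent : Subgroup.centralizer (Z : Set C) = ⊤ := by
    rw [eq_top_iff]
    intro g _
    rw [Subgroup.mem_centralizer_iff]
    intro z hz
    exact hZc z hz g
  have hsup : Z ⊔ Subgroup.centralizer (Z : Set C) = ⊤ := by
    rw [hcent, sup_top_eq]
  have h941 := (Cfsg.Agent.S0941.result 2 M hM Z hZp
    ⟨0, by rw [hcent, Subgroup.index_top, pow_zero]⟩).1
  intro B' hB' hne
  obtain ⟨χ0, rfl⟩ := hB'
  obtain ⟨θ0, hθ0⟩ : ∃ θ0 : IrrCharacter C, θ0 = Cfsg.Agent.H82.inflate Z χ0 := ⟨_, rfl⟩
  have hb : IsPBlock M (blockOf M (θ0 : C → ℂ)) := ⟨θ0, rfl⟩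
  have hbne : blockOf M (θ0 : C → ℂ) ≠ principalBlock M C := by
    intro h
    apply hne
    have h1 : θ0 ∈ principalBlock M C := by
      rw [← h]
      exact Cfsg.Agent.H80.mem_blockOf_self hMp θ0
    rw [hθ0, Cfsg.Agent.H79.inflate_mem_principalBlock_iff hM Z hZp hsup χ0] at h1
    exact Cfsg.Agent.H80.blockOf_eq_of_mem hMp h1
  have hlt := hdef _ hb hbne
  have hcard : Nat.card C = Nat.card (C ⧸ Z) * 2 := by
    rw [← hZ2]
    exact Subgroup.card_eq_card_quotient_mul_card_subgroup Z
  have hfac : (Nat.card C).factorization 2 = (Nat.card (C ⧸ Z)).factorization 2 + 1 := by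
    rw [hcard, Nat.factorization_mul Nat.card_pos.ne' (by norm_num)]
    simp [Nat.Prime.factorization_self Nat.prime_two]
  unfold blockDefect at hlt ⊢
  obtain ⟨sB, hsB⟩ : ∃ sB : ℕ, sB = sInf ((fun χ : IrrCharacter (C ⧸ Z) =>
      (charDegree (χ : C ⧸ Z → ℂ)).factorization 2) '' blockOf M (χ0 : C ⧸ Z → ℂ)) := ⟨_, rfl⟩
  obtain ⟨sb, hsb⟩ : ∃ sb : ℕ, sb = sInf ((fun χ : IrrCharacter C =>
      (charDegree (χ : C → ℂ)).factorization 2) '' blockOf M (θ0 : C → ℂ)) := ⟨_, rfl⟩
  rw [← hsB]
  rw [← hsb] at hlt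
  have h1 : sb ≤ sB := by
    have hne' : ((fun χ : IrrCharacter (C ⧸ Z) =>
        (charDegree (χ : C ⧸ Z → ℂ)).factorization 2) '' blockOf M (χ0 : C ⧸ Z → ℂ)).Nonempty :=
      ⟨_, χ0, Cfsg.Agent.H80.mem_blockOf_self hMp χ0, rfl⟩
    obtain ⟨χ, hχ, hχe⟩ := Nat.sInf_mem hne'
    rw [hsb, hsB]
    apply Nat.sInf_le
    refine ⟨Cfsg.Agent.H82.inflate Z χ, ?_, ?_⟩
    · have h2 := (h941 χ0 χ).mp hχ
      rw [hθ0]
      exact h2
    · show (charDegree (Cfsg.Agent.H82.inflate Z χ).1).factorization 2 = _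
      rw [Cfsg.Agent.H82.charDegree_inflate]
      exact hχe
  have h2 : sB ≤ (Nat.card (C ⧸ Z)).factorization 2 := by
    rw [hsB]
    refine le_trans (Nat.sInf_le ⟨χ0, Cfsg.Agent.H80.mem_blockOf_self hMp χ0, rfl⟩) ?_
    exact (Nat.factorization_le_iff_dvd (Cfsg.Agent.H82.charDegree_pos χ0).ne'
      Nat.card_pos.ne').mpr (Cfsg.Agent.H82.charDegree_dvd_card χ0) 2
  omega

/-- **Brauer**: groups of 2-deficiency class `r` with an elementary abelian subgroup of order
`2^(r+1)` and Sylow 2-subgroups of order at most `2^a` have bounded order. -/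
theorem defclass_bound (r : ℕ) : ∀ a : ℕ, ∃ N : ℕ,
    ∀ (G : Type u) [Group G] [Finite G] (M : Ideal AlgInt), IsPModular 2 M →
      (Nat.card G).factorization 2 ≤ a →
      (∀ B : Set (IrrCharacter G), IsPBlock M B → B ≠ principalBlock M G →
        blockDefect 2 B < r) →
      (∃ E : Subgroup G, (∀ x ∈ E, x * x = 1) ∧ Nat.card E = 2 ^ (r + 1)) →
      Nat.card G ≤ N := by
  induction r with
  | zero =>
    intro a
    haveI : Fact (Nat.Prime 2) := ⟨Nat.prime_two⟩
    choose f hf using fun a' : ℕ => Cfsg.Agent.S4718.result.{u} 2 a'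
    refine ⟨∑ i ∈ Finset.range (a + 1), f i, ?_⟩
    intro G _ _ M hM hfac hdef _
    have h1 := hf ((Nat.card G).factorization 2) G M hM rfl (by
      intro B hB
      by_contra hne
      exact Nat.not_lt_zero _ (hdef B hB hne))
    refine h1.trans ?_
    exact Finset.single_le_sum (f := f) (fun i _ => Nat.zero_le _)
      (Finset.mem_range.mpr (by omega))
  | succ r ih =>
    intro a
    obtain ⟨N1, hN1⟩ := ih a
    obtain ⟨N2, hN2⟩ := exists_smallCentBound.{u} a (2 * N1)
    refine ⟨N2, ?_⟩
    intro G _ _ M hM hfac hdef hE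
    obtain ⟨E, hexp, hcard⟩ := hE
    classical
    haveI : Fact (Nat.Prime 2) := ⟨Nat.prime_two⟩
    have hcomm : ∀ x ∈ E, ∀ y ∈ E, x * y = y * x := by
      intro x hx y hy
      have h1 := hexp _ (E.mul_mem hx hy)
      have h2 : x * y = (x * y)⁻¹ := (inv_eq_self_of_sq h1).symm
      rw [h2, mul_inv_rev, inv_eq_self_of_sq (hexp x hx), inv_eq_self_of_sq (hexp y hy)]
    have key : ∀ t ∈ E, t ≠ 1 →
        Nat.card (Subgroup.centralizer ({t} : Set G)) ≤ 2 * N1 := by
      intro t htE ht1
      have htt := hexp t htE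
      have hord : orderOf t = 2 := orderOf_eq_prime (by rw [pow_two]; exact htt) ht1
      have hdefC := (Cfsg.Agent.S4717.result 2 M hM (r + 1)).1 hdef t
        ⟨1, by rw [hord, pow_one]⟩
      obtain ⟨C, hC⟩ : ∃ C : Subgroup G, C = Subgroup.centralizer ({t} : Set G) := ⟨_, rfl⟩
      rw [← hC] at hdefC ⊢
      have htC : t ∈ C := by
        rw [hC, mem_cent_singleton]
      obtain ⟨tc, htc⟩ : ∃ tc : C, tc = ⟨t, htC⟩ := ⟨_, rfl⟩
      have htcc : ∀ g : C, tc * g = g * tc := by
        intro g
        have hg := hC.le g.2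
        rw [mem_cent_singleton] at hg
        apply Subtype.ext
        rw [htc]
        exact hg
      obtain ⟨Z, hZ⟩ : ∃ Z : Subgroup C, Z = Subgroup.zpowers tc := ⟨_, rfl⟩
      have hZc : ∀ z ∈ Z, ∀ g : C, z * g = g * z := by
        intro z hz g
        rw [hZ, Subgroup.mem_zpowers_iff] at hz
        obtain ⟨k, rfl⟩ := hz
        have hcm : Commute tc g := htcc g
        exact (hcm.zpow_left k).eq
      haveI hZn : Z.Normal := ⟨fun z hz g => by
        have h1 := hZc z hz g
        have h2 : g * z * g⁻¹ = z := by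
          rw [← h1]
          group
        rw [h2]
        exact hz⟩
      have hZ2 : Nat.card Z = 2 := by
        rw [hZ, Nat.card_zpowers, htc, Subgroup.orderOf_mk, hord]
      have hdefQ := defclass_quotient hM Z hZ2 hZc r hdefC
      have hcardC : Nat.card C = Nat.card (C ⧸ Z) * 2 := by
        rw [← hZ2]
        exact Subgroup.card_eq_card_quotient_mul_card_subgroup Z
      have hQle : Nat.card (C ⧸ Z) ≤ N1 := by
        apply hN1 (C ⧸ Z) M hM ?_ hdefQ ?_
        · have hdvd1 : Nat.card (C ⧸ Z) ∣ Nat.card C := ⟨2, hcardC⟩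
          have hdvd2 : Nat.card C ∣ Nat.card G := Subgroup.card_subgroup_dvd_card C
          exact le_trans ((Nat.factorization_le_iff_dvd Nat.card_pos.ne'
            Nat.card_pos.ne').mpr (hdvd1.trans hdvd2) 2) hfac
        · have hEC : E ≤ C := by
            intro x hx
            rw [hC, mem_cent_singleton]
            exact hcomm t htE x hx
          refine ⟨(E.subgroupOf C).map (QuotientGroup.mk' Z), ?_, ?_⟩
          · intro q hq
            obtain ⟨x, hx, rfl⟩ := Subgroup.mem_map.mp hq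
            rw [Subgroup.mem_subgroupOf] at hx
            have h1 := hexp _ hx
            have hxx : x * x = 1 := Subtype.ext h1
            rw [← map_mul, hxx, map_one]
          · have h1 := card_comap_mk' Z ((E.subgroupOf C).map (QuotientGroup.mk' Z))
            rw [QuotientGroup.comap_map_mk'] at h1
            have hZE : Z ≤ E.subgroupOf C := by
              rw [hZ, Subgroup.zpowers_le, Subgroup.mem_subgroupOf, htc]
              exact htE
            rw [sup_eq_right.mpr hZE] at h1
            have h2 : Nat.card (E.subgroupOf C) = Nat.card E :=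
              Nat.card_congr (Subgroup.subgroupOfEquivOfLe hEC).toEquiv
            rw [h2, hcard, hZ2] at h1
            have h3 : 2 ^ (r + 1 + 1) = 2 ^ (r + 1) * 2 := pow_succ 2 (r + 1)
            omega
      rw [hcardC]
      omega
    -- two distinct involutions of `E`
    have hE4 : 2 < Nat.card E := by
      rw [hcard]
      calc 2 < 2 ^ 2 := by norm_num
        _ ≤ 2 ^ (r + 1 + 1) := Nat.pow_le_pow_right (by norm_num) (by omega)
    obtain ⟨u, v, hu1, hv1, huv⟩ : ∃ u v : E, u ≠ 1 ∧ v ≠ 1 ∧ u ≠ v := by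
      letI : Fintype E := Fintype.ofFinite E
      rw [Nat.card_eq_fintype_card, Fintype.two_lt_card_iff] at hE4
      obtain ⟨x, y, z, hxy, hxz, hyz⟩ := hE4
      by_cases hx : x = 1
      · exact ⟨y, z, fun h => hxy (hx.trans h.symm), fun h => hxz (hx.trans h.symm), hyz⟩
      · by_cases hy : y = 1
        · exact ⟨x, z, hx, fun h => hyz (hy.trans h.symm), hxz⟩
        · exact ⟨x, y, hx, hy, hxy⟩
    have hu1' : (u : G) ≠ 1 := fun h => hu1 (Subtype.ext h)
    have hv1' : (v : G) ≠ 1 := fun h => hv1 (Subtype.ext h)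
    have huv' : (u : G) ≠ (v : G) := fun h => huv (Subtype.ext h)
    have huu := hexp u u.2
    have hvv := hexp v v.2
    have hw1 : (u : G) * (v : G) ≠ 1 := by
      intro h
      apply huv'
      calc (u : G) = (v : G)⁻¹ := eq_inv_of_mul_eq_one_left h
        _ = v := inv_eq_self_of_sq hvv
    exact hN2 G hfac u v huu hvv (hcomm u u.2 v v.2) hu1' hv1' huv' (key u u.2 hu1')
      (key v v.2 hv1') (key _ (E.mul_mem u.2 v.2) hw1)

end Cfsg.Agent.H84
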