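/-
helper84 library (S4482), glue part B: the combined Fourier-lattice lemma `fourier_lattice`,
assembled from helper18's `fourier_gram` (Gram matrix of the eigenvalue multiplicities) and
`lattice_eval` (evaluation of the lattice sum).
-/
import Mathlib
import Cfsg.Agent.H18.DihFLA
import Cfsg.Agent.H18.DihFLB

set_option autoImplicit false
set_option linter.style.haveILetI false
set_option linter.unusedVariables false
set_option linter.unusedSectionVars false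

namespace Cfsg.Agent.H84.DihGlue

theorem root_sum (m : ℕ) (ζ : ℂ) (hζ : IsPrimitiveRoot ζ m) (k : ℕ) (hk : 0 < k) (hkm : k < m) :
    ∑ l ∈ Finset.range m, (ζ ^ (k * l))⁻¹ = 0 := by
  have hη : (ζ ^ k)⁻¹ ≠ 1 := by
    intro h
    exact hζ.pow_ne_one_of_pos_of_lt hk.ne' hkm (inv_eq_one.mp h)
  have h1 : ∀ l, (ζ ^ (k * l))⁻¹ = ((ζ ^ k)⁻¹) ^ l := by
    intro l; rw [pow_mul, inv_pow]
  simp_rw [h1]
  rw [geom_sum_eq hη]
  have : ((ζ ^ k)⁻¹) ^ m = 1 := by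
    rw [inv_pow, ← pow_mul, mul_comm, pow_mul, hζ.pow_eq_one, one_pow, inv_one]
  rw [this, sub_self, zero_div]

theorem root_sum_zero (m : ℕ) (ζ : ℂ) :
    ∑ l ∈ Finset.range m, (ζ ^ (0 * l))⁻¹ = (m : ℂ) := by
  simp

/-- FL : the combined Fourier-lattice lemma. -/
theorem fourier_lattice (n : ℕ) (hn : 3 ≤ n) (ζ : ℂ) (hζ : IsPrimitiveRoot ζ (2 ^ (n - 1)))
    {ι : Type*} [Fintype ι] (d : ι → ℕ) (hd : ∀ i, 0 < d i) (a : ι → ℕ → ℕ) (w : ι → ℕ → ℂ)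
    (hw : ∀ i l, w i l = ∑ k ∈ Finset.range (2 ^ (n - 1)), (a i k : ℂ) * ζ ^ (k * l))
    (hw0 : ∀ i, w i 0 = d i)
    (F1 : ∀ l l' : ℕ, 0 < l → l < 2 ^ (n - 1) → 0 < l' → l' < 2 ^ (n - 1) →
      ∑ i, w i l' * w i l = 2 ^ (n - 1) *
        ((if l' = l then (1 : ℂ) else 0) + (if l' + l = 2 ^ (n - 1) then (1 : ℂ) else 0)))
    (F2 : ∀ l : ℕ, 0 < l → l < 2 ^ (n - 1) → ∑ i, (d i : ℂ) * w i l = 0)
    (i₀ i₁ : ι) (h01 : i₀ ≠ i₁) (h0 : ∀ l, w i₀ l = 1) (δ : ℤ) (hδ : δ = 1 ∨ δ = -1)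
    (h1 : ∀ l, 0 < l → l < 2 ^ (n - 1) → w i₁ l = δ) :
    (1 : ℤ) + δ * (d i₁ : ℤ) ≠ 0 ∧
      ∑ i, w i (2 ^ (n - 2)) ^ 2 * (w i (2 ^ (n - 2)) + w i 1) / (d i : ℂ) =
        2 + 2 * (δ : ℂ) / (d i₁ : ℂ) - 8 / (1 + (δ : ℂ) * (d i₁ : ℂ)) := by
  have hmpos : 0 < 2 ^ (n - 1) := by positivity
  have hmC : ((2 ^ (n - 1) : ℕ) : ℂ) ≠ 0 := by exact_mod_cast hmpos.ne'
  obtain ⟨hG, hD, hW, hInv⟩ := Cfsg.Agent.H18.Dih.fourier_gram (2 ^ (n - 1)) hmpos ζ hζ d a w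
    hw hw0
    (by
      intro l l' hl hlm hl' hlm'
      rw [F1 l l' hl hlm hl' hlm']
      push_cast
      rfl) F2
  have hd0 : d i₀ = 1 := by
    have : (d i₀ : ℂ) = 1 := by rw [← hw0, h0]
    exact_mod_cast this
  -- the multiplicities of the trivial character
  have ha00 : a i₀ 0 = 1 := by
    have h2 := hInv i₀ 0 hmpos
    have h3 : ∑ l ∈ Finset.range (2 ^ (n - 1)), w i₀ l * (ζ ^ (0 * l))⁻¹ =
        ((2 ^ (n - 1) : ℕ) : ℂ) := by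
      rw [← root_sum_zero (2 ^ (n - 1)) ζ]
      exact Finset.sum_congr rfl (fun l _ => by rw [h0, one_mul])
    rw [h3] at h2
    have h4 : (a i₀ 0 : ℂ) = 1 := by
      apply mul_left_cancel₀ hmC
      rw [h2, mul_one]
    exact_mod_cast h4
  have ha0k : ∀ k : ℕ, 0 < k → k < 2 ^ (n - 1) → a i₀ k = 0 := by
    intro k hk hkm
    have h2 := hInv i₀ k hkm
    have h3 : ∑ l ∈ Finset.range (2 ^ (n - 1)), w i₀ l * (ζ ^ (k * l))⁻¹ = 0 := by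
      rw [← root_sum (2 ^ (n - 1)) ζ hζ k hk hkm]
      exact Finset.sum_congr rfl (fun l _ => by rw [h0, one_mul])
    rw [h3] at h2
    have h4 : (a i₀ k : ℂ) = 0 := by
      rcases mul_eq_zero.mp h2 with h5 | h5
      · exact absurd h5 hmC
      · exact h5
    exact_mod_cast h4
  -- the multiplicities of `χ₁`
  have hkey : ∀ k : ℕ, k < 2 ^ (n - 1) → ((2 ^ (n - 1) : ℕ) : ℂ) * (a i₁ k : ℂ) =
      (δ : ℂ) * (∑ l ∈ Finset.range (2 ^ (n - 1)), (ζ ^ (k * l))⁻¹) + ((d i₁ : ℂ) - δ) := by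
    intro k hk
    rw [hInv i₁ k hk, Finset.mul_sum]
    have h2 : ∀ l ∈ Finset.range (2 ^ (n - 1)), w i₁ l * (ζ ^ (k * l))⁻¹ =
        (δ : ℂ) * (ζ ^ (k * l))⁻¹ + (if l = 0 then ((d i₁ : ℂ) - δ) else 0) := by
      intro l hl
      by_cases hl0 : l = 0
      · subst hl0
        rw [if_pos rfl, hw0, mul_zero, pow_zero, inv_one]
        ring
      · rw [if_neg hl0, h1 l (Nat.pos_of_ne_zero hl0) (Finset.mem_range.mp hl)]
        ring
    rw [Finset.sum_congr rfl h2, Finset.sum_add_distrib, Finset.sum_ite_eq',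
      if_pos (Finset.mem_range.mpr hmpos)]
  have hu₁C : ∀ k : ℕ, 0 < k → k < 2 ^ (n - 1) → (a i₁ k : ℂ) - (a i₁ 0 : ℂ) = -(δ : ℂ) := by
    intro k hk hkm
    have h2 := hkey k hkm
    have h3 := hkey 0 hmpos
    rw [root_sum (2 ^ (n - 1)) ζ hζ k hk hkm] at h2
    rw [root_sum_zero] at h3
    apply mul_left_cancel₀ hmC
    rw [mul_sub, h2, h3]
    ring
  refine Cfsg.Agent.H18.Dih.lattice_eval n hn ζ hζ d hd (fun i k => (a i k : ℤ) - a i 0) w hG hD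
    (fun i => sub_self _) hW i₀ i₁ h01 hd0 ?_ δ hδ ?_
  · intro k hk hkm
    show (a i₀ k : ℤ) - (a i₀ 0 : ℤ) = -1
    rw [ha0k k hk hkm, ha00]
    norm_num
  · intro k hk hkm
    show (a i₁ k : ℤ) - (a i₁ 0 : ℤ) = -δ
    have := hu₁C k hk hkm
    exact_mod_cast this

end Cfsg.Agent.H84.DihGlue
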