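/-
helper84 library: a Frobenius-type count in the group algebra.

For a finite subset `W` of a group and `q = p ^ m`, the coefficient of `1` in
`(∑_{s ∈ W} s) ^ q` is a natural number congruent modulo `p` to the number of `s ∈ W` with
`s ^ q = 1` (rotation of `q`-tuples with product `1`).
-/
import Mathlib

set_option autoImplicit false
set_option linter.unusedSectionVars false
set_option linter.unusedVariables false

namespace Cfsg.Agent.H84

universe u

section FrobCount

variable {G : Type u} [Group G] [DecidableEq G]

/-- Lists of length `n` with entries in `W` and product `h`. -/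
def tup (W : Finset G) : ℕ → G → Finset (List G)
  | 0, h => if h = 1 then {[]} else ∅
  | n + 1, h => W.biUnion fun s => (tup W n (s⁻¹ * h)).image (List.cons s)

theorem mem_tup (W : Finset G) (n : ℕ) (h : G) (l : List G) :
    l ∈ tup W n h ↔ l.length = n ∧ l.prod = h ∧ ∀ s ∈ l, s ∈ W := by
  induction n generalizing h l with
  | zero =>
    unfold tup
    by_cases hh : h = 1
    · rw [if_pos hh, Finset.mem_singleton]
      constructor
      · rintro rfl
        exact ⟨rfl, by rw [hh, List.prod_nil], fun s hs => by simp at hs⟩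
      · rintro ⟨h1, _, _⟩
        exact List.length_eq_zero_iff.mp h1
    · rw [if_neg hh]
      constructor
      · intro h0
        simp at h0
      · rintro ⟨h1, h2, _⟩
        exfalso
        apply hh
        rw [← h2, List.length_eq_zero_iff.mp h1, List.prod_nil]
  | succ n ih =>
    unfold tup
    rw [Finset.mem_biUnion]
    constructor
    · rintro ⟨s, hs, hl⟩
      obtain ⟨l', hl', rfl⟩ := Finset.mem_image.mp hl
      obtain ⟨h1, h2, h3⟩ := (ih _ _).mp hl'
      refine ⟨by rw [List.length_cons, h1], by rw [List.prod_cons, h2, mul_inv_cancel_left], ?_⟩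
      intro t ht
      rcases List.mem_cons.mp ht with rfl | ht
      · exact hs
      · exact h3 t ht
    · rintro ⟨h1, h2, h3⟩
      match l, h1, h2, h3 with
      | [], h1, _, _ => simp at h1
      | s :: l', h1, h2, h3 =>
        refine ⟨s, h3 s (List.mem_cons_self), Finset.mem_image.mpr ⟨l', (ih _ _).mpr ⟨?_, ?_, ?_⟩, rfl⟩⟩
        · rw [List.length_cons] at h1
          omega
        · rw [List.prod_cons] at h2
          rw [← h2, inv_mul_cancel_left]
        · intro t ht
          exact h3 t (List.mem_cons_of_mem _ ht)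

theorem card_tup_succ (W : Finset G) (n : ℕ) (h : G) :
    (tup W (n + 1) h).card = ∑ s ∈ W, (tup W n (s⁻¹ * h)).card := by
  have e : tup W (n + 1) h = W.biUnion fun s => (tup W n (s⁻¹ * h)).image (List.cons s) := by
    rw [tup]
  rw [e, Finset.card_biUnion]
  · apply Finset.sum_congr rfl
    intro s _
    exact Finset.card_image_of_injective _ (List.cons_injective)
  · intro s _ s' _ hne
    rw [Function.onFun, Finset.disjoint_left]
    intro l hl hl'
    obtain ⟨a, _, rfl⟩ := Finset.mem_image.mp hl
    obtain ⟨b, _, hb⟩ := Finset.mem_image.mp hl'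
    exact hne (List.cons.inj hb).1.symm

/-- The coefficients of the `n`-th power of the sum of the elements of `W` count the `n`-tuples
in `W` with given product. -/
theorem coeff_pow_eq_card_tup (W : Finset G) (n : ℕ) (h : G) :
    ((∑ s ∈ W, MonoidAlgebra.single s (1 : ℂ)) ^ n).coeff h = ((tup W n h).card : ℂ) := by
  induction n generalizing h with
  | zero =>
    rw [pow_zero, MonoidAlgebra.one_def, MonoidAlgebra.coeff_single, Finsupp.single_apply]
    unfold tup
    by_cases hh : h = 1
    · rw [if_pos hh, if_pos hh.symm]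
      simp
    · rw [if_neg hh, if_neg (fun h1 => hh h1.symm)]
      simp
  | succ n ih =>
    rw [pow_succ', Finset.sum_mul, MonoidAlgebra.coeff_sum, Finsupp.finsetSum_apply,
      card_tup_succ, Nat.cast_sum]
    apply Finset.sum_congr rfl
    intro s _
    rw [MonoidAlgebra.coeff_single_mul_apply, one_mul, ih]

/-- Rotation argument: the number of `p ^ m`-tuples in `W` with product `1` is congruent modulo
`p` to the number of `s ∈ W` with `s ^ (p ^ m) = 1`. -/
theorem card_tup_modEq (p : ℕ) [Fact p.Prime] (m : ℕ) (W : Finset G) :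
    (tup W (p ^ m) 1).card ≡ (W.filter (fun s => s ^ (p ^ m) = 1)).card [MOD p] := by
  classical
  have hp : p.Prime := Fact.out
  obtain ⟨q, hqdef⟩ : ∃ q : ℕ, q = p ^ m := ⟨_, rfl⟩
  have hq : 0 < q := by
    rw [hqdef]
    exact pow_pos hp.pos m
  rw [← hqdef]
  obtain ⟨f, hfdef⟩ : ∃ f : Function.End {l : List G // l ∈ tup W q 1},
      ∀ l : {l : List G // l ∈ tup W q 1}, (f l).1 = l.1.rotate 1 := by
    refine ⟨fun l => ⟨l.1.rotate 1, ?_⟩, fun l => rfl⟩
    have h1 := (mem_tup W q 1 l.1).mp l.2
    rw [mem_tup]
    exact ⟨by rw [List.length_rotate, h1.1], List.prod_rotate_eq_one_of_prod_eq_one h1.2.1 1,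
      fun s hs => h1.2.2 s (List.mem_rotate.mp hs)⟩
  have hf : ∀ (k : ℕ) (l : {l : List G // l ∈ tup W q 1}), ((f ^ k) l).1 = l.1.rotate k := by
    intro k
    induction k with
    | zero =>
      intro l
      rw [pow_zero, List.rotate_zero]
      rfl
    | succ k ih =>
      intro l
      have e : (f ^ (k + 1)) l = (f ^ k) (f l) := by
        rw [pow_succ]
        rfl
      rw [e, ih, hfdef, List.rotate_rotate, add_comm]
  have hfq : f ^ p ^ m = 1 := by
    funext l
    apply Subtype.ext
    rw [hf, ← hqdef]
    have h1 := (mem_tup W q 1 l.1).mp l.2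
    have h2 := List.rotate_length l.1
    rw [h1.1] at h2
    rw [h2]
    rfl
  have h1 := Equiv.Perm.card_fixedPoints_modEq (p := p) (n := m) hfq
  rw [Fintype.card_coe, Fintype.card_eq_nat_card] at h1
  refine h1.trans ?_
  have h2 : Nat.card (Function.fixedPoints f) =
      (W.filter (fun s => s ^ q = 1)).card := by
    rw [← Fintype.card_coe, ← Nat.card_eq_fintype_card]
    symm
    have hmem : ∀ s : {s : G // s ∈ W.filter (fun s => s ^ q = 1)},
        List.replicate q s.1 ∈ tup W q 1 := by
      intro s
      have hs := Finset.mem_filter.mp s.2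
      rw [mem_tup]
      refine ⟨List.length_replicate, by rw [List.prod_replicate, hs.2], fun t ht => ?_⟩
      rw [List.eq_of_mem_replicate ht]
      exact hs.1
    refine Nat.card_eq_of_bijective (fun s => ⟨⟨List.replicate q s.1, hmem s⟩, ?_⟩) ⟨?_, ?_⟩
    · show f _ = _
      apply Subtype.ext
      rw [hfdef]
      exact List.rotate_replicate _ _ _
    · intro s s' hss
      have h3 := congrArg (fun x : Function.fixedPoints f => x.1.1) hss
      apply Subtype.ext
      exact List.replicate_right_injective hq.ne' h3
    · rintro ⟨⟨l, hl⟩, hfix⟩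
      have h3 : l.rotate 1 = l := by
        have h4 := congrArg Subtype.val hfix
        rw [hfdef] at h4
        exact h4
      have hl' := (mem_tup W q 1 l).mp hl
      obtain ⟨a, ha⟩ := List.rotate_one_eq_self_iff_eq_replicate.mp h3
      rw [hl'.1] at ha
      have haW : a ∈ W := hl'.2.2 a (by
        rw [ha]
        exact List.mem_replicate.mpr ⟨hq.ne', rfl⟩)
      have haq : a ^ q = 1 := by
        have h5 := hl'.2.1
        rw [ha, List.prod_replicate] at h5
        exact h5
      refine ⟨⟨a, Finset.mem_filter.mpr ⟨haW, haq⟩⟩, ?_⟩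
      apply Subtype.ext
      apply Subtype.ext
      exact ha.symm
  rw [h2]

/-- **Frobenius count.** The coefficient of `1` in `(∑_{s ∈ W} s) ^ (p ^ m)` is a natural number
congruent modulo `p` to the number of `s ∈ W` with `s ^ (p ^ m) = 1`. -/
theorem frob_count (p : ℕ) [Fact p.Prime] (m : ℕ) (W : Finset G) :
    ∃ k : ℕ, ((∑ s ∈ W, MonoidAlgebra.single s (1 : ℂ)) ^ (p ^ m)).coeff 1 = (k : ℂ) ∧
      k ≡ (W.filter (fun s => s ^ (p ^ m) = 1)).card [MOD p] :=
  ⟨_, coeff_pow_eq_card_tup W _ 1, card_tup_modEq p m W⟩

end FrobCount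

end Cfsg.Agent.H84
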