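import Cfsg.Agent.H86.GsDefs

/-!
# GS-GOOD (helper84, for helper86's S5665 project)

Every vector `K`-orthogonal to `u` is a sum of two good vectors `K`-orthogonal to `u`.
-/

set_option autoImplicit false

universe u

namespace Cfsg.Agent.H84.Gs

open Cfsg Cfsg.Geo Cfsg.Agent.H95 Cfsg.Agent.H86.Gs
open scoped MatrixGroups Matrix

section

variable {m : ℕ} {F : Type*} [Field F] {J : Mat m F} {δ : F}

/-- `f y (J x) = f x (J y)`. -/
lemma formJ_symm (C : Ctx J δ) (x y : V m F) :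
    sympForm m F y (J *ᵥ x) = sympForm m F x (J *ᵥ y) := by
  rw [C.skew' y x, sympForm_skew x (J *ᵥ y)]

lemma psi_add (C : Ctx J δ) (x y : V m F) :
    psi J (x + y) = psi J x + psi J y + 2 * sympForm m F x (J *ᵥ y) := by
  unfold psi
  rw [Matrix.mulVec_add]
  simp only [sympForm_add_left, sympForm_add_right]
  rw [formJ_symm C x y]
  ring

lemma psi_neg (x : V m F) : psi J (-x) = psi J x := by
  unfold psi
  rw [Matrix.mulVec_neg, show -x = (-1 : F) • x by rw [neg_smul, one_smul],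
    show -(J *ᵥ x) = (-1 : F) • (J *ᵥ x) by rw [neg_smul, one_smul],
    sympForm_smul_left, sympForm_smul_right]
  ring

lemma psi_sub (C : Ctx J δ) (x y : V m F) :
    psi J (x - y) = psi J x + psi J y - 2 * sympForm m F x (J *ᵥ y) := by
  rw [sub_eq_add_neg, psi_add C, psi_neg, Matrix.mulVec_neg,
    show -(J *ᵥ y) = (-1 : F) • (J *ᵥ y) by rw [neg_smul, one_smul], sympForm_smul_right]
  ring

/-- The `K`-orthogonal complement of `u`. -/
noncomputable def kPerp (J : Mat m F) (u : V m F) : Submodule F (V m F) :=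
  LinearMap.ker ((sympL u).prod (sympL (J *ᵥ u)))

lemma mem_kPerp (J : Mat m F) (u x : V m F) :
    x ∈ kPerp J u ↔ sympForm m F x u = 0 ∧ sympForm m F x (J *ᵥ u) = 0 := by
  unfold kPerp
  rw [LinearMap.mem_ker]
  show (sympL u x, sympL (J *ᵥ u) x) = 0 ↔ _
  rw [Prod.mk_eq_zero, sympL_apply, sympL_apply]

lemma J_mem_kPerp (C : Ctx J δ) (u x : V m F) (hx : x ∈ kPerp J u) : J *ᵥ x ∈ kPerp J u := by
  rw [mem_kPerp] at hx ⊢
  refine ⟨?_, ?_⟩
  · rw [C.skew, hx.2, neg_zero]
  · rw [C.formJJ, hx.1, mul_zero]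

lemma finrank_kPerp (J : Mat m F) (u : V m F) :
    2 * m ≤ Module.finrank F (kPerp J u) + 2 := by
  have h1 : Module.finrank F (LinearMap.range ((sympL u).prod (sympL (J *ᵥ u)))) +
      Module.finrank F (kPerp J u) = Module.finrank F (V m F) :=
    LinearMap.finrank_range_add_finrank_ker ((sympL u).prod (sympL (J *ᵥ u)))
  have h2 : Module.finrank F (LinearMap.range ((sympL u).prod (sympL (J *ᵥ u)))) ≤ 2 := by
    have := Submodule.finrank_le (LinearMap.range ((sympL u).prod (sympL (J *ᵥ u))))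
    rw [Module.finrank_prod, Module.finrank_self] at this
    exact this
  rw [finrank_sp] at h1
  omega

/-- A good vector in the `K`-orthogonal complement of `u`. -/
lemma exists_good_kPerp (C : Ctx J δ) (hm : 3 ≤ m) (u : V m F) :
    ∃ y₀ ∈ kPerp J u, psi J y₀ ≠ 0 := by
  by_contra hcon
  push Not at hcon
  -- `f x (J y) = 0` on the complement
  have h1 : ∀ x ∈ kPerp J u, ∀ y ∈ kPerp J u, sympForm m F x (J *ᵥ y) = 0 := by
    intro x hx y hy
    have e := psi_add C x y
    rw [hcon x hx, hcon y hy, hcon (x + y) (add_mem hx hy)] at e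
    have e2 : (2 : F) * sympForm m F x (J *ᵥ y) = 0 := by linear_combination -e
    rcases mul_eq_zero.mp e2 with h | h
    · exact absurd h C.two
    · exact h
  -- the complement is totally isotropic
  have h2 : ∀ x ∈ kPerp J u, ∀ y ∈ kPerp J u, sympForm m F x y = 0 := by
    intro x hx y hy
    have hy' : (-δ⁻¹) • (J *ᵥ y) ∈ kPerp J u := Submodule.smul_mem _ _ (J_mem_kPerp C u y hy)
    have e := h1 x hx _ hy'
    rw [Matrix.mulVec_smul, C.sq, sympForm_smul_right,
      show -(δ • y) = (-δ) • y by rw [neg_smul], sympForm_smul_right] at e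
    have hδ := C.delta_ne
    have e3 : -δ⁻¹ * (-δ * sympForm m F x y) = sympForm m F x y := by
      field_simp
    rw [e3] at e
    exact e
  have hle : kPerp J u ≤ (H17.sympBilin m F).orthogonal (kPerp J u) := by
    intro y hy
    rw [LinearMap.BilinForm.mem_orthogonal_iff]
    intro x hx
    rw [H17.sympBilin_apply]
    exact h2 x hx y hy
  have h3 : Module.finrank F (kPerp J u) ≤
      Module.finrank F ((H17.sympBilin m F).orthogonal (kPerp J u)) := Submodule.finrank_mono hle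
  have h5 : Module.finrank F ((H17.sympBilin m F).orthogonal (kPerp J u)) =
      Module.finrank F (V m F) - Module.finrank F (kPerp J u) :=
    LinearMap.BilinForm.finrank_orthogonal (H17.sympBilin_nondegenerate (F := F) m) (kPerp J u)
  rw [finrank_sp] at h5
  have h4 := finrank_kPerp J u
  omega

lemma good_aux (C : Ctx J δ) (hm : 3 ≤ m) (u y : V m F)
    (hy1 : sympForm m F y u = 0) (hy2 : sympForm m F y (J *ᵥ u) = 0) :
    ∃ y₁ y₂ : V m F, psi J y₁ ≠ 0 ∧ psi J y₂ ≠ 0 ∧
        sympForm m F y₁ u = 0 ∧ sympForm m F y₁ (J *ᵥ u) = 0 ∧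
        sympForm m F y₂ u = 0 ∧ sympForm m F y₂ (J *ᵥ u) = 0 ∧ y = y₁ + y₂ := by
  have hy : y ∈ kPerp J u := (mem_kPerp J u y).mpr ⟨hy1, hy2⟩
  -- a good vector `y₀` of the complement with `psi y₀ ≠ - psi y`
  obtain ⟨y₀, hy₀, hg₀, hne⟩ : ∃ y₀ ∈ kPerp J u, psi J y₀ ≠ 0 ∧ psi J y + psi J y₀ ≠ 0 := by
    obtain ⟨y₀, hy₀, hg₀⟩ := exists_good_kPerp C hm u
    by_cases h : psi J y + psi J y₀ = 0
    · refine ⟨y₀ + J *ᵥ y₀, add_mem hy₀ (J_mem_kPerp C u y₀ hy₀), ?_, ?_⟩
      · have e := C.psi_comb 1 1 y₀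
        rw [one_smul, one_smul] at e
        rw [e]
        have := C.irr 1
        exact mul_ne_zero (by simpa using this) hg₀
      · have e := C.psi_comb 1 1 y₀
        rw [one_smul, one_smul] at e
        rw [e]
        intro h'
        have : δ * psi J y₀ = 0 := by linear_combination h' - h
        rcases mul_eq_zero.mp this with h0 | h0
        · exact C.delta_ne h0
        · exact hg₀ h0
    · exact ⟨y₀, hy₀, hg₀, h⟩
  have hsum : psi J (y + y₀) + psi J (y - y₀) = 2 * (psi J y + psi J y₀) := by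
    rw [psi_add C, psi_sub C]
    ring
  have hy₀' := (mem_kPerp J u y₀).mp hy₀
  by_cases hp : psi J (y + y₀) = 0
  · have hq : psi J (y - y₀) ≠ 0 := by
      intro hq
      rw [hp, hq, zero_add] at hsum
      rcases mul_eq_zero.mp hsum.symm with h | h
      · exact C.two h
      · exact hne h
    have hmem := (mem_kPerp J u (y - y₀)).mp (sub_mem hy hy₀)
    exact ⟨y - y₀, y₀, hq, hg₀, hmem.1, hmem.2, hy₀'.1, hy₀'.2, by abel⟩
  · have hmem := (mem_kPerp J u (y + y₀)).mp (add_mem hy hy₀)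
    have hmem' := (mem_kPerp J u (-y₀)).mp (neg_mem hy₀)
    exact ⟨y + y₀, -y₀, hp, by rw [psi_neg]; exact hg₀, hmem.1, hmem.2, hmem'.1, hmem'.2,
      by abel⟩

end

/-- **GS-GOOD**. -/
theorem gsGood : Cfsg.Agent.H86.Gs.StGood.{u} := by
  intro m F _ J δ C hm u y hy1 hy2
  exact good_aux C hm u y hy1 hy2

example : Cfsg.Agent.H86.Gs.StGood.{u} =
    (∀ {m : ℕ} {F : Type u} [Field F] (J : Mat m F) (δ : F), Ctx J δ → 3 ≤ m →
    ∀ u y : V m F, sympForm m F y u = 0 → sympForm m F y (J *ᵥ u) = 0 →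
      ∃ y₁ y₂ : V m F, psi J y₁ ≠ 0 ∧ psi J y₂ ≠ 0 ∧
        sympForm m F y₁ u = 0 ∧ sympForm m F y₁ (J *ᵥ u) = 0 ∧
        sympForm m F y₂ u = 0 ∧ sympForm m F y₂ (J *ᵥ u) = 0 ∧ y = y₁ + y₂) := rfl

end Cfsg.Agent.H84.Gs
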