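/-
helper84 library: the Galois trace of the diagonal contribution of a major subsection.

* `prod_aeval_primitiveRoots_int`: the product of the values of an integer polynomial at the
  primitive `n`-th roots of unity is an integer.
* `card_le_sum_of_one_le_prod`: AM-GM for positive reals with product at least one.
* `trace_bound`: positive values whose quotients by `p^h` are local integers have sum at least
  `φ(n) p^h`.
* `major_height_trace`: for a major subsection `(x, b)` of `B` and `χ ∈ B`,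
  `∑_γ p^d m_{χχ}^{(x^γ, b)} ≥ φ(|x|) p^{h(χ)}`.
-/
import Mathlib
import Cfsg.Prelude.Def_Blocks
import Cfsg.Prelude.Def_BlockRank
import Cfsg.Agent.H84.Major4
import Cfsg.Agent.H20.FiveH
import Cfsg.Agent.H79.Cyclo

set_option autoImplicit false
set_option linter.style.haveILetI false
set_option linter.unusedSectionVars false
set_option linter.unusedVariables false

namespace Cfsg.Agent.H84

open Cfsg Cfsg.Agent.H4 Cfsg.Agent.H20
open scoped ComplexConjugate
open Polynomial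

universe u

section Arith

set_option backward.isDefEq.respectTransparency false in
/-- The product of the values of an integer polynomial at the primitive `n`-th roots of unity is
an integer. -/
theorem prod_aeval_primitiveRoots_int (n : ℕ) (hn : 0 < n) (f : ℤ[X]) :
    ∃ z : ℤ, ∏ μ ∈ primitiveRoots n ℂ, aeval μ f = (z : ℂ) := by
  have : NeZero n := ⟨hn.ne'⟩
  have hζ := IsCyclotomicExtension.zeta_spec n ℚ (CyclotomicField n ℚ)
  set ζ := IsCyclotomicExtension.zeta n ℚ (CyclotomicField n ℚ) with hζdef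
  set x : CyclotomicField n ℚ := aeval ζ f with hxdef
  have hx : IsIntegral ℤ x := Cfsg.Agent.H79.isIntegral_aeval_int ζ (hζ.isIntegral hn) f
  have hN : IsIntegral ℤ (Algebra.norm ℚ x) := Algebra.isIntegral_norm ℚ hx
  obtain ⟨z, hz⟩ := IsIntegrallyClosed.isIntegral_iff.mp hN
  have hprod := Algebra.norm_eq_prod_embeddings ℚ ℂ x
  have hre : ∏ σ : CyclotomicField n ℚ →ₐ[ℚ] ℂ, σ x = ∏ μ ∈ primitiveRoots n ℂ, aeval μ f := by
    rw [← Finset.prod_coe_sort (primitiveRoots n ℂ)]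
    refine Fintype.prod_equiv
      (hζ.embeddingsEquivPrimitiveRoots ℂ (cyclotomic.irreducible_rat hn)) _ _ ?_
    intro σ
    rw [IsPrimitiveRoot.embeddingsEquivPrimitiveRoots_apply_coe, hxdef, aeval_def, aeval_def,
      ← AlgHom.coe_toRingHom, hom_eval₂]
    congr 1
    exact RingHom.ext_int _ _
  rw [hre, ← hz] at hprod
  refine ⟨z, ?_⟩
  rw [← hprod]
  simp

/-- AM-GM in the form needed: positive reals with product at least one have sum at least their
number. -/
theorem card_le_sum_of_one_le_prod {ι : Type*} (s : Finset ι) (a : ι → ℝ)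
    (hpos : ∀ i ∈ s, 0 < a i) (hprod : 1 ≤ ∏ i ∈ s, a i) : (s.card : ℝ) ≤ ∑ i ∈ s, a i := by
  have h1 : ∀ i ∈ s, Real.log (a i) + 1 ≤ a i := by
    intro i hi
    have := Real.add_one_le_exp (Real.log (a i))
    rwa [Real.exp_log (hpos i hi)] at this
  have h2 : ∑ i ∈ s, (Real.log (a i) + 1) ≤ ∑ i ∈ s, a i := Finset.sum_le_sum h1
  have h3 : ∑ i ∈ s, Real.log (a i) = Real.log (∏ i ∈ s, a i) := by
    rw [Real.log_prod]
    intro i hi
    exact (hpos i hi).ne'
  have h4 : 0 ≤ Real.log (∏ i ∈ s, a i) := Real.log_nonneg hprod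
  rw [Finset.sum_add_distrib, h3] at h2
  simp only [Finset.sum_const, nsmul_eq_mul, mul_one] at h2
  linarith

variable {p : ℕ} {M : Ideal AlgInt}

/-- **Trace bound.**  If the values of an integer polynomial at the primitive `n`-th roots of
unity are positive reals whose quotients by `p^h` are local integers, their sum is at least
`φ(n) p^h`. -/
theorem trace_bound (hM : IsPModular p M) (n : ℕ) (hn : 0 < n) (f : ℤ[X]) (h : ℕ)
    (hpos : ∀ μ ∈ primitiveRoots n ℂ, ∃ r : ℝ, 0 < r ∧ aeval μ f = (r : ℂ))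
    (hloc : ∀ μ ∈ primitiveRoots n ℂ, MemLocalRing M (aeval μ f / (p : ℂ) ^ h)) :
    ((primitiveRoots n ℂ).card : ℝ) * (p : ℝ) ^ h ≤
      ∑ μ ∈ primitiveRoots n ℂ, (aeval μ f).re := by
  classical
  have hp : p.Prime := hM.1
  have hMp := isPrime_of_isPModular hM
  have hp0 : (p : ℂ) ≠ 0 := by exact_mod_cast hp.ne_zero
  have hpR : (0 : ℝ) < (p : ℝ) := by exact_mod_cast hp.pos
  obtain ⟨z, hz⟩ := prod_aeval_primitiveRoots_int n hn f
  obtain ⟨s, hs⟩ : ∃ s : Finset ℂ, s = primitiveRoots n ℂ := ⟨_, rfl⟩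
  rw [← hs] at hz hpos hloc ⊢
  have hre : ∀ μ ∈ s, aeval μ f = (((aeval μ f).re : ℝ) : ℂ) := by
    intro μ hμ
    obtain ⟨r, -, hr⟩ := hpos μ hμ
    rw [hr, Complex.ofReal_re]
  have hrepos : ∀ μ ∈ s, 0 < (aeval μ f).re := by
    intro μ hμ
    obtain ⟨r, hr0, hr⟩ := hpos μ hμ
    rw [hr, Complex.ofReal_re]
    exact hr0
  -- the integer `z` is the product of the real parts
  have hzR : (z : ℝ) = ∏ μ ∈ s, (aeval μ f).re := by
    apply Complex.ofReal_injective
    rw [Complex.ofReal_intCast, ← hz, Complex.ofReal_prod]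
    exact Finset.prod_congr rfl hre
  have hzpos : 0 < z := by
    have : (0 : ℝ) < (z : ℝ) := by
      rw [hzR]
      exact Finset.prod_pos hrepos
    exact_mod_cast this
  -- divisibility
  have hloc2 : MemLocalRing M (∏ μ ∈ s, aeval μ f / (p : ℂ) ^ h) :=
    memLocalRing_prod hMp s _ hloc
  have hprod2 : ((z.toNat : ℕ) : ℂ) = (p : ℂ) ^ (h * s.card) *
      ∏ μ ∈ s, aeval μ f / (p : ℂ) ^ h := by
    rw [Finset.prod_div_distrib, hz, Finset.prod_const, ← pow_mul]
    have hz1 : ((z.toNat : ℕ) : ℂ) = (z : ℂ) := by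
      have : ((z.toNat : ℕ) : ℤ) = z := Int.toNat_of_nonneg hzpos.le
      exact_mod_cast this
    rw [hz1]
    field_simp
  have hdvd := pow_dvd_of_memLocalRing hM (h * s.card) z.toNat _ hloc2 hprod2
  have hle : p ^ (h * s.card) ≤ z.toNat := by
    apply Nat.le_of_dvd _ hdvd
    omega
  have hleR : (p : ℝ) ^ (h * s.card) ≤ (z : ℝ) := by
    have h1 : ((p ^ (h * s.card) : ℕ) : ℝ) ≤ ((z.toNat : ℕ) : ℝ) := by exact_mod_cast hle
    have h2 : ((z.toNat : ℕ) : ℝ) = (z : ℝ) := by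
      have : ((z.toNat : ℕ) : ℤ) = z := Int.toNat_of_nonneg hzpos.le
      exact_mod_cast this
    rw [← h2]
    exact_mod_cast h1
  -- AM-GM for the normalized values
  have hamgm := card_le_sum_of_one_le_prod s (fun μ => (aeval μ f).re / (p : ℝ) ^ h)
    (fun μ hμ => div_pos (hrepos μ hμ) (pow_pos hpR h)) (by
      rw [Finset.prod_div_distrib, ← hzR, Finset.prod_const, ← pow_mul]
      rw [le_div_iff₀ (pow_pos hpR _), one_mul]
      exact hleR)
  rw [← Finset.sum_div, le_div_iff₀ (pow_pos hpR h)] at hamgm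
  exact hamgm

end Arith

section MajorTrace

variable {G : Type u} [Group G] [Fintype G] {p : ℕ} [Fact p.Prime] {M : Ideal AlgInt}

set_option maxHeartbeats 1600000 in
/-- **Galois trace of the diagonal contribution of a major subsection.**  Let `x` be a
`p`-element of order `p^k` with centralizer `C`, and `b` a block of `C` inducing `B` with the
same defect `d` as `B`.  Then for every `χ ∈ B` the numbers `p^d m_{χχ}^{(x^γ, b)}`
(`γ` prime to `p^k`) have sum at least `φ(p^k) p^{h(χ)}`. -/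
theorem major_height_trace (hM : IsPModular p M) (x : G) (k : ℕ) (hk : orderOf x = p ^ k)
    (C : Subgroup G) [Fintype C] (hxC : ∀ c ∈ C, x * c = c * x)
    (hCx : ∀ g : G, g * x = x * g → g ∈ C)
    (ψ₀ : IrrCharacter C) (B : Set (IrrCharacter G))
    (hind : IsInducedBlock M C (blockOf M (ψ₀ : C → ℂ)) B)
    (hdef : blockDefect p (blockOf M (ψ₀ : C → ℂ)) = blockDefect p B)
    (χ : IrrCharacter G) (hχ : χ ∈ B) :
    (((Finset.range (p ^ k)).filter (fun i => i.Coprime (p ^ k))).card : ℝ) *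
        (p : ℝ) ^ blockHeight p B (χ : G → ℂ) ≤
      ∑ γ ∈ (Finset.range (p ^ k)).filter (fun i => i.Coprime (p ^ k)),
        ((p : ℂ) ^ blockDefect p B * contrib p C (blockOf M (ψ₀ : C → ℂ)) (x ^ γ) χ χ).re := by
  classical
  have hp : p.Prime := hM.1
  have hMp := isPrime_of_isPModular hM
  have hp0 : (p : ℂ) ≠ 0 := by exact_mod_cast hp.ne_zero
  have hpR : (0 : ℝ) < (p : ℝ) := by exact_mod_cast hp.pos
  have hB : IsPBlock M B := hind.2.1
  have hN : 0 < p ^ k := pow_pos hp.pos k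
  haveI : NeZero (p ^ k) := ⟨hN.ne'⟩
  have hxN : x ^ p ^ k = 1 := by rw [← hk]; exact pow_orderOf_eq_one x
  have hxmem : x ∈ C := hCx x rfl
  obtain ⟨ζ, hζ⟩ : ∃ ζ : ℂ, IsPrimitiveRoot ζ (p ^ k) :=
    ⟨_, Complex.isPrimitiveRoot_exp _ hN.ne'⟩
  obtain ⟨n, e, Q, hQsym, he, hQ, hsP, hdata⟩ :=
    exists_contrib_data2 hM x (p ^ k) hN hxN C hxmem hxC ψ₀ ζ hζ
  obtain ⟨θ₀, hθ₀B, hθ₀h⟩ : ∃ θ ∈ B, blockHeight p B (θ : G → ℂ) = 0 := by
    obtain ⟨χ₁, hχ₁⟩ := hB
    exact exists_blockHeight_zero B ⟨χ₁, by rw [hχ₁]; exact Cfsg.Agent.H80.mem_blockOf_self hMp χ₁⟩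
  rw [hdef] at hdata
  obtain ⟨bf, hbf⟩ : ∃ bf : Finset (IrrCharacter C), bf = irrFinset (blockOf M (ψ₀ : C → ℂ)) :=
    ⟨_, rfl⟩
  rw [← hbf] at hdata
  -- the polynomial
  obtain ⟨f, hf⟩ : ∃ f : ℤ[X], f = ∑ ξ ∈ bf, ∑ ξ' ∈ bf,
      Polynomial.C ((n χ ξ : ℤ) * (n χ ξ' : ℤ) * Q ξ ξ') *
        Polynomial.X ^ (e ξ + (p ^ k - e ξ')) := ⟨_, rfl⟩
  have haeval : ∀ μ : ℂ, aeval μ f = ∑ ξ ∈ bf, ∑ ξ' ∈ bf,
      (n χ ξ : ℂ) * (n χ ξ' : ℂ) * (Q ξ ξ' : ℂ) * μ ^ (e ξ + (p ^ k - e ξ')) := by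
    intro μ
    rw [hf, map_sum]
    apply Finset.sum_congr rfl
    intro ξ _
    rw [map_sum]
    apply Finset.sum_congr rfl
    intro ξ' _
    rw [map_mul, aeval_C, map_pow, aeval_X]
    simp
  have hval : ∀ γ : ℕ, aeval (ζ ^ γ) f =
      (p : ℂ) ^ blockDefect p B * contrib p C (blockOf M (ψ₀ : C → ℂ)) (x ^ γ) χ χ := by
    intro γ
    rw [haeval, hdata χ χ γ]
  -- facts for the powers of `x`
  have hpowfacts : ∀ γ : ℕ, γ.Coprime (p ^ k) →
      (∃ r : ℝ, 0 < r ∧ aeval (ζ ^ γ) f = (r : ℂ)) ∧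
      MemLocalRing M (aeval (ζ ^ γ) f / (p : ℂ) ^ blockHeight p B (χ : G → ℂ)) := by
    intro γ hγ
    have hγ' : γ.Coprime (orderOf x) := by rw [hk]; exact hγ
    have hord : orderOf (x ^ γ) = p ^ k := by
      rw [Nat.Coprime.orderOf_pow hγ'.symm, hk]
    have hxC' : ∀ c ∈ C, x ^ γ * c = c * x ^ γ := by
      intro c hc
      have h1 : Commute x c := hxC c hc
      exact (h1.pow_left γ).eq
    have hCx' : ∀ g : G, g * x ^ γ = x ^ γ * g → g ∈ C := by
      intro g hg
      obtain ⟨m, hm⟩ := exists_pow_eq_self_of_coprime hγ'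
      apply hCx
      have h1 : Commute g (x ^ γ) := hg
      have h2 : Commute g ((x ^ γ) ^ m) := h1.pow_right m
      rw [hm] at h2
      exact h2.eq
    obtain ⟨ρ, hρ1, hρ2, -, -⟩ :=
      five_h hM (x ^ γ) ⟨k, hord⟩ C hxC' hCx' ψ₀ B hind hdef χ χ hχ hχ
    obtain ⟨ρ', hρ'1, hρ'2, hρ'3, -⟩ :=
      five_h hM (x ^ γ) ⟨k, hord⟩ C hxC' hCx' ψ₀ B hind hdef θ₀ χ hθ₀B hχ
    refine ⟨?_, ?_⟩
    · -- positivity
      have hne : contrib p C (blockOf M (ψ₀ : C → ℂ)) (x ^ γ) χ χ ≠ 0 := by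
        intro hcon
        have hsec : secPart p C (blockOf M (ψ₀ : C → ℂ)) (x ^ γ) χ = 0 :=
          eq_zero_of_classInner_self _ hcon
        have h1 : contrib p C (blockOf M (ψ₀ : C → ℂ)) (x ^ γ) θ₀ χ = 0 := by
          unfold contrib
          rw [hsec]
          unfold classInner
          simp
        rw [h1, mul_zero] at hρ'2
        have h3 : ρ' = 0 := by
          rcases mul_eq_zero.mp hρ'2.symm with h | h
          · exact absurd h (pow_ne_zero _ hp0)
          · exact h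
        apply hρ'3 hθ₀h
        rw [h3]
        exact memLocalIdeal_zero hMp
      have hself := classInner_self_eq (secPart p C (blockOf M (ψ₀ : C → ℂ)) (x ^ γ) χ)
      have hnn := classInner_self_nonneg (secPart p C (blockOf M (ψ₀ : C → ℂ)) (x ^ γ) χ)
      have hc : contrib p C (blockOf M (ψ₀ : C → ℂ)) (x ^ γ) χ χ =
          (((Nat.card C : ℝ)⁻¹ * ∑ s : C,
            ‖secPart p C (blockOf M (ψ₀ : C → ℂ)) (x ^ γ) χ s‖ ^ 2 : ℝ) : ℂ) := hself
      have hpos : 0 < (Nat.card C : ℝ)⁻¹ * ∑ s : C,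
          ‖secPart p C (blockOf M (ψ₀ : C → ℂ)) (x ^ γ) χ s‖ ^ 2 := by
        rcases hnn.lt_or_eq with h | h
        · exact h
        · exfalso
          apply hne
          rw [hc, ← h]
          simp
      refine ⟨(p : ℝ) ^ blockDefect p B * ((Nat.card C : ℝ)⁻¹ * ∑ s : C,
          ‖secPart p C (blockOf M (ψ₀ : C → ℂ)) (x ^ γ) χ s‖ ^ 2),
        mul_pos (pow_pos hpR _) hpos, ?_⟩
      rw [hval γ, hc]
      push_cast
      rfl
    · rw [hval γ, hρ2, mul_div_cancel_left₀ _ (pow_ne_zero _ hp0)]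
      exact hρ1
  have hmain := trace_bound hM (p ^ k) hN f (blockHeight p B (χ : G → ℂ))
    (by
      intro μ hμ
      rw [mem_primitiveRoots hN] at hμ
      obtain ⟨i, -, hic, rfl⟩ := hζ.isPrimitiveRoot_iff.mp hμ
      exact (hpowfacts i hic).1)
    (by
      intro μ hμ
      rw [mem_primitiveRoots hN] at hμ
      obtain ⟨i, -, hic, rfl⟩ := hζ.isPrimitiveRoot_iff.mp hμ
      exact (hpowfacts i hic).2)
  rw [← Cfsg.Agent.H79.card_coprime_eq_card_primitiveRoots hN hζ,
    ← Cfsg.Agent.H79.sum_coprime_pow_eq_sum_primitiveRoots hN hζ (fun μ => (aeval μ f).re)]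
    at hmain
  refine hmain.trans (le_of_eq ?_)
  apply Finset.sum_congr rfl
  intro γ _
  rw [hval γ]

end MajorTrace

end Cfsg.Agent.H84
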