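/-
helper84 library: Bessel's inequality for the contributions of the subsections on a `p`-section.

* `classInner_pReg_blockPart_of_ne`: the `p`-regular parts of the block parts of two functions
  with respect to distinct blocks are orthogonal.
* `sum_pReg_blockPart`: the `p`-regular part of a class function is the sum of the `p`-regular
  parts of its block parts.
* `classInner_pReg_eq_sum`: Parseval over the blocks.
* `secNorm`, `sum_contrib_le_secNorm`: the contributions `m_{χχ}^{(x, β)}` of a family of
  blocks `β` of `C_G(x)` have sum at most the norm of `χ` on the `p`-section of `x`.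
* `sum_secNorm_eq_one`: the section norms of an irreducible character sum to one.
-/
import Mathlib
import Cfsg.Prelude.Def_Blocks
import Cfsg.Prelude.Def_BlockRank
import Cfsg.Agent.H84.Major4
import Cfsg.Agent.H84.SectionCount
import Cfsg.Agent.H80.Brauer

set_option autoImplicit false
set_option linter.style.haveILetI false
set_option linter.unusedSectionVars false
set_option linter.unusedVariables false

namespace Cfsg.Agent.H84

open Cfsg Cfsg.Agent.H4 Cfsg.Agent.H20
open scoped ComplexConjugate

universe u

section Bessel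

variable {C : Type u} [Group C] [Fintype C] {p : ℕ} {M : Ideal AlgInt}

/-- The `p`-regular parts of block parts with respect to distinct blocks are orthogonal. -/
theorem classInner_pReg_blockPart_of_ne (hM : IsPModular p M) {β β' : Set (IrrCharacter C)}
    (hβ : IsPBlock M β) (hβ' : IsPBlock M β') (hne : β ≠ β') (F F' : C → ℂ) :
    classInner (pRegularPart p (blockPart β F)) (pRegularPart p (blockPart β' F')) = 0 := by
  classical
  have hMp := isPrime_of_isPModular hM
  rw [pRegularPart_blockPart, pRegularPart_blockPart, classInner_sum_left]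
  apply Finset.sum_eq_zero
  intro ξ hξ
  rw [classInner_sum_right]
  apply Finset.sum_eq_zero
  intro ξ' hξ'
  rw [classInner_smul_left, classInner_smul_right, classInner_pReg_right]
  have h0 : classInner (pRegularPart p (ξ : C → ℂ)) (ξ' : C → ℂ) = 0 := by
    apply regInner_eq_zero hM ξ ξ'
    intro hcon
    apply hne
    obtain ⟨ψ, rfl⟩ := hβ
    obtain ⟨ψ', rfl⟩ := hβ'
    have h1 := Cfsg.Agent.H80.blockOf_eq_of_mem hMp (mem_irrFinset.mp hξ)
    have h2 := Cfsg.Agent.H80.blockOf_eq_of_mem hMp (mem_irrFinset.mp hξ')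
    have h3 := Cfsg.Agent.H80.blockOf_eq_of_mem hMp hcon
    rw [← h1, ← h2, h3]
  rw [h0, mul_zero, mul_zero]

/-- A class function is the sum of its block parts. -/
theorem sum_blockPart (hMp : M.IsPrime) (F : C → ℂ) (hF : IsClassFunction C F) :
    ∑ β ∈ Cfsg.Agent.H80.blocksFinset M C, blockPart β F = F := by
  classical
  letI := fintypeIrr C
  have h1 : ∀ β ∈ Cfsg.Agent.H80.blocksFinset M C, blockPart β F =
      ∑ ξ ∈ Finset.univ.filter (fun ξ : IrrCharacter C => blockOf M (ξ : C → ℂ) = β),
        classInner F (ξ : C → ℂ) • (ξ : C → ℂ) := by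
    intro β hβ
    rw [blockPart_eq_sum]
    apply Finset.sum_congr _ (fun _ _ => rfl)
    ext ξ
    rw [mem_irrFinset, Finset.mem_filter]
    obtain ⟨ψ, rfl⟩ := Cfsg.Agent.H80.mem_blocksFinset.mp hβ
    constructor
    · intro h
      exact ⟨Finset.mem_univ _, Cfsg.Agent.H80.blockOf_eq_of_mem hMp h⟩
    · intro h
      rw [← h.2]
      exact Cfsg.Agent.H80.mem_blockOf_self hMp ξ
  rw [Finset.sum_congr rfl h1]
  have h2 := Finset.sum_fiberwise_of_maps_to
    (s := (Finset.univ : Finset (IrrCharacter C))) (t := Cfsg.Agent.H80.blocksFinset M C)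
    (g := fun ξ : IrrCharacter C => blockOf M (ξ : C → ℂ))
    (fun ξ _ => Cfsg.Agent.H80.mem_blocksFinset.mpr ⟨ξ, rfl⟩)
    (fun ξ : IrrCharacter C => classInner F (ξ : C → ℂ) • (ξ : C → ℂ))
  rw [h2]
  have h3 := classFunction_eq_finsum hF
  rw [finsum_irr_eq_sum] at h3
  exact h3.symm

/-- The `p`-regular part of a class function is the sum of the `p`-regular parts of its block
parts. -/
theorem sum_pReg_blockPart (hMp : M.IsPrime) (F : C → ℂ) (hF : IsClassFunction C F) :
    ∑ β ∈ Cfsg.Agent.H80.blocksFinset M C, pRegularPart p (blockPart β F) =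
      pRegularPart p F := by
  classical
  have h1 : ∀ β ∈ Cfsg.Agent.H80.blocksFinset M C, pRegularPart p (blockPart β F) =
      Cfsg.Agent.H81.pRegL C p (blockPart β F) := fun β _ => rfl
  rw [Finset.sum_congr rfl h1, ← map_sum, sum_blockPart hMp F hF]
  rfl

/-- Parseval over the blocks for the `p`-regular part of a class function. -/
theorem classInner_pReg_eq_sum (hM : IsPModular p M) (F : C → ℂ) (hF : IsClassFunction C F) :
    classInner (pRegularPart p F) (pRegularPart p F) =
      ∑ β ∈ Cfsg.Agent.H80.blocksFinset M C,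
        classInner (pRegularPart p (blockPart β F)) (pRegularPart p (blockPart β F)) := by
  classical
  have hMp := isPrime_of_isPModular hM
  have h := sum_pReg_blockPart (p := p) hMp F hF
  conv_lhs => rw [← h]
  rw [classInner_sum_left]
  apply Finset.sum_congr rfl
  intro β hβ
  rw [classInner_sum_right, Finset.sum_eq_single β]
  · intro β' hβ' hne
    exact classInner_pReg_blockPart_of_ne hM (Cfsg.Agent.H80.mem_blocksFinset.mp hβ)
      (Cfsg.Agent.H80.mem_blocksFinset.mp hβ') (Ne.symm hne) F F
  · intro h'
    exact absurd hβ h'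

end Bessel

section Section

variable {G : Type u} [Group G] [Fintype G] {p : ℕ} {M : Ideal AlgInt}

/-- The squared norm of `χ` on the `p`-section of `x` (`C` the centralizer of `x`). -/
noncomputable def secNorm (p : ℕ) (C : Subgroup G) (x : G) (χ : IrrCharacter G) : ℂ :=
  (Nat.card C : ℂ)⁻¹ * ∑ᶠ s : C, pRegularPart p
    (fun s : C => (χ : G → ℂ) (x * (s : G)) * conj ((χ : G → ℂ) (x * (s : G)))) s

theorem secNorm_eq_classInner (C : Subgroup G) [Fintype C] (x : G) (χ : IrrCharacter G) :
    secNorm p C x χ =
      classInner (pRegularPart p (fun c : C => (χ : G → ℂ) (x * (c : G))))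
        (pRegularPart p (fun c : C => (χ : G → ℂ) (x * (c : G)))) := by
  classical
  unfold secNorm classInner
  rw [finsum_eq_sum_of_fintype]
  congr 1
  apply Finset.sum_congr rfl
  intro s _
  by_cases hs : p ∣ orderOf s
  · rw [Cfsg.Agent.H81.pRegularPart_of_dvd p _ hs, Cfsg.Agent.H81.pRegularPart_of_dvd p _ hs,
      zero_mul]
  · rw [Cfsg.Agent.H81.pRegularPart_of_not_dvd p _ hs,
      Cfsg.Agent.H81.pRegularPart_of_not_dvd p _ hs]

/-- **Bessel's inequality on a `p`-section.**  For `x` centralized by `C` and a finite set `S`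
of blocks of `C`, the contributions `m_{χχ}^{(x, β)}`, `β ∈ S`, have sum at most the squared
norm of `χ` on the section of `x`. -/
theorem sum_contrib_le_secNorm (hM : IsPModular p M) (x : G) (C : Subgroup G) [Fintype C]
    (hxC : ∀ c ∈ C, x * c = c * x) (S : Finset (Set (IrrCharacter C)))
    (hS : ∀ β ∈ S, IsPBlock M β) (χ : IrrCharacter G) :
    ∑ β ∈ S, (contrib p C β x χ χ).re ≤ (secNorm p C x χ).re := by
  classical
  have hF : IsClassFunction C (fun c : C => (χ : G → ℂ) (x * (c : G))) :=
    isClassFunction_translate x C hxC (irr_isClassFunction χ)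
  rw [secNorm_eq_classInner, classInner_pReg_eq_sum hM _ hF, Complex.re_sum]
  have hnn : ∀ β : Set (IrrCharacter C), 0 ≤ (contrib p C β x χ χ).re := by
    intro β
    unfold contrib
    rw [classInner_self_eq, Complex.ofReal_re]
    exact classInner_self_nonneg _
  have hsub : S ⊆ Cfsg.Agent.H80.blocksFinset M C := fun β hβ =>
    Cfsg.Agent.H80.mem_blocksFinset.mpr (hS β hβ)
  exact Finset.sum_le_sum_of_subset_of_nonneg hsub (fun β _ _ => hnn β)

/-- The section norms of an irreducible character sum to one. -/
theorem sum_secNorm_eq_one (hp : p.Prime) (X : Finset G)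
    (hX : ∀ x ∈ X, ∃ k : ℕ, orderOf x = p ^ k)
    (hXrep : ∀ g : G, (∃ k : ℕ, orderOf g = p ^ k) → ∃! x, x ∈ X ∧ IsConj g x)
    (χ : IrrCharacter G) :
    ∑ x ∈ X, secNorm p (Subgroup.centralizer ({x} : Set G)) x χ = 1 := by
  classical
  have h := sum_eq_sum_sections hp X hX hXrep
    (fun g => (χ : G → ℂ) g * conj ((χ : G → ℂ) g))
    (isClassFunction_mul (irr_isClassFunction χ) (by
      intro g h
      show conj ((χ : G → ℂ) (h * g * h⁻¹)) = conj ((χ : G → ℂ) g)
      rw [irr_isClassFunction χ g h]))
  have h1 : (Nat.card G : ℂ)⁻¹ * ∑ᶠ g : G, (χ : G → ℂ) g * conj ((χ : G → ℂ) g) = 1 := by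
    rw [finsum_eq_sum_of_fintype]
    exact irr_inner_self χ
  rw [h1] at h
  exact h.symm

theorem secNorm_congr {C C' : Subgroup G} (h : C = C') (x : G) (χ : IrrCharacter G) :
    secNorm p C x χ = secNorm p C' x χ := by
  subst h
  rfl

end Section

end Cfsg.Agent.H84
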