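/-
helper84 library: transport of the contribution numbers of a subsection under conjugation.

* `classInner_comp_symm`, `pRegularPart_comp_symm`, `blockPart_comp_symm`: naturality of the
  inner product, the `p`-regular part and the block part with respect to a group isomorphism.
* `contrib_conjEqv`: `m_{χψ}^{(g z g⁻¹, b^g)} = m_{χψ}^{(z, b)}`.
* `contrib_conjPair`: the same for conjugate Brauer pairs (`H80.conjPair`).
-/
import Mathlib
import Cfsg.Prelude.Def_Blocks
import Cfsg.Prelude.Def_BlockRank
import Cfsg.Prelude.Def_BrauerPairs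
import Cfsg.Agent.H84.Contrib2
import Cfsg.Agent.H80.ConjPair

set_option autoImplicit false
set_option linter.style.haveILetI false
set_option linter.unusedSectionVars false
set_option linter.unusedVariables false

namespace Cfsg.Agent.H84

open Cfsg Cfsg.Agent.H4 Cfsg.Agent.H20
open scoped ComplexConjugate

universe u

section Transport

variable {K K' : Type u} [Group K] [Group K'] [Fintype K] [Fintype K'] {p : ℕ}

theorem classInner_comp_symm (ψ : K ≃* K') (F F' : K → ℂ) :
    classInner (fun k' : K' => F (ψ.symm k')) (fun k' : K' => F' (ψ.symm k')) =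
      classInner F F' := by
  unfold classInner
  rw [Nat.card_congr ψ.symm.toEquiv]
  congr 1
  exact Fintype.sum_equiv ψ.symm.toEquiv _ _ (fun k' => rfl)

theorem pRegularPart_comp_symm (ψ : K ≃* K') (F : K → ℂ) :
    pRegularPart p (fun k' : K' => F (ψ.symm k')) =
      fun k' : K' => pRegularPart p F (ψ.symm k') := by
  funext k'
  have ho : orderOf (ψ.symm k') = orderOf k' := MulEquiv.orderOf_eq ψ.symm k'
  by_cases h : p ∣ orderOf k'
  · rw [Cfsg.Agent.H81.pRegularPart_of_dvd p _ h,
      Cfsg.Agent.H81.pRegularPart_of_dvd p _ (by rw [ho]; exact h)]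
  · rw [Cfsg.Agent.H81.pRegularPart_of_not_dvd p _ h,
      Cfsg.Agent.H81.pRegularPart_of_not_dvd p _ (by rw [ho]; exact h)]

theorem blockPart_comp_symm (ψ : K ≃* K') (f : Set (IrrCharacter K)) (F : K → ℂ) :
    blockPart (Cfsg.Agent.H80.eqvIrr ψ '' f) (fun k' : K' => F (ψ.symm k')) =
      fun k' : K' => blockPart f F (ψ.symm k') := by
  funext k'
  rw [blockPart_apply', blockPart_apply',
    finsum_mem_image (Cfsg.Agent.H80.eqvIrr_injective ψ).injOn]
  apply finsum_mem_congr rfl
  intro ξ hξ
  rw [Cfsg.Agent.H80.eqvIrr_apply]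
  congr 1
  exact classInner_comp_symm ψ F ξ.1

end Transport

section Conj

variable {G : Type u} [Group G] [Fintype G] {p : ℕ}

/-- The contribution numbers are invariant under simultaneous conjugation of the element and
the block. -/
theorem contrib_conjEqv (g : G) (K K' : Subgroup G) [Fintype K] [Fintype K']
    (h : ∀ y, y ∈ K' ↔ g⁻¹ * y * g ∈ K) (f : Set (IrrCharacter K)) (z : G)
    (χ ψ : IrrCharacter G) :
    contrib p K' (Cfsg.Agent.H80.eqvIrr (Cfsg.Agent.H80.conjEqv g K K' h) '' f)
        (g * z * g⁻¹) χ ψ = contrib p K f z χ ψ := by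
  have key : ∀ χ : IrrCharacter G,
      secPart p K' (Cfsg.Agent.H80.eqvIrr (Cfsg.Agent.H80.conjEqv g K K' h) '' f)
          (g * z * g⁻¹) χ =
        fun k' : K' => secPart p K f z χ ((Cfsg.Agent.H80.conjEqv g K K' h).symm k') := by
    intro χ
    unfold secPart
    have h1 : (fun c : K' => (χ : G → ℂ) (g * z * g⁻¹ * (c : G))) =
        fun c : K' => (fun c : K => (χ : G → ℂ) (z * (c : G)))
          ((Cfsg.Agent.H80.conjEqv g K K' h).symm c) := by
      funext c
      show (χ : G → ℂ) (g * z * g⁻¹ * (c : G)) = (χ : G → ℂ) (z * (g⁻¹ * (c : G) * g))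
      have e : g * z * g⁻¹ * (c : G) = g * (z * (g⁻¹ * (c : G) * g)) * g⁻¹ := by group
      rw [e, irr_isClassFunction χ]
    rw [h1, blockPart_comp_symm (Cfsg.Agent.H80.conjEqv g K K' h) f
      (fun c : K => (χ : G → ℂ) (z * (c : G))), pRegularPart_comp_symm]
  unfold contrib
  rw [key χ, key ψ, classInner_comp_symm]

theorem contrib_conjBlock (g : G) (Q : Subgroup G)
    (f : Set (IrrCharacter (Subgroup.centralizer (Q : Set G))))
    [iQ : Fintype (Subgroup.centralizer (Q : Set G))]
    [iQ' : Fintype (Subgroup.centralizer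
      ((Q.map (MulAut.conj g).toMonoidHom : Subgroup G) : Set G))]
    (z : G) (χ ψ : IrrCharacter G) :
    contrib p (Subgroup.centralizer ((Q.map (MulAut.conj g).toMonoidHom : Subgroup G) : Set G))
        (conjBlock Q g f) (g * z * g⁻¹) χ ψ =
      contrib p (Subgroup.centralizer (Q : Set G)) f z χ ψ := by
  rw [Cfsg.Agent.H80.conjBlock_eq_image]
  exact contrib_conjEqv (p := p) g (Subgroup.centralizer (Q : Set G))
    (Subgroup.centralizer ((Q.map (MulAut.conj g).toMonoidHom : Subgroup G) : Set G))
    (Cfsg.Agent.H80.mem_centralizer_map_conj_iff Q g) f z χ ψ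

/-- The contribution numbers of conjugate Brauer pairs. -/
theorem contrib_conjPair (g : G) (a b : BrauerPairIdx G)
    [ia : Fintype (Subgroup.centralizer (a.1 : Set G))]
    [ib : Fintype (Subgroup.centralizer (b.1 : Set G))]
    (hab : Cfsg.Agent.H80.conjPair g a = b) (z : G) (χ ψ : IrrCharacter G) :
    contrib p (Subgroup.centralizer (b.1 : Set G)) b.2 (g * z * g⁻¹) χ ψ =
      contrib p (Subgroup.centralizer (a.1 : Set G)) a.2 z χ ψ := by
  subst hab
  exact contrib_conjBlock (p := p) (iQ := ia) (iQ' := ib) g a.1 a.2 z χ ψ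

end Conj

end Cfsg.Agent.H84
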