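/-
helper84 library: counting the diagonal contributions of a family of subsections.

* `pairContrib p a z χ`: the diagonal contribution `m_{χχ}^{(z, a.2)}` of a Brauer pair
  (index) `a` and an element `z`, with `pairContrib_eq`, `pairContrib_conj`,
  `pairContrib_nonneg`.
* `sum_pairContrib_le_of_fusion`: if `Z` is a finite set of `p`-elements, `pz z` is a Brauer
  pair at `⟨z⟩` for `z ∈ Z`, and every class of `G`-conjugate subsections `(z, pz z)` meets `Z`
  in at most `e` elements, then `∑_{z ∈ Z} m_{χχ}^{(z, pz z)} ≤ e`.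
-/
import Mathlib
import Cfsg.Prelude.Def_Blocks
import Cfsg.Prelude.Def_BlockRank
import Cfsg.Prelude.Def_BrauerPairs
import Cfsg.Agent.H84.Height2
import Cfsg.Agent.H84.Height3
import Cfsg.Agent.H84.SectionSum4
import Cfsg.Agent.H80.CycCount

set_option autoImplicit false
set_option linter.style.haveILetI false
set_option linter.unusedSectionVars false
set_option linter.unusedVariables false

namespace Cfsg.Agent.H84

open Cfsg Cfsg.Agent.H4 Cfsg.Agent.H20
open scoped ComplexConjugate

universe u

section PairContrib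

variable {G : Type u} [Group G] [Fintype G] {p : ℕ} {M : Ideal AlgInt}

/-- The diagonal contribution `m_{χχ}^{(z, a.2)}` of the Brauer pair index `a` at `z`. -/
noncomputable def pairContrib (p : ℕ) (a : BrauerPairIdx G) (z : G) (χ : IrrCharacter G) : ℂ :=
  @contrib G _ _ p (Subgroup.centralizer (a.1 : Set G)) (Fintype.ofFinite _) a.2 z χ χ

theorem pairContrib_eq (a : BrauerPairIdx G) [inst : Fintype (Subgroup.centralizer (a.1 : Set G))]
    (z : G) (χ : IrrCharacter G) :
    pairContrib p a z χ = contrib p (Subgroup.centralizer (a.1 : Set G)) a.2 z χ χ := by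
  have h : inst = Fintype.ofFinite _ := Subsingleton.elim _ _
  subst h
  rfl

theorem pairContrib_mk (Q : Subgroup G) [inst : Fintype (Subgroup.centralizer (Q : Set G))]
    (f : Set (IrrCharacter (Subgroup.centralizer (Q : Set G)))) (z : G) (χ : IrrCharacter G) :
    pairContrib p ⟨Q, f⟩ z χ = contrib p (Subgroup.centralizer (Q : Set G)) f z χ χ := by
  have h : inst = Fintype.ofFinite _ := Subsingleton.elim _ _
  subst h
  rfl

theorem pairContrib_conj (g : G) (a b : BrauerPairIdx G)
    (hab : Cfsg.Agent.H80.conjPair g a = b) (z : G) (χ : IrrCharacter G) :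
    pairContrib p b (g * z * g⁻¹) χ = pairContrib p a z χ := by
  unfold pairContrib
  exact @contrib_conjPair G _ _ p g a b (Fintype.ofFinite _) (Fintype.ofFinite _) hab z χ χ

theorem pairContrib_nonneg (a : BrauerPairIdx G) (z : G) (χ : IrrCharacter G) :
    0 ≤ (pairContrib p a z χ).re := by
  letI : Fintype (Subgroup.centralizer (a.1 : Set G)) := Fintype.ofFinite _
  rw [pairContrib_eq]
  unfold contrib
  rw [classInner_self_eq, Complex.ofReal_re]
  exact classInner_self_nonneg _

theorem isPBlock_of_pair_eq {a b : BrauerPairIdx G} (h : a = b) (ha : IsPBlock M a.2) :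
    IsPBlock M b.2 := by
  subst h
  exact ha

set_option maxHeartbeats 1600000 in
/-- **Counting subsections.**  Let `Z` be a finite set of `p`-elements and `pz z` a Brauer pair
at `⟨z⟩` for every `z ∈ Z`.  If for every `z ∈ Z` at most `e` elements `z' ∈ Z` have their
subsection `(z', pz z')` conjugate in `G` to `(z, pz z)`, then the diagonal contributions
`m_{χχ}^{(z, pz z)}`, `z ∈ Z`, of an irreducible character `χ` have sum at most `e`. -/
theorem sum_pairContrib_le_of_fusion [Fact p.Prime] (hM : IsPModular p M) (Z : Finset G)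
    (hZp : ∀ z ∈ Z, ∃ k : ℕ, orderOf z = p ^ k) (pz : G → BrauerPairIdx G)
    (hpz1 : ∀ z ∈ Z, (pz z).1 = Subgroup.zpowers z)
    (hpz2 : ∀ z ∈ Z, IsPBlock M (pz z).2) (e : ℕ)
    (hfus : ∀ z ∈ Z, ∀ W : Finset G, W ⊆ Z →
      (∀ z' ∈ W, ∃ g : G, g * z * g⁻¹ = z' ∧ Cfsg.Agent.H80.conjPair g (pz z) = pz z') →
      W.card ≤ e)
    (χ : IrrCharacter G) :
    ∑ z ∈ Z, (pairContrib p (pz z) z χ).re ≤ (e : ℝ) := by
  classical
  have hp : p.Prime := hM.1
  obtain ⟨X, hX, hXrep⟩ := Cfsg.Agent.H80.exists_pElement_reps (G := G) p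
  -- the inequality for one representative
  have hone : ∀ x ∈ X, ∑ z ∈ Z.filter (fun z => IsConj z x), (pairContrib p (pz z) z χ).re ≤
      (e : ℝ) * (secNorm p (Subgroup.centralizer ({x} : Set G)) x χ).re := by
    intro x hxX
    obtain ⟨W, hW⟩ : ∃ W : Finset G, W = Z.filter (fun z => IsConj z x) := ⟨_, rfl⟩
    rw [← hW]
    have hWZ : W ⊆ Z := by rw [hW]; exact Finset.filter_subset _ _
    letI : Fintype (Subgroup.centralizer ((Subgroup.zpowers x : Subgroup G) : Set G)) :=
      Fintype.ofFinite _
    have hch : ∀ z : G, ∃ (g : G)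
        (β : Set (IrrCharacter (Subgroup.centralizer ((Subgroup.zpowers x : Subgroup G) : Set G)))),
        z ∈ W → (g * z * g⁻¹ = x ∧
          Cfsg.Agent.H80.conjPair g (pz z) = ⟨Subgroup.zpowers x, β⟩) := by
      intro z
      by_cases hz : z ∈ W
      · have hzc : IsConj z x := by
          rw [hW] at hz
          exact (Finset.mem_filter.mp hz).2
        obtain ⟨g, hg⟩ := isConj_iff.mp hzc
        have hfst : (Cfsg.Agent.H80.conjPair g (pz z)).1 = Subgroup.zpowers x := by
          show (pz z).1.map (MulAut.conj g).toMonoidHom = Subgroup.zpowers x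
          rw [hpz1 z (hWZ hz), MonoidHom.map_zpowers]
          congr 1
        obtain ⟨β, hβ⟩ := Cfsg.Agent.H80.exists_snd_of_fst_eq _ hfst
        exact ⟨g, β, fun _ => ⟨hg, hβ⟩⟩
      · exact ⟨1, ∅, fun h => absurd h hz⟩
    choose g β hgβ using hch
    -- contributions in terms of the blocks `β z`
    have hcontrib : ∀ z ∈ W, pairContrib p (pz z) z χ =
        contrib p (Subgroup.centralizer ((Subgroup.zpowers x : Subgroup G) : Set G)) (β z) x
          χ χ := by
      intro z hz
      obtain ⟨h1, h2⟩ := hgβ z hz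
      rw [← pairContrib_conj (g z) (pz z) _ h2 z χ, h1, pairContrib_mk]
    have hblock : ∀ z ∈ W, IsPBlock M (β z) := by
      intro z hz
      obtain ⟨h1, h2⟩ := hgβ z hz
      have h3 : IsPBlock M (Cfsg.Agent.H80.conjPair (g z) (pz z)).2 :=
        Cfsg.Agent.H80.isPBlock_conjBlock _ _ (hpz2 z (hWZ hz))
      exact isPBlock_of_pair_eq h2 h3
    -- the fibres of `β` have at most `e` elements
    have hfib : ∀ z₀ ∈ W, (W.filter (fun z => β z = β z₀)).card ≤ e := by
      intro z₀ hz₀
      apply hfus z₀ (hWZ hz₀) _ ((Finset.filter_subset _ _).trans hWZ)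
      intro z' hz'
      obtain ⟨hz'W, hβeq⟩ := Finset.mem_filter.mp hz'
      obtain ⟨h1, h2⟩ := hgβ z₀ hz₀
      obtain ⟨h1', h2'⟩ := hgβ z' hz'W
      refine ⟨(g z')⁻¹ * g z₀, ?_, ?_⟩
      · have e1 : (g z')⁻¹ * g z₀ * z₀ * ((g z')⁻¹ * g z₀)⁻¹ =
            (g z')⁻¹ * (g z₀ * z₀ * (g z₀)⁻¹) * g z' := by group
        rw [e1, h1, ← h1']
        group
      · rw [← Cfsg.Agent.H80.conjPair_mul, h2, ← hβeq, ← h2', Cfsg.Agent.H80.conjPair_mul,
          inv_mul_cancel, Cfsg.Agent.H80.conjPair_one]
    -- Bessel
    have hxC : ∀ c ∈ Subgroup.centralizer ((Subgroup.zpowers x : Subgroup G) : Set G),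
        x * c = c * x := by
      intro c hc
      exact (Subgroup.mem_centralizer_iff.mp hc x (Subgroup.mem_zpowers x))
    have hbes := sum_contrib_le_secNorm hM x
      (Subgroup.centralizer ((Subgroup.zpowers x : Subgroup G) : Set G)) hxC (W.image β)
      (by
        intro b hb
        obtain ⟨z, hz, rfl⟩ := Finset.mem_image.mp hb
        exact hblock z hz) χ
    rw [secNorm_congr (centralizer_zpowers_eq x)] at hbes
    have hnn : ∀ b : Set (IrrCharacter
        (Subgroup.centralizer ((Subgroup.zpowers x : Subgroup G) : Set G))),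
        0 ≤ (contrib p (Subgroup.centralizer ((Subgroup.zpowers x : Subgroup G) : Set G)) b x
          χ χ).re := by
      intro b
      unfold contrib
      rw [classInner_self_eq, Complex.ofReal_re]
      exact classInner_self_nonneg _
    calc ∑ z ∈ W, (pairContrib p (pz z) z χ).re
        = ∑ z ∈ W, (contrib p (Subgroup.centralizer
            ((Subgroup.zpowers x : Subgroup G) : Set G)) (β z) x χ χ).re := by
          apply Finset.sum_congr rfl
          intro z hz
          rw [hcontrib z hz]
      _ = ∑ b ∈ W.image β, ∑ z ∈ W.filter (fun z => β z = b),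
            (contrib p (Subgroup.centralizer
              ((Subgroup.zpowers x : Subgroup G) : Set G)) (β z) x χ χ).re := by
          rw [Finset.sum_fiberwise_of_maps_to (fun z hz => Finset.mem_image_of_mem β hz)]
      _ ≤ ∑ b ∈ W.image β, (e : ℝ) * (contrib p (Subgroup.centralizer
              ((Subgroup.zpowers x : Subgroup G) : Set G)) b x χ χ).re := by
          apply Finset.sum_le_sum
          intro b hb
          obtain ⟨z₀, hz₀, rfl⟩ := Finset.mem_image.mp hb
          have h1 : ∑ z ∈ W.filter (fun z => β z = β z₀),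
              (contrib p (Subgroup.centralizer
                ((Subgroup.zpowers x : Subgroup G) : Set G)) (β z) x χ χ).re =
              ((W.filter (fun z => β z = β z₀)).card : ℝ) * (contrib p (Subgroup.centralizer
                ((Subgroup.zpowers x : Subgroup G) : Set G)) (β z₀) x χ χ).re := by
            rw [Finset.sum_congr rfl (fun z hz => by rw [(Finset.mem_filter.mp hz).2]),
              Finset.sum_const, nsmul_eq_mul]
          rw [h1]
          apply mul_le_mul_of_nonneg_right _ (hnn _)
          exact_mod_cast hfib z₀ hz₀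
      _ = (e : ℝ) * ∑ b ∈ W.image β, (contrib p (Subgroup.centralizer
              ((Subgroup.zpowers x : Subgroup G) : Set G)) b x χ χ).re := by
          rw [Finset.mul_sum]
      _ ≤ (e : ℝ) * (secNorm p (Subgroup.centralizer ({x} : Set G)) x χ).re :=
          mul_le_mul_of_nonneg_left hbes (Nat.cast_nonneg e)
  -- summation over the representatives
  have hsplit : ∑ z ∈ Z, (pairContrib p (pz z) z χ).re =
      ∑ x ∈ X, ∑ z ∈ Z.filter (fun z => IsConj z x), (pairContrib p (pz z) z χ).re := by
    have h1 : ∀ z ∈ Z, (pairContrib p (pz z) z χ).re =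
        ∑ x ∈ X, if IsConj z x then (pairContrib p (pz z) z χ).re else 0 := by
      intro z hz
      obtain ⟨x₀, ⟨hx₀, hc₀⟩, huniq⟩ := hXrep z (hZp z hz)
      rw [Finset.sum_eq_single x₀]
      · rw [if_pos hc₀]
      · intro x hx hne
        rw [if_neg]
        intro hc
        exact hne (huniq x ⟨hx, hc⟩)
      · intro h
        exact absurd hx₀ h
    rw [Finset.sum_congr rfl h1, Finset.sum_comm]
    apply Finset.sum_congr rfl
    intro x _
    rw [Finset.sum_filter]
  rw [hsplit]
  have hsum := sum_secNorm_eq_one hp X hX hXrep χ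
  have hre : ∑ x ∈ X, (secNorm p (Subgroup.centralizer ({x} : Set G)) x χ).re = 1 := by
    rw [← Complex.re_sum, hsum, Complex.one_re]
  calc ∑ x ∈ X, ∑ z ∈ Z.filter (fun z => IsConj z x), (pairContrib p (pz z) z χ).re
      ≤ ∑ x ∈ X, (e : ℝ) * (secNorm p (Subgroup.centralizer ({x} : Set G)) x χ).re :=
        Finset.sum_le_sum hone
    _ = (e : ℝ) := by rw [← Finset.mul_sum, hre, mul_one]

end PairContrib

end Cfsg.Agent.H84
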