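import Cfsg.Agent.H84.JkCent
import Cfsg.Agent.H1.JkFour

/-!
K-MI of the JZ-KILL sub-project (S2951 / S2952): no over-offenders of `S` on `V = Ω₁Z(O₂(L))`,
by induction from helper1's `Cfsg.Agent.H1.Jt.hyperplane_fix`; hence K-CENT.
-/

set_option autoImplicit false
open Cfsg

namespace Cfsg.Agent.H84.Jk

open Cfsg.Agent.H64.Jz Cfsg.Agent.H59.JzK

universe u

/-- Adjoining an element `a` to a subgroup `B` of an exponent-2 group `A`. -/
theorem adjoin_exp_two {G : Type u} [Group G] (A B : Subgroup G) (hA2 : ∀ x ∈ A, x * x = 1)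
    (hBA : B ≤ A) (a : G) (ha : a ∈ A) :
    ∃ B₂ : Subgroup G, B ≤ B₂ ∧ a ∈ B₂ ∧ ∀ x ∈ B₂, x ∈ B ∨ x * a ∈ B := by
  have hAc := Cfsg.Agent.H84.JtDich.comm_of_exp_two A hA2
  have hinv : ∀ x ∈ A, x⁻¹ = x := fun x hx => inv_eq_of_mul_eq_one_right (hA2 x hx)
  have hmemA : ∀ x, (x ∈ B ∨ x * a ∈ B) → x ∈ A := by
    intro x hx
    rcases hx with hx | hx
    · exact hBA hx
    · have h := A.mul_mem (hBA hx) (A.inv_mem ha)
      rwa [mul_inv_cancel_right] at h
  refine ⟨{ carrier := {x | x ∈ B ∨ x * a ∈ B}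
            mul_mem' := ?_
            one_mem' := Or.inl B.one_mem
            inv_mem' := ?_ }, ?_, ?_, ?_⟩
  · intro x y hx hy
    have hyA : y ∈ A := hmemA y hy
    have hya : y * a = a * y := hAc y hyA a ha
    rcases hx with hx | hx
    · rcases hy with hy | hy
      · exact Or.inl (B.mul_mem hx hy)
      · right
        have h := B.mul_mem hx hy
        rwa [← mul_assoc] at h
    · rcases hy with hy | hy
      · right
        have h := B.mul_mem hx hy
        have e : x * a * y = x * y * a := by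
          rw [mul_assoc, ← hya, ← mul_assoc]
        rwa [e] at h
      · left
        have h := B.mul_mem hx hy
        have e : x * a * (y * a) = x * y := by
          rw [hya, mul_assoc, ← mul_assoc a a y, hA2 a ha, one_mul]
        rwa [e] at h
  · intro x hx
    show x⁻¹ ∈ B ∨ x⁻¹ * a ∈ B
    rw [hinv x (hmemA x hx)]
    exact hx
  · intro x hx
    exact Or.inl hx
  · exact Or.inr (by rw [hA2 a ha]; exact B.one_mem)
  · intro x hx
    exact hx

/-- (MI): no over-offenders, by induction from `hyperplane_fix`. -/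
theorem no_over {G : Type u} [Group G] [Finite G] (L V : Subgroup G) (hVL : V ≤ L)
    (hLV : L ≤ Subgroup.normalizer (V : Set G)) (hsolv : Group.IsSolvable ↥L)
    (hV2 : ∀ v ∈ V, v * v = 1) (hVc : ∀ v ∈ V, ∀ w ∈ V, v * w = w * v)
    (hO : Cfsg.Agent.H1.Jt.NoTwoCoreMod L V) :
    ∀ (n : ℕ) (A : Subgroup G), Nat.card ↥A ≤ n → A ≤ L → (∀ a ∈ A, a * a = 1) →
      (∀ a ∈ A, ∀ b ∈ A, a * b = b * a) → A ⊓ Subgroup.centralizer (V : Set G) = ⊥ →
      Nat.card ↥A * Nat.card ↥(V ⊓ Subgroup.centralizer (A : Set G)) ≤ Nat.card ↥V := by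
  classical
  intro n
  induction n with
  | zero =>
    intro A hn
    exfalso
    have : 0 < Nat.card ↥A := Nat.card_pos
    omega
  | succ n ih =>
    intro A hn hAL hA2 hAc hAV
    by_cases hA : A = ⊥
    · subst hA
      rw [Subgroup.card_bot, one_mul]
      exact Subgroup.card_le_of_le inf_le_left
    · obtain ⟨B, a, haA, hBA, haB, hsup, v, hvV, hBv, hav⟩ :=
        Cfsg.Agent.H1.Jt.hyperplane_fix L V A hVL hLV hsolv hV2 hVc hO hAL hA2 hAc hAV hA
      -- `|A| ≤ 2 |B|`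
      obtain ⟨B₂, hBB₂, haB₂, hB₂⟩ := adjoin_exp_two A B hA2 hBA a haA
      have hAB₂ : A ≤ B₂ := by
        rw [← hsup]
        exact sup_le hBB₂ ((Subgroup.zpowers_le).mpr haB₂)
      have hcardA : Nat.card ↥A ≤ Nat.card ↥B * 2 := by
        have h2 : Nat.card Bool = 2 := by
          rw [Nat.card_eq_fintype_card, Fintype.card_bool]
        rw [← h2, ← Nat.card_prod]
        apply Nat.card_le_card_of_surjective
          (fun p : ↥B × Bool =>
            (⟨if p.2 then p.1.1 * a else p.1.1, by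
              by_cases hp : p.2 = true
              · rw [if_pos hp]
                exact A.mul_mem (hBA p.1.2) haA
              · rw [if_neg hp]
                exact hBA p.1.2⟩ : ↥A))
        intro x
        rcases hB₂ x.1 (hAB₂ x.2) with hx | hx
        · refine ⟨(⟨x.1, hx⟩, false), ?_⟩
          apply Subtype.ext
          simp
        · refine ⟨(⟨x.1 * a, hx⟩, true), ?_⟩
          apply Subtype.ext
          simp only [if_true]
          rw [mul_assoc, hA2 a haA, mul_one]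
      -- `|B| < |A|`
      have hcardB : Nat.card ↥B ≤ n := by
        by_contra hcon
        have h1 : Nat.card ↥A ≤ Nat.card ↥B := by omega
        have h2 : B = A := Subgroup.eq_of_le_of_card_ge hBA h1
        exact haB (h2 ▸ haA)
      have hBV : B ⊓ Subgroup.centralizer (V : Set G) = ⊥ := by
        rw [eq_bot_iff, ← hAV]
        exact inf_le_inf_right _ hBA
      have hIH := ih B hcardB (hBA.trans hAL) (fun x hx => hA2 x (hBA hx))
        (fun x hx y hy => hAc x (hBA hx) y (hBA hy)) hBV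
      -- `2 |C_V(A)| ≤ |C_V(B)|`
      have hle : V ⊓ Subgroup.centralizer (A : Set G) ≤ V ⊓ Subgroup.centralizer (B : Set G) :=
        inf_le_inf_left _ (Subgroup.centralizer_le (SetLike.coe_subset_coe.mpr hBA))
      have hvB : v ∈ V ⊓ Subgroup.centralizer (B : Set G) := by
        refine Subgroup.mem_inf.mpr ⟨hvV, ?_⟩
        rw [Subgroup.mem_centralizer_iff]
        intro h hh
        exact hBv h hh
      have hvA : v ∉ V ⊓ Subgroup.centralizer (A : Set G) := by
        intro h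
        have h1 := Subgroup.mem_centralizer_iff.mp (Subgroup.mem_inf.mp h).2 a haA
        exact hav h1
      have hdvd : Nat.card ↥(V ⊓ Subgroup.centralizer (A : Set G)) ∣
          Nat.card ↥(V ⊓ Subgroup.centralizer (B : Set G)) := Subgroup.card_dvd_of_le hle
      have hne : Nat.card ↥(V ⊓ Subgroup.centralizer (A : Set G)) ≠
          Nat.card ↥(V ⊓ Subgroup.centralizer (B : Set G)) := by
        intro h
        have h2 := Subgroup.eq_of_le_of_card_ge hle h.ge
        exact hvA (h2 ▸ hvB)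
      have hposB : 0 < Nat.card ↥(V ⊓ Subgroup.centralizer (B : Set G)) := Nat.card_pos
      have h2le : 2 * Nat.card ↥(V ⊓ Subgroup.centralizer (A : Set G)) ≤
          Nat.card ↥(V ⊓ Subgroup.centralizer (B : Set G)) := by
        obtain ⟨k, hk⟩ := hdvd
        rw [hk] at hne hposB ⊢
        have hk0 : k ≠ 0 := by
          rintro rfl
          simp at hposB
        have hk1 : k ≠ 1 := by
          rintro rfl
          simp at hne
        have hk2 : 2 ≤ k := by omega
        calc 2 * Nat.card ↥(V ⊓ Subgroup.centralizer (A : Set G))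
            = Nat.card ↥(V ⊓ Subgroup.centralizer (A : Set G)) * 2 := by ring
          _ ≤ Nat.card ↥(V ⊓ Subgroup.centralizer (A : Set G)) * k :=
            Nat.mul_le_mul_left _ hk2
      calc Nat.card ↥A * Nat.card ↥(V ⊓ Subgroup.centralizer (A : Set G))
          ≤ (Nat.card ↥B * 2) * Nat.card ↥(V ⊓ Subgroup.centralizer (A : Set G)) :=
            Nat.mul_le_mul_right _ hcardA
        _ = Nat.card ↥B * (2 * Nat.card ↥(V ⊓ Subgroup.centralizer (A : Set G))) := by ring
        _ ≤ Nat.card ↥B * Nat.card ↥(V ⊓ Subgroup.centralizer (B : Set G)) :=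
            Nat.mul_le_mul_left _ h2le
        _ ≤ Nat.card ↥V := hIH

/-- K-MI. -/
theorem kMI : StKMI.{u} := by
  intro G _ _ S M K L T' K' L' hR A₁ hA₁S hA₁2 hA₁c hA₁V
  classical
  obtain ⟨hB, -, hB', -⟩ := hR
  obtain ⟨⟨hc2, hsolv, hZ⟩, -, -, -, -, -, -, hLmax, -⟩ := hB
  obtain ⟨-, -, -, hNJL, -, -, -, -, -⟩ := hB'
  have hS2 : IsPGroup 2 ↥(S : Subgroup G) := S.isPGroup'
  have hSL : (S : Subgroup G) ≤ L := by
    refine le_trans ?_ hNJL
    intro s hs
    exact Cfsg.Agent.H1.JzK.mem_normalizer_of_map_conj _ s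
      (Cfsg.Agent.H59.So.thompson_map_conj_self (T := (S : Subgroup G)) hs)
      (Cfsg.Agent.H59.So.thompson_map_conj_self (T := (S : Subgroup G)) (inv_mem hs))
  have hQ2 : IsPGroup 2 ↥(pCoreOf 2 L) := Cfsg.Agent.H51.pCoreOf_isPGroup 2 L
  have hQL : pCoreOf 2 L ≤ L := Cfsg.Agent.H51.pCoreOf_le 2 L
  have hLQ : L ≤ Subgroup.normalizer (pCoreOf 2 L : Set G) :=
    Cfsg.Agent.H51.le_normalizer_pCoreOf 2 L
  obtain ⟨T₀, hT₀2, hT₀ne, hLT₀⟩ := hLmax.1
  have hT₀Q : T₀ ≤ pCoreOf 2 L :=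
    Cfsg.Agent.H51.le_pCoreOf 2 (by rw [hLT₀]; exact Subgroup.le_normalizer) hLT₀.le hT₀2
  have hQne : pCoreOf 2 L ≠ ⊥ := fun h => hT₀ne (le_bot_iff.mp (h ▸ hT₀Q))
  have hNQ : Subgroup.normalizer (pCoreOf 2 L : Set G) = L :=
    hLmax.2 _ ⟨pCoreOf 2 L, hQ2, hQne, rfl⟩ hLQ
  have hchar : IsOfCharacteristicTwo ↥L := hLT₀ ▸ hc2.2 T₀ hT₀2 hT₀ne
  have hCQ : Subgroup.centralizer (pCoreOf 2 L : Set G) ≤ pCoreOf 2 L := by
    intro x hx
    have hxL : x ∈ L := by
      have : x ∈ Subgroup.normalizer (pCoreOf 2 L : Set G) :=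
        Subgroup.centralizer_le_normalizer _ hx
      rwa [hNQ] at this
    have h1 : (⟨x, hxL⟩ : ↥L) ∈ Subgroup.centralizer (pCore 2 ↥L : Set ↥L) := by
      rw [Subgroup.mem_centralizer_iff]
      intro q hq
      apply Subtype.ext
      have hqQ : (q : G) ∈ pCoreOf 2 L := ⟨q, hq, rfl⟩
      exact (Subgroup.mem_centralizer_iff.mp hx) (q : G) hqQ
    exact ⟨⟨x, hxL⟩, hchar h1, rfl⟩
  have hQS : pCoreOf 2 L ≤ (S : Subgroup G) := by
    have h1 : IsPGroup 2 ↥((S : Subgroup G) ⊔ pCoreOf 2 L) :=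
      IsPGroup.to_sup_of_normal_right' hS2 hQ2 (hSL.trans hLQ)
    have h2 := S.is_maximal' h1 le_sup_left
    rw [← h2]; exact le_sup_right
  have hVmem : ∀ v ∈ Vof L, v ∈ pCoreOf 2 L ∧ v ∈ Subgroup.centralizer (pCoreOf 2 L : Set G) ∧
      v ^ 2 = 1 := fun v hv => Cfsg.Agent.H63.Sn.mem_omegaCenterOf (pCoreOf 2 L) hv
  have hVQ : Vof L ≤ pCoreOf 2 L := fun v hv => (hVmem v hv).1
  have hVL : Vof L ≤ L := hVQ.trans hQL
  have hV2 : ∀ v ∈ Vof L, v * v = 1 := fun v hv => by
    have := (hVmem v hv).2.2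
    rwa [pow_two] at this
  have hVc : ∀ v ∈ Vof L, ∀ w ∈ Vof L, v * w = w * v := fun v hv w hw =>
    ((Subgroup.mem_centralizer_iff.mp (hVmem v hv).2.1) w (hVQ hw)).symm
  have hLV : L ≤ Subgroup.normalizer (Vof L : Set G) := by
    intro l hl
    have key : ∀ g ∈ L, (Vof L).map (MulAut.conj g).toMonoidHom = Vof L := by
      intro g hg
      have h1 := Cfsg.Agent.H59.So.omegaCenterOf_map_conj g (pCoreOf 2 L)
      rw [Cfsg.Agent.H1.JzK.map_conj_eq_of_mem_normalizer (hLQ hg)] at h1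
      exact h1.symm
    exact Cfsg.Agent.H1.JzK.mem_normalizer_of_map_conj _ l (key l hl) (key l⁻¹ (inv_mem hl))
  have hZV : omegaCenterOf (S : Subgroup G) ≤ Vof L := by
    apply Cfsg.Agent.H51.omegaOne_mono 2
    intro x hx
    have hxc : x ∈ Subgroup.centralizer (pCoreOf 2 L : Set G) :=
      Subgroup.centralizer_le (SetLike.coe_subset_coe.mpr hQS) hx.2
    exact ⟨hCQ hxc, hxc⟩
  have hC : L ⊓ Subgroup.centralizer (Vof L : Set G) ≤
      Subgroup.normalizer ((S : Subgroup G) : Set G) := by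
    intro x hx
    exact hZ S (Subgroup.centralizer_le (SetLike.coe_subset_coe.mpr hZV) hx.2)
  have hQ' : ∀ N : Subgroup G, N ≤ L → IsPGroup 2 ↥N → L ≤ Subgroup.normalizer (N : Set G) →
      N ≤ Subgroup.centralizer (Vof L : Set G) := by
    intro N hNL hN2 hLN n hn
    have hnQ : n ∈ pCoreOf 2 L := Cfsg.Agent.H51.le_pCoreOf 2 hNL hLN hN2 hn
    rw [Subgroup.mem_centralizer_iff]
    intro v hv
    exact ((Subgroup.mem_centralizer_iff.mp (hVmem v hv).2.1) n hnQ).symm
  have hO := Cfsg.Agent.H1.Jt.noTwoCoreMod_of L (Vof L) S hSL hVL hLV hC hQ'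
  have hsolvL : Group.IsSolvable ↥L := hsolv L hLmax.1
  exact no_over L (Vof L) hVL hLV hsolvL hV2 hVc hO (Nat.card ↥A₁) A₁ le_rfl
    (hA₁S.trans hSL) hA₁2 hA₁c hA₁V

example : StKMI.{u} := kMI

/-- K-CENT, with the remaining pieces as hypotheses. -/
theorem kCent' (hNV : StKNV.{u}) (hBasic : StKBasic.{u}) (hExp : StKExp.{u}) : StKCent.{u} :=
  kCent kMI hNV hBasic hExp

example : ∀ (_ : Cfsg.Agent.H59.JzK.StKNV.{u}) (_ : Cfsg.Agent.H59.JzK.StKBasic.{u})
    (_ : Cfsg.Agent.H59.JzK.StKExp.{u}), Cfsg.Agent.H59.JzK.StKCent.{u} := kCent'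

end Cfsg.Agent.H84.Jk
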