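import Mathlib
import Cfsg.Agent.H64.JzDefs
import Cfsg.Agent.H64.JyDefs
import Cfsg.Agent.H61.JkBasic
import Cfsg.Agent.H59.PushKill2
import Cfsg.Agent.H52.SrMain
import Cfsg.Agent.S2948
import Cfsg.Agent.S2950
import Cfsg.Agent.S2951
import Cfsg.Agent.S2952
import Cfsg.Agent.H14.Thompson
import Cfsg.Agent.H31.X.CharP2
import Cfsg.Agent.Helper55.J48
import Cfsg.Agent.H54.UqO2SN

/-!
# JY-GOOD (helper84, for the S2953 project): the per-`P` clauses for `P = K ⊔ T` from a `Base`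
configuration.

* `goodL`: `L` is the only maximal 2-local over `K ⊔ T`, and `T` is Sylow in it.
* `goodSyl`: `T` is Sylow in `K ⊔ T`.
* `goodCent`: `C_G(O₂(P)) ≤ O₂(P)`.
* `good6`: `|P : O₂(P)| = 6` and `P / O₂(P)` is not abelian.
* `goodZ`: `[Ω₁Z(T), P] ≠ 1`.
* `good`: all of them together (`PClause T (K ⊔ T)`).
-/

set_option autoImplicit false
set_option linter.unusedVariables false
set_option linter.style.haveILetI false
open Cfsg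
open scoped commutatorElement

namespace Cfsg.Agent.H84.Jy

open Cfsg.Agent.H64.Jz

universe u

/-- The per-`P` clause of S2953. -/
def PClause {G : Type u} [Group G] (T P : Subgroup G) : Prop :=
  Subgroup.centralizer (pCoreOf 2 P : Set G) ≤ pCoreOf 2 P ∧ IsSylowTwoIn T P ∧
  (pCoreOf 2 P).relIndex P = 6 ∧ ¬ ⁅P, P⁆ ≤ pCoreOf 2 P ∧ ⁅omegaCenterOf T, P⁆ ≠ ⊥ ∧
  ∃ L : Subgroup G, IsMaximalTwoLocal L ∧ P ≤ L ∧ IsSylowTwoIn T L ∧
    ∀ L' : Subgroup G, IsMaximalTwoLocal L' → P ≤ L' → L' = L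

/-- `L` is the only maximal 2-local over `K ⊔ T`; `T` is Sylow in `L`. -/
theorem goodL {G : Type u} [Group G] [Finite G] (S : Sylow 2 G) (M T K L : Subgroup G)
    (hB : Base S M T K L) :
    K ⊔ T ≤ L ∧ IsSylowTwoIn T L ∧
      (∀ L' : Subgroup G, IsMaximalTwoLocal L' → K ⊔ T ≤ L' → L' = L) := by
  obtain ⟨hsub, hSyl⟩ := Cfsg.Agent.H61.Jk.base_facts S M T K L hB
  obtain ⟨hZN, hO, hM, hMJ, hT, hTS, hK, hLmax, hKJL⟩ := hB
  obtain ⟨hchar, hsolv, hZ⟩ := hZN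
  have hJT : thompsonSubgroupOf 2 T ≤ T := Cfsg.Agent.H14.thompsonSubgroupOf_le 2 T
  refine ⟨sup_le (le_sup_left.trans hKJL) hSyl.1, hSyl, ?_⟩
  intro L' hL' hPL'
  obtain ⟨L₀, hL₀max, hL₀, huniq, -, -⟩ :=
    Cfsg.Agent.S2950.result hchar hsolv hZ hO S M hM hMJ T hT K hK
  have h1 : L' = L₀ := huniq L' hL' ((sup_le_sup_left hJT K).trans hPL')
  have h2 : L = L₀ := huniq L hLmax hKJL
  rw [h1, h2]

/-- `T` is Sylow in `K ⊔ T`. -/
theorem goodSyl {G : Type u} [Group G] [Finite G] (S : Sylow 2 G) (M T K L : Subgroup G)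
    (hB : Base S M T K L) : IsSylowTwoIn T (K ⊔ T) := by
  obtain ⟨hPL, hSyl, -⟩ := goodL S M T K L hB
  refine ⟨le_sup_right, hSyl.2.1, ?_⟩
  have h := Subgroup.relIndex_mul_relIndex T (K ⊔ T) L le_sup_right hPL
  have h' : Odd (T.relIndex (K ⊔ T) * (K ⊔ T).relIndex L) := by rw [h]; exact hSyl.2.2
  exact (Nat.odd_mul.mp h').1

/-- `C_G(O₂(P)) ≤ O₂(P)`. -/
theorem goodCent {G : Type u} [Group G] [Finite G] (S : Sylow 2 G) (M T K L : Subgroup G)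
    (hB : Base S M T K L) :
    Subgroup.centralizer (pCoreOf 2 (K ⊔ T) : Set G) ≤ pCoreOf 2 (K ⊔ T) := by
  haveI : Fact (Nat.Prime 2) := ⟨Nat.prime_two⟩
  obtain ⟨hPL, hSyl, -⟩ := goodL S M T K L hB
  obtain ⟨hZN, hO, hM, hMJ, hT, hTS, hK, hLmax, hKJL⟩ := hB
  obtain ⟨hchar, hsolv, hZ⟩ := hZN
  have hQT : pCoreOf 2 L ≤ T := Cfsg.Agent.Helper55.J48.pCoreOf_le_of_sylowIn hSyl
  have hQP : pCoreOf 2 L ≤ pCoreOf 2 (K ⊔ T) :=
    Cfsg.Agent.H31.X.H54.le_pCoreOf (hQT.trans le_sup_right)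
      (hPL.trans (Cfsg.Agent.H31.X.H54.le_normalizer_pCoreOf L))
      (Cfsg.Agent.H31.X.H54.isPGroup_pCoreOf L)
  have hC : Subgroup.centralizer (pCoreOf 2 L : Set G) ≤ pCoreOf 2 L :=
    Cfsg.Agent.Helper55.J48.centralizer_pCoreOf_le hchar hLmax.1
  exact ((Subgroup.centralizer_le (SetLike.coe_subset_coe.mpr hQP)).trans hC).trans hQP

/-- `K` does not normalize `T`. -/
theorem not_le_normalizer {G : Type u} [Group G] [Finite G] (T K : Subgroup G)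
    (hT2 : IsPGroup 2 ↥T) (hKJ : IsJComponent T K) :
    ¬ K ≤ Subgroup.normalizer (T : Set G) := by
  haveI : Fact (Nat.Prime 2) := ⟨Nat.prime_two⟩
  intro hKT
  obtain ⟨hgen, hcomm, hO3, -, -, -⟩ := hKJ
  have hJT : thompsonSubgroupOf 2 T ≤ T := Cfsg.Agent.H14.thompsonSubgroupOf_le 2 T
  have hle : ⁅K, thompsonSubgroupOf 2 T⁆ ≤ T := by
    rw [Subgroup.commutator_le]
    intro k hk j hj
    have h1 : k * j * k⁻¹ ∈ T := (Subgroup.mem_normalizer_iff.mp (hKT hk) j).mp (hJT hj)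
    have h2 : ⁅k, j⁆ = k * j * k⁻¹ * j⁻¹ := commutatorElement_def k j
    rw [h2]
    exact mul_mem h1 (inv_mem (hJT hj))
  rw [hcomm] at hle
  have hK2 : IsPGroup 2 ↥K := hT2.to_le hle
  obtain ⟨n, hn⟩ := IsPGroup.iff_card.mp hK2
  have hdvd : (pCoreOf 2 K).relIndex K ∣ Nat.card ↥K := Subgroup.relIndex_dvd_card _ _
  rw [hO3, hn] at hdvd
  have h32 := Nat.Prime.dvd_of_dvd_pow Nat.prime_three hdvd
  omega

/-- `|P : O₂(P)| = 6` and `P / O₂(P)` is not abelian. -/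
theorem good6 {G : Type u} [Group G] [Finite G] (S : Sylow 2 G) (M T K L : Subgroup G)
    (hB : Base S M T K L) :
    (pCoreOf 2 (K ⊔ T)).relIndex (K ⊔ T) = 6 ∧ ¬ ⁅K ⊔ T, K ⊔ T⁆ ≤ pCoreOf 2 (K ⊔ T) := by
  haveI : Fact (Nat.Prime 2) := ⟨Nat.prime_two⟩
  have hSylP := goodSyl S M T K L hB
  obtain ⟨hPL, hSyl, -⟩ := goodL S M T K L hB
  obtain ⟨hsub, -⟩ := Cfsg.Agent.H61.Jk.base_facts S M T K L hB
  obtain ⟨hZN, hO, hM, hMJ, hT, hTS, hK, hLmax, hKJL⟩ := hB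
  obtain ⟨hchar, hsolv, hZ⟩ := hZN
  have hT2 : IsPGroup 2 ↥T := hT.1.1
  have hKJ : IsJComponent T K := hK.1.1
  obtain ⟨hgen, hcomm, hO3, -, -, -⟩ := hKJ
  have hKP : K ≤ K ⊔ T := le_sup_left
  have hTP : T ≤ K ⊔ T := le_sup_right
  have hKL : K ≤ L := le_sup_left.trans hKJL
  have hnK : ¬ K ≤ Subgroup.normalizer (T : Set G) := not_le_normalizer T K hT2 hK.1.1
  haveI hKn : (K.subgroupOf (K ⊔ T)).Normal :=
    Cfsg.Agent.S2952.result hchar hsolv hZ hO S M hM hMJ T hT K hK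
  have hQT : pCoreOf 2 L ≤ T := Cfsg.Agent.Helper55.J48.pCoreOf_le_of_sylowIn hSyl
  have hOT : pCoreOf 2 K ≤ T := (Cfsg.Agent.H54.Uq.o2sn K L hKL hsub).trans hQT
  have hOK : pCoreOf 2 K ≤ K := Cfsg.Agent.H31.X.H54.pCoreOf_le K
  have hTK : T ≤ Subgroup.normalizer (K : Set G) :=
    hTP.trans ((Subgroup.normal_subgroupOf_iff_le_normalizer hKP).mp hKn)
  have hsup : K.subgroupOf (K ⊔ T) ⊔ T.subgroupOf (K ⊔ T) = ⊤ := by
    rw [← Subgroup.subgroupOf_sup hKP hTP, Subgroup.subgroupOf_self]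
  have hT0 : IsPGroup 2 ↥(T.subgroupOf (K ⊔ T)) := hT2.comap_subtype
  have h3 : (T.subgroupOf (K ⊔ T)).index = 3 :=
    Cfsg.Agent.H59.PushKill.index_eq_three (K.subgroupOf (K ⊔ T)) (T.subgroupOf (K ⊔ T))
      ((pCoreOf 2 K).subgroupOf (K ⊔ T)) hsup hT0 (fun x hx => hOK hx) (fun x hx => hOT hx)
      (by rw [Subgroup.relIndex_subgroupOf hKP]; exact hO3)
  have h3' : T.relIndex (K ⊔ T) = 3 := h3
  have hRT : pCoreOf 2 (K ⊔ T) ≤ T := Cfsg.Agent.Helper55.J48.pCoreOf_le_of_sylowIn hSylP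
  have hPR : K ⊔ T ≤ Subgroup.normalizer (pCoreOf 2 (K ⊔ T) : Set G) :=
    Cfsg.Agent.H31.X.H54.le_normalizer_pCoreOf (K ⊔ T)
  obtain ⟨Q, hQT', hPQ, hQ2, -⟩ :=
    Cfsg.Agent.H59.PushKill.pstruct K T (pCoreOf 2 K) hT2 hTK hOK hOT hO3 hgen
  have hQR : Q ≤ pCoreOf 2 (K ⊔ T) :=
    Cfsg.Agent.H31.X.H54.le_pCoreOf (hQT'.trans hTP) hPQ (hT2.to_le hQT')
  have hne0 : Q.relIndex T ≠ 0 := by
    have h : (Q.subgroupOf T).index ≠ 0 := Subgroup.index_ne_zero_of_finite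
    exact h
  have hR2 : (pCoreOf 2 (K ⊔ T)).relIndex T ≤ 2 :=
    (Subgroup.relIndex_le_of_le_left hQR hne0).trans hQ2
  have hRne0 : (pCoreOf 2 (K ⊔ T)).relIndex T ≠ 0 := by
    have h : ((pCoreOf 2 (K ⊔ T)).subgroupOf T).index ≠ 0 := Subgroup.index_ne_zero_of_finite
    exact h
  have hTnn : ¬ K ⊔ T ≤ Subgroup.normalizer (T : Set G) := fun h => hnK (hKP.trans h)
  have hR1 : (pCoreOf 2 (K ⊔ T)).relIndex T ≠ 1 := by
    intro h1
    have hTR : T ≤ pCoreOf 2 (K ⊔ T) := Subgroup.relIndex_eq_one.mp h1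
    have hTeq : T = pCoreOf 2 (K ⊔ T) := le_antisymm hTR hRT
    apply hTnn
    rw [← hTeq] at hPR
    exact hPR
  have hR2' : (pCoreOf 2 (K ⊔ T)).relIndex T = 2 := by omega
  have hmul := Subgroup.relIndex_mul_relIndex (pCoreOf 2 (K ⊔ T)) T (K ⊔ T) hRT hTP
  refine ⟨?_, ?_⟩
  · rw [hR2', h3'] at hmul
    omega
  · intro hcomm'
    apply hTnn
    have key : ∀ q ∈ K ⊔ T, ∀ t ∈ T, q * t * q⁻¹ ∈ T := by
      intro q hq t ht
      have h1 : ⁅q, t⁆ ∈ pCoreOf 2 (K ⊔ T) :=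
        hcomm' (Subgroup.commutator_mem_commutator hq (hTP ht))
      have h2 : q * t * q⁻¹ = ⁅q, t⁆ * t := by rw [commutatorElement_def]; group
      rw [h2]
      exact mul_mem (hRT h1) ht
    intro p hp
    rw [Subgroup.mem_normalizer_iff]
    intro h
    constructor
    · exact key p hp h
    · intro hh
      have h4 := key p⁻¹ (inv_mem hp) _ hh
      have e : p⁻¹ * (p * h * p⁻¹) * p⁻¹⁻¹ = h := by group
      rwa [e] at h4

/-- `[Ω₁Z(T), P] ≠ 1`. -/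
theorem goodZ {G : Type u} [Group G] [Finite G] (S : Sylow 2 G) (M T K L : Subgroup G)
    (hB : Base S M T K L) : ⁅omegaCenterOf T, K ⊔ T⁆ ≠ ⊥ := by
  obtain ⟨hPL, hSyl, -⟩ := goodL S M T K L hB
  obtain ⟨hZN, hO, hM, hMJ, hT, hTS, hK, hLmax, hKJL⟩ := hB
  obtain ⟨hchar, hsolv, hZ⟩ := hZN
  have hTp : IsPGroup 2 ↥T := hT.1.1
  have hT1 : T ≠ ⊥ := hT.1.2.1
  have hKJ : IsJComponent T K := hK.1.1
  have hKL : K ≤ L := le_sup_left.trans hKJL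
  have hLM : ¬ L ≤ M := fun h => hK.2.1 (hKL.trans h)
  have hJT : thompsonSubgroupOf 2 T ≤ T := Cfsg.Agent.H14.thompsonSubgroupOf_le 2 T
  have h48 := Cfsg.Agent.S2948.result hchar hsolv hZ hO S M hM hMJ T hT L hLmax.1 hLM T
    hSyl hJT
  have hLT : L ∈ jOvergroups T := h48.2.2.1
  obtain ⟨hne, hC⟩ := Cfsg.Agent.S2951.result hchar hsolv hZ hO S M hM hMJ T hT hTS K hK L
    hLmax hKJL (omegaCenterOf (S : Subgroup G)) (omegaCenterOf (thompsonSubgroupOf 2 T)) rfl rfl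
  have hZ0 : omegaCenterOf (thompsonSubgroupOf 2 T) ≤
      T ⊓ Subgroup.centralizer (T : Set G) := by
    have hZ0T : omegaCenterOf (thompsonSubgroupOf 2 T) ≤ T :=
      fun x hx => hJT (Cfsg.Agent.H63.Sn.mem_omegaCenterOf _ hx).1
    have hS : omegaCenterOf (S : Subgroup G) ≤ Subgroup.centralizer (T : Set G) := by
      intro x hx
      exact Subgroup.centralizer_le (SetLike.coe_subset_coe.mpr hTS)
        (Cfsg.Agent.H63.Sn.mem_omegaCenterOf _ hx).2.1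
    have hTc : omegaCenterOf T ≤ Subgroup.centralizer (T : Set G) :=
      fun x hx => (Cfsg.Agent.H63.Sn.mem_omegaCenterOf _ hx).2.1
    refine le_inf hZ0T ?_
    rcases hC with ⟨h, _⟩ | ⟨h, _, _⟩ | ⟨h, _, _⟩
    · rw [← h]; exact hS
    · rw [← h]; exact hS
    · rw [← h]; exact hTc
  have hVL : omegaCenterOf (pCoreOf 2 L) ≤ L := fun x hx =>
    Cfsg.Agent.H63.Sn.pCoreOf_le L (Cfsg.Agent.H63.Sn.mem_omegaCenterOf _ hx).1
  have hWC : wOf K ⊓ Subgroup.centralizer (K : Set G) = ⊥ :=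
    (Cfsg.Agent.H52.Sr.comp1 Cfsg.Agent.H40.Sr.dec hchar hsolv hZ T hTp hT1 L hLT hVL K hKJ
      hKL).2.2.2
  obtain ⟨⟨w, hw⟩, hw1⟩ := (Subgroup.ne_bot_iff_exists_ne_one).mp hne
  have hw1' : w ≠ 1 := fun h => hw1 (Subtype.ext h)
  obtain ⟨hwZ, hwW⟩ := Subgroup.mem_inf.mp hw
  have hwT := hZ0 hwZ
  have hw2 : w ^ 2 = 1 := (Cfsg.Agent.H63.Sn.mem_omegaCenterOf _ hwZ).2.2
  have hwO : w ∈ omegaCenterOf T :=
    Cfsg.Agent.H63.Sn.omegaCenterOf_mem T hwT.1 hwT.2 hw2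
  have hwC : w ∉ Subgroup.centralizer (K : Set G) := by
    intro h
    have h' : w ∈ wOf K ⊓ Subgroup.centralizer (K : Set G) := ⟨hwW, h⟩
    rw [hWC] at h'
    exact hw1' (Subgroup.mem_bot.mp h')
  have hex : ∃ k ∈ K, ¬ k * w = w * k := by
    by_contra hcon
    apply hwC
    rw [Subgroup.mem_centralizer_iff]
    intro k hk
    by_contra hkw
    exact hcon ⟨k, hk, hkw⟩
  obtain ⟨k, hk, hkw⟩ := hex
  intro hbot
  have hmem : ⁅w, k⁆ ∈ ⁅omegaCenterOf T, K ⊔ T⁆ :=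
    Subgroup.commutator_mem_commutator hwO ((le_sup_left : K ≤ K ⊔ T) hk)
  rw [hbot, Subgroup.mem_bot, commutatorElement_eq_one_iff_commute] at hmem
  exact hkw hmem.eq.symm

/-- **JY-GOOD**: the per-`P` clause for `P = K ⊔ T`. -/
theorem good {G : Type u} [Group G] [Finite G] (S : Sylow 2 G) (M T K L : Subgroup G)
    (hB : Base S M T K L) : PClause T (K ⊔ T) := by
  obtain ⟨hPL, hSyl, huniq⟩ := goodL S M T K L hB
  obtain ⟨h6, hna⟩ := good6 S M T K L hB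
  exact ⟨goodCent S M T K L hB, goodSyl S M T K L hB, h6, hna, goodZ S M T K L hB,
    L, hB.2.2.2.2.2.2.2.1, hPL, hSyl, huniq⟩

example : ∀ {G : Type u} [Group G] [Finite G] (S : Sylow 2 G) (M T K L : Subgroup G),
    Base S M T K L →
    Subgroup.centralizer (pCoreOf 2 (K ⊔ T) : Set G) ≤ pCoreOf 2 (K ⊔ T) ∧
    IsSylowTwoIn T (K ⊔ T) ∧
    (pCoreOf 2 (K ⊔ T)).relIndex (K ⊔ T) = 6 ∧ ¬ ⁅K ⊔ T, K ⊔ T⁆ ≤ pCoreOf 2 (K ⊔ T) ∧
    ⁅omegaCenterOf T, K ⊔ T⁆ ≠ ⊥ ∧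
    ∃ L : Subgroup G, IsMaximalTwoLocal L ∧ K ⊔ T ≤ L ∧ IsSylowTwoIn T L ∧
      ∀ L' : Subgroup G, IsMaximalTwoLocal L' → K ⊔ T ≤ L' → L' = L :=
  fun S M T K L hB => good S M T K L hB

/-- JY-GOODA, exact Prop. -/
theorem stGoodA : Cfsg.Agent.H64.Jy.StGoodA.{u} := by
  intro G _ _ S M T K L hB
  obtain ⟨hPL, hSyl, huniq⟩ := goodL S M T K L hB
  exact ⟨goodCent S M T K L hB, goodSyl S M T K L hB, L, hB.2.2.2.2.2.2.2.1, hPL, hSyl, huniq⟩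

/-- JY-GOODB, exact Prop. -/
theorem stGoodB : Cfsg.Agent.H64.Jy.StGoodB.{u} :=
  fun S M T K L hB => good6 S M T K L hB

/-- JY-GOODC, exact Prop. -/
theorem stGoodC : Cfsg.Agent.H64.Jy.StGoodC.{u} :=
  fun S M T K L hB => goodZ S M T K L hB

/-- JY-GOOD, exact Prop. -/
theorem stGood : Cfsg.Agent.H64.Jy.StGood.{u} :=
  Cfsg.Agent.H64.Jy.good_of stGoodA stGoodB stGoodC

/-- The facts about `O₂(K ⊔ T)` (shape of helper52's PF). -/
theorem pfFacts {G : Type u} [Group G] [Finite G] (S : Sylow 2 G) (M T K L : Subgroup G)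
    (hB : Base S M T K L) :
    pCoreOf 2 (K ⊔ T) ≤ T ∧ pCoreOf 2 (K ⊔ T) ≠ ⊥ ∧
      K ⊔ T ≤ Subgroup.normalizer (pCoreOf 2 (K ⊔ T) : Set G) := by
  haveI : Fact (Nat.Prime 2) := ⟨Nat.prime_two⟩
  exact ⟨Cfsg.Agent.Helper55.J48.pCoreOf_le_of_sylowIn (goodSyl S M T K L hB),
    hB.2.2.2.2.2.2.1.2.2, Cfsg.Agent.H31.X.H54.le_normalizer_pCoreOf (K ⊔ T)⟩

example : Cfsg.Agent.H64.Jy.StGoodA.{u} := stGoodA.{u}
example : Cfsg.Agent.H64.Jy.StGoodB.{u} := stGoodB.{u}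
example : Cfsg.Agent.H64.Jy.StGoodC.{u} := stGoodC.{u}
example : Cfsg.Agent.H64.Jy.StGood.{u} := stGood.{u}

end Cfsg.Agent.H84.Jy

#print axioms Cfsg.Agent.H84.Jy.good
#print axioms Cfsg.Agent.H84.Jy.stGood
#print axioms Cfsg.Agent.H84.Jy.pfFacts
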