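import Mathlib
import Cfsg.Agent.H52.JxDefs
import Cfsg.Agent.H84.JyGood
import Cfsg.Agent.H1.R1Out
import Cfsg.Agent.H97.JyPFacts
import Cfsg.Agent.H48.JxVne
import Cfsg.Agent.H43.JyVFacts

/-!
# KB-NORM (helper84, S2953 / JY-KILL2): for `V ⊄ Q₁ = O₂(K' ⊔ T')`, `N_S(T')` normalizes `Q₁`.

Glue of helper1's abstract core `r1_out` with helper43's `vfacts`, helper48's `vne` / `four_all`
and helper97's `pfacts`.
-/

set_option autoImplicit false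
set_option linter.unusedVariables false
set_option linter.style.haveILetI false
open Cfsg

namespace Cfsg.Agent.H84.Jx

open Cfsg.Agent.H64.Jz Cfsg.Agent.H64.Jy

universe u

/-- One inclusion: `x Q₁ x⁻¹ ≤ Q₁` for `x ∈ N_S(T')`. -/
theorem kbNorm_aux {G : Type u} [Group G] [Finite G] (S : Sylow 2 G)
    (M K L T' K' L' : Subgroup G) (hR : RCtx2 S M K L T' K' L')
    (hVQ : ¬ omegaCenterOf (pCoreOf 2 L) ≤ pCoreOf 2 (K' ⊔ T'))
    (x : G) (hxS : x ∈ (S : Subgroup G)) (hxT : x ∈ Subgroup.normalizer (T' : Set G)) :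
    ∀ q ∈ pCoreOf 2 (K' ⊔ T'), x * q * x⁻¹ ∈ pCoreOf 2 (K' ⊔ T') := by
  haveI : Fact (Nat.Prime 2) := ⟨Nat.prime_two⟩
  obtain ⟨hV0, hVT⟩ := Cfsg.Agent.H48.Jx.vne S M K L T' K' L' hR
  obtain ⟨hB, hNS, hB', hne⟩ := hR
  obtain ⟨hc2, hZV, hVW, hc4, hexp, hVS, hNV, hSL, hKL, hSK, htr, hCent, hTI⟩ :=
    Cfsg.Agent.H43.Jy.vfacts S M K L T' K' L' hB hNS hB' hne
  obtain ⟨hQT, hQne, hPQ⟩ := Cfsg.Agent.H84.Jy.pfFacts S L T' K' L' hB'
  obtain ⟨hPL', hSyl', -⟩ := Cfsg.Agent.H84.Jy.goodL S L T' K' L' hB'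
  obtain ⟨hsub', -⟩ := Cfsg.Agent.H61.Jk.base_facts S L T' K' L' hB'
  have hB'0 := hB'
  obtain ⟨hZN, hO, hM', hMJ', hT', hT'S, hK', hL'max, hK'JL'⟩ := hB'0
  obtain ⟨hchar, hsolv, hZ⟩ := hZN
  have hT2 : IsPGroup 2 ↥T' := hT'.1.1
  have hKJ : IsJComponent T' K' := hK'.1.1
  obtain ⟨hgen, hcomm, hO3, -, -, -⟩ := hKJ
  have hKP : K' ≤ K' ⊔ T' := le_sup_left
  have hTP : T' ≤ K' ⊔ T' := le_sup_right
  have hK'L' : K' ≤ L' := le_sup_left.trans hK'JL'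
  have hK'nL : ¬ K' ≤ L := hK'.2.1
  have hKn : (K'.subgroupOf (K' ⊔ T')).Normal :=
    Cfsg.Agent.S2952.result hchar hsolv hZ hO S L hM' hMJ' T' hT' K' hK'
  have hTK : T' ≤ Subgroup.normalizer (K' : Set G) :=
    hTP.trans ((Subgroup.normal_subgroupOf_iff_le_normalizer hKP).mp hKn)
  have hQL'T : pCoreOf 2 L' ≤ T' := Cfsg.Agent.Helper55.J48.pCoreOf_le_of_sylowIn hSyl'
  have hOT : pCoreOf 2 K' ≤ T' := (Cfsg.Agent.H54.Uq.o2sn K' L' hK'L' hsub').trans hQL'T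
  have hOK : pCoreOf 2 K' ≤ K' := Cfsg.Agent.H31.X.H54.pCoreOf_le K'
  have hOnK : K' ≤ Subgroup.normalizer (pCoreOf 2 K' : Set G) :=
    Cfsg.Agent.H31.X.H54.le_normalizer_pCoreOf K'
  have hOnT : T' ≤ Subgroup.normalizer (pCoreOf 2 K' : Set G) :=
    hTK.trans (Cfsg.Agent.H31.X.H54.normalizer_le_normalizer_pCoreOf K')
  obtain ⟨D, k, hDT, hOD, hKD, hTD, hidx, hinv, -, -, hkK, hkO, hk3, hKO, -⟩ :=
    Cfsg.Agent.H97.Jy.pfacts K' T' (pCoreOf 2 K') hT2 hTK hOK hOT hO3 hOnK hOnT hgen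
  have hDQ : D ≤ pCoreOf 2 (K' ⊔ T') :=
    Cfsg.Agent.H31.X.H54.le_pCoreOf (hDT.trans hTP) (sup_le hKD hTD) (hT2.to_le hDT)
  have hQL'Q : pCoreOf 2 L' ≤ pCoreOf 2 (K' ⊔ T') :=
    Cfsg.Agent.H31.X.H54.le_pCoreOf (hQL'T.trans hTP)
      (hPL'.trans (Cfsg.Agent.H31.X.H54.le_normalizer_pCoreOf L'))
      (Cfsg.Agent.H31.X.H54.isPGroup_pCoreOf L')
  -- the central involution `z`
  have hZne : omegaCenterOf (S : Subgroup G) ≠ ⊥ := by
    intro h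
    rw [h, Subgroup.card_bot] at hc2
    omega
  obtain ⟨⟨z, hzZ⟩, hz1⟩ := (Subgroup.ne_bot_iff_exists_ne_one).mp hZne
  have hz1' : z ≠ 1 := fun h => hz1 (Subtype.ext h)
  obtain ⟨hzS, hzC, -⟩ := Cfsg.Agent.H63.Sn.mem_omegaCenterOf _ hzZ
  have hzV : z ∈ omegaCenterOf (pCoreOf 2 L) := hZV hzZ
  have hz2 : z * z = 1 := hexp z hzV
  have hzS' : ∀ t ∈ (S : Subgroup G), t * z = z * t := fun t ht =>
    Subgroup.mem_centralizer_iff.mp hzC t ht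
  have hzT : ∀ t ∈ T', t * z = z * t := fun t ht => hzS' t (hT'S ht)
  have hzQL' : z ∈ pCoreOf 2 L' := by
    apply Cfsg.Agent.Helper55.J48.centralizer_pCoreOf_le hchar hL'max.1
    rw [Subgroup.mem_centralizer_iff]
    intro q hq
    exact hzT q (hQL'T hq)
  have hzQ : z ∈ pCoreOf 2 (K' ⊔ T') := hQL'Q hzQL'
  -- the involution `v ∈ V ∖ Q₁`
  obtain ⟨v, hvV, hvQ⟩ := SetLike.not_le_iff_exists.mp hVQ
  have hvT : v ∈ T' := hVT hvV
  have hv2 : v * v = 1 := hexp v hvV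
  have hv1 : v ≠ 1 := fun h => hvQ (h ▸ one_mem _)
  have hvz : v ≠ z := fun h => hvQ (h ▸ hzQ)
  have hvzV : v * z ∈ omegaCenterOf (pCoreOf 2 L) := mul_mem hvV hzV
  have hvz1 : v * z ≠ 1 := fun h => hvz (mul_right_cancel (h.trans hz2.symm))
  have hall := Cfsg.Agent.H48.Jx.four_all hc4 hzV hvV hvzV hz1' hv1 hvz1
    (fun h => hvz h.symm)
    (fun h => hv1 (mul_right_cancel (show 1 * z = v * z by rw [one_mul]; exact h)).symm)
    (fun h => hz1' (mul_left_cancel (show v * 1 = v * z by rw [mul_one]; exact h)).symm)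
  have hQv : ∀ q ∈ pCoreOf 2 (K' ⊔ T'), v * q * v⁻¹ = q ∨ v * q * v⁻¹ = q * z := by
    intro q hq
    have hqS : q ∈ (S : Subgroup G) := hT'S (hQT hq)
    have hqN : q ∈ Subgroup.normalizer (omegaCenterOf (pCoreOf 2 L) : Set G) := by
      rw [hNV]; exact hSL hqS
    obtain ⟨c, hc⟩ : ∃ c : G, c = v * q * v⁻¹ * q⁻¹ := ⟨_, rfl⟩
    have hcQ : c ∈ pCoreOf 2 (K' ⊔ T') := by
      rw [hc]
      exact mul_mem ((Subgroup.mem_normalizer_iff.mp (hPQ (hTP hvT)) q).mp hq) (inv_mem hq)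
    have hcV : c ∈ omegaCenterOf (pCoreOf 2 L) := by
      have h1 : q * v⁻¹ * q⁻¹ ∈ omegaCenterOf (pCoreOf 2 L) :=
        (Subgroup.mem_normalizer_iff.mp hqN v⁻¹).mp (inv_mem hvV)
      have h2 : c = v * (q * v⁻¹ * q⁻¹) := by rw [hc]; group
      rw [h2]
      exact mul_mem hvV h1
    have e : v * q * v⁻¹ = c * q := by rw [hc]; group
    rcases hall c hcV with h | h | h | h
    · left
      rw [e, h, one_mul]
    · right
      rw [e, h]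
      exact (hzT q (hQT hq)).symm
    · exact absurd (h ▸ hcQ) hvQ
    · exfalso
      have h3 : v * z * z⁻¹ ∈ pCoreOf 2 (K' ⊔ T') := mul_mem (h ▸ hcQ) (inv_mem hzQ)
      rw [mul_inv_cancel_right] at h3
      exact hvQ h3
  have hkz : k * z * k⁻¹ ≠ z := by
    intro hk
    apply hK'nL
    intro g hg
    apply hCent z hzV hz1'
    rw [Subgroup.mem_centralizer_iff]
    intro h hh
    rw [Set.mem_singleton_iff] at hh
    subst hh
    obtain ⟨o, ho, i, rfl⟩ := hKO g hg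
    have hkc' : k * h = h * k := by
      have h4 := congrArg (· * k) hk
      simpa using h4
    have hkc : Commute h k := hkc'.symm
    have hoc : Commute h o := (hzT o (hOT ho)).symm
    exact (hoc.mul_right (hkc.pow_right i)).eq
  have hkQ : ∀ q ∈ pCoreOf 2 (K' ⊔ T'), k * q * k⁻¹ ∈ pCoreOf 2 (K' ⊔ T') :=
    fun q hq => (Subgroup.mem_normalizer_iff.mp (hPQ (hKP hkK)) q).mp hq
  have hOQ : pCoreOf 2 K' ≤ pCoreOf 2 (K' ⊔ T') := hOD.trans hDQ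
  have hvk : v * k * v⁻¹ ∈ K' := (Subgroup.mem_normalizer_iff.mp (hTK hvT) k).mp hkK
  have hvD : v ∉ D := fun h => hvQ (hDQ h)
  have hvk' : v * k * v⁻¹ * k ∈ pCoreOf 2 (K' ⊔ T') := hOQ (hinv v hvT hvD k hkK)
  have hTQv : ∀ t ∈ T', t ∈ pCoreOf 2 (K' ⊔ T') ∨ t * v ∈ pCoreOf 2 (K' ⊔ T') := by
    intro t ht
    by_cases h : t ∈ D
    · exact Or.inl (hDQ h)
    · exact Or.inr (hDQ (hidx t ht v hvT h hvD))
  have hsT : ∀ t ∈ T', x * t * x⁻¹ ∈ T' :=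
    fun t ht => (Subgroup.mem_normalizer_iff.mp hxT t).mp ht
  have hsv : x * v * x⁻¹ = v ∨ x * v * x⁻¹ = v * z := by
    have hxN : x ∈ Subgroup.normalizer (omegaCenterOf (pCoreOf 2 L) : Set G) := by
      rw [hNV]; exact hSL hxS
    have hcV : x * v * x⁻¹ ∈ omegaCenterOf (pCoreOf 2 L) :=
      (Subgroup.mem_normalizer_iff.mp hxN v).mp hvV
    rcases hall _ hcV with h | h | h | h
    · exact absurd (conj_eq_one_iff.mp h) hv1
    · exfalso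
      have h1 : x * v = z * x := by
        have h4 := congrArg (· * x) h
        simpa using h4
      have h2 : x * v = x * z := h1.trans (hzS' x hxS).symm
      exact hvz (mul_left_cancel h2)
    · exact Or.inl h
    · exact Or.inr h
  exact Cfsg.Agent.H1.R1.r1_out T' (pCoreOf 2 (K' ⊔ T')) K' (pCoreOf 2 K') z v k x hQT hT2 hvT
    hvQ hTQv hv2 hz2 hzQ hzT hQv hkK hk3 hkz hkQ hOQ hKO hgen hvk hvk' hsT hsv

/-- **KB-NORM**, exact Prop. -/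
theorem kbNorm : Cfsg.Agent.H52.Jx.StKBNorm.{u} := by
  intro G _ _ S M K L T' K' L' hR hVQ x hxS hxT
  rw [Subgroup.mem_normalizer_iff]
  intro h
  constructor
  · exact kbNorm_aux S M K L T' K' L' hR hVQ x hxS hxT h
  · intro hh
    have h5 := kbNorm_aux S M K L T' K' L' hR hVQ x⁻¹ (inv_mem hxS) (inv_mem hxT) _ hh
    have e : x⁻¹ * (x * h * x⁻¹) * x⁻¹⁻¹ = h := by group
    rwa [e] at h5

example : Cfsg.Agent.H52.Jx.StKBNorm.{u} := kbNorm.{u}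

end Cfsg.Agent.H84.Jx

#print axioms Cfsg.Agent.H84.Jx.kbNorm
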