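/-
helper84 library: a lower bound for power sums of `p`-power roots of unity
(an elementary substitute for the AM–GM / norm argument in cyclotomic fields).
-/
import Mathlib

set_option autoImplicit false
set_option linter.style.haveILetI false
set_option linter.unusedSectionVars false
set_option linter.unusedVariables false

namespace Cfsg.Agent.H84

open scoped BigOperators ComplexConjugate

/-- For at most `p` natural numbers whose sum is not divisible by `p`:
`(∑ f)² + (p - 1) ≤ p * ∑ f²`. -/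
theorem sq_sum_add_le (p : ℕ) (hp : 2 ≤ p) {ι : Type*} (T : Finset ι) (f : ι → ℕ)
    (hT : T.card ≤ p) (hdvd : ¬ p ∣ ∑ i ∈ T, f i) :
    (∑ i ∈ T, f i) ^ 2 + (p - 1) ≤ p * ∑ i ∈ T, f i ^ 2 := by
  set b := ∑ i ∈ T, f i with hb
  set c := b / p with hc
  set r := b % p with hr
  have hbr : b = p * c + r := (Nat.div_add_mod b p).symm
  have hr0 : 0 < r := Nat.pos_of_ne_zero (fun h => hdvd (Nat.dvd_of_mod_eq_zero h))
  have hrp : r < p := Nat.mod_lt _ (by omega)
  have h1 : ∑ i ∈ T, ((f i : ℤ) - c) ≤ ∑ i ∈ T, ((f i : ℤ) - c) ^ 2 :=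
    Finset.sum_le_sum (fun i _ => Int.le_self_sq _)
  have h2 : ∑ i ∈ T, ((f i : ℤ) - c) = (b : ℤ) - T.card * c := by
    rw [Finset.sum_sub_distrib, Finset.sum_const, hb]
    push_cast
    simp
  have h3 : ∑ i ∈ T, ((f i : ℤ) - c) ^ 2 =
      (∑ i ∈ T, (f i : ℤ) ^ 2) - 2 * c * b + T.card * (c : ℤ) ^ 2 := by
    have : ∀ i ∈ T, ((f i : ℤ) - c) ^ 2 = (f i : ℤ) ^ 2 - 2 * c * (f i : ℤ) + (c : ℤ) ^ 2 := by
      intro i _; ring
    rw [Finset.sum_congr rfl this, Finset.sum_add_distrib, Finset.sum_sub_distrib,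
      ← Finset.mul_sum, Finset.sum_const, hb]
    push_cast
    simp
  rw [h2, h3] at h1
  have hgoal : ((b : ℤ)) ^ 2 + ((p : ℤ) - 1) ≤ p * ∑ i ∈ T, (f i : ℤ) ^ 2 := by
    have hT' : (T.card : ℤ) ≤ p := by exact_mod_cast hT
    have hc0 : (0 : ℤ) ≤ c := by positivity
    have hr1 : (1 : ℤ) ≤ r := by exact_mod_cast hr0
    have hr2 : (r : ℤ) ≤ p - 1 := by
      have : r + 1 ≤ p := hrp
      have : (r : ℤ) + 1 ≤ p := by exact_mod_cast this
      linarith
    have hb' : (b : ℤ) = p * c + r := by exact_mod_cast hbr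
    have hp' : (2 : ℤ) ≤ p := by exact_mod_cast hp
    have e1 : (0 : ℤ) ≤ ((p : ℤ) - T.card) * (c * (1 + c)) :=
      mul_nonneg (by linarith) (mul_nonneg hc0 (by linarith))
    have e2 : (0 : ℤ) ≤ ((r : ℤ) - 1) * ((p : ℤ) - 1 - r) :=
      mul_nonneg (by linarith) (by linarith)
    have e3 : (p : ℤ) * ((b : ℤ) - T.card * c) ≤
        p * ((∑ i ∈ T, (f i : ℤ) ^ 2) - 2 * c * b + T.card * (c : ℤ) ^ 2) :=
      mul_le_mul_of_nonneg_left h1 (by linarith)
    rw [hb'] at e3 ⊢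
    nlinarith [e1, e2, e3]
  have hp1 : ((p - 1 : ℕ) : ℤ) = (p : ℤ) - 1 := by
    rw [Nat.cast_sub (by omega)]; simp
  have : (((∑ i ∈ T, f i) ^ 2 + (p - 1) : ℕ) : ℤ) ≤ ((p * ∑ i ∈ T, f i ^ 2 : ℕ) : ℤ) := by
    push_cast
    rw [hp1]
    have hb2 : ((∑ i ∈ T, f i : ℕ) : ℤ) = (b : ℤ) := by rw [hb]
    push_cast at hb2
    rw [hb2]
    exact hgoal
  exact_mod_cast this

/-- The combinatorial core: for a finite family of complex numbers of size prime to `p`,
`#{(j,l) : z_j^p = z_l^p} + (p - 1) ≤ p * #{(j,l) : z_j = z_l}`. -/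
theorem fiber_count (p : ℕ) (hp : p.Prime) {ι : Type*} [DecidableEq ι] (T : Finset ι)
    (z : ι → ℂ) (hT : ¬ p ∣ T.card) :
    ((T ×ˢ T).filter (fun x => z x.1 ^ p = z x.2 ^ p)).card + (p - 1) ≤
      p * ((T ×ˢ T).filter (fun x => z x.1 = z x.2)).card := by
  classical
  set a : ℂ → ℕ := fun ζ => (T.filter (fun j => z j = ζ)).card with ha
  set b : ℂ → ℕ := fun ξ => (T.filter (fun j => z j ^ p = ξ)).card with hb
  set Zall : Finset ℂ := T.image z with hZall
  set Y : Finset ℂ := T.image (fun j => z j ^ p) with hY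
  -- pairs with equal values
  have hA : ((T ×ˢ T).filter (fun x => z x.1 = z x.2)).card = ∑ ζ ∈ Zall, a ζ ^ 2 := by
    rw [Finset.card_eq_sum_card_fiberwise (f := fun x : ι × ι => z x.1) (t := Zall)]
    · refine Finset.sum_congr rfl (fun ζ _ => ?_)
      have : ((T ×ˢ T).filter (fun x => z x.1 = z x.2)).filter (fun x => z x.1 = ζ) =
          (T.filter (fun j => z j = ζ)) ×ˢ (T.filter (fun j => z j = ζ)) := by
        ext x
        simp only [Finset.mem_filter, Finset.mem_product]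
        constructor
        · rintro ⟨⟨⟨h1, h2⟩, h3⟩, h4⟩
          exact ⟨⟨h1, h4⟩, h2, h3 ▸ h4⟩
        · rintro ⟨⟨h1, h2⟩, h3, h4⟩
          exact ⟨⟨⟨h1, h3⟩, h2.trans h4.symm⟩, h2⟩
      rw [this, Finset.card_product, sq]
    · intro x hx
      simp only [Finset.coe_filter, Finset.mem_product, Set.mem_setOf_eq] at hx
      exact Finset.mem_coe.mpr (Finset.mem_image_of_mem z hx.1.1)
  have hB : ((T ×ˢ T).filter (fun x => z x.1 ^ p = z x.2 ^ p)).card = ∑ ξ ∈ Y, b ξ ^ 2 := by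
    rw [Finset.card_eq_sum_card_fiberwise (f := fun x : ι × ι => z x.1 ^ p) (t := Y)]
    · refine Finset.sum_congr rfl (fun ξ _ => ?_)
      have : ((T ×ˢ T).filter (fun x => z x.1 ^ p = z x.2 ^ p)).filter
          (fun x => z x.1 ^ p = ξ) =
          (T.filter (fun j => z j ^ p = ξ)) ×ˢ (T.filter (fun j => z j ^ p = ξ)) := by
        ext x
        simp only [Finset.mem_filter, Finset.mem_product]
        constructor
        · rintro ⟨⟨⟨h1, h2⟩, h3⟩, h4⟩
          exact ⟨⟨h1, h4⟩, h2, h3 ▸ h4⟩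
        · rintro ⟨⟨h1, h2⟩, h3, h4⟩
          exact ⟨⟨⟨h1, h3⟩, h2.trans h4.symm⟩, h2⟩
      rw [this, Finset.card_product, sq]
    · intro x hx
      simp only [Finset.coe_filter, Finset.mem_product, Set.mem_setOf_eq] at hx
      exact Finset.mem_coe.mpr (Finset.mem_image_of_mem (fun j => z j ^ p) hx.1.1)
  -- fibres of the p-th power map
  have hbsum : ∀ ξ : ℂ, b ξ = ∑ ζ ∈ Zall.filter (fun ζ => ζ ^ p = ξ), a ζ := by
    intro ξ
    show (T.filter (fun j => z j ^ p = ξ)).card = _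
    rw [Finset.card_eq_sum_card_fiberwise (f := z) (t := Zall.filter (fun ζ => ζ ^ p = ξ))]
    · refine Finset.sum_congr rfl (fun ζ hζ => ?_)
      rw [Finset.mem_filter] at hζ
      congr 1
      ext j
      simp only [Finset.mem_filter]
      constructor
      · rintro ⟨⟨h1, _⟩, h3⟩
        exact ⟨h1, h3⟩
      · rintro ⟨h1, h2⟩
        exact ⟨⟨h1, by rw [h2]; exact hζ.2⟩, h2⟩
    · intro j hj
      simp only [Finset.coe_filter, Set.mem_setOf_eq] at hj
      simp only [Finset.coe_filter, Set.mem_setOf_eq]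
      exact ⟨Finset.mem_image_of_mem z hj.1, hj.2⟩
  have hAsplit : ∑ ζ ∈ Zall, a ζ ^ 2 =
      ∑ ξ ∈ Y, ∑ ζ ∈ Zall.filter (fun ζ => ζ ^ p = ξ), a ζ ^ 2 := by
    refine (Finset.sum_fiberwise_of_maps_to (g := fun ζ : ℂ => ζ ^ p) ?_ _).symm
    intro ζ hζ
    obtain ⟨j, hj, rfl⟩ := Finset.mem_image.mp hζ
    exact Finset.mem_image_of_mem (fun j => z j ^ p) hj
  have hcard : ∀ ξ : ℂ, (Zall.filter (fun ζ => ζ ^ p = ξ)).card ≤ p := by
    intro ξ
    have hsub : Zall.filter (fun ζ => ζ ^ p = ξ) ⊆ (Polynomial.nthRoots p ξ).toFinset := by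
      intro ζ hζ
      rw [Finset.mem_filter] at hζ
      rw [Multiset.mem_toFinset, Polynomial.mem_nthRoots hp.pos]
      exact hζ.2
    exact (Finset.card_le_card hsub).trans
      ((Multiset.toFinset_card_le _).trans (Polynomial.card_nthRoots p ξ))
  have hsum : ∑ ξ ∈ Y, b ξ = T.card := by
    rw [Finset.card_eq_sum_card_fiberwise (f := fun j => z j ^ p) (s := T) (t := Y)]
    intro j hj
    exact Finset.mem_coe.mpr (Finset.mem_image_of_mem (fun j => z j ^ p) hj)
  obtain ⟨ξ₀, hξ₀, hξ₀dvd⟩ : ∃ ξ₀ ∈ Y, ¬ p ∣ b ξ₀ := by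
    by_contra hcon
    push Not at hcon
    exact hT (hsum ▸ Finset.dvd_sum hcon)
  have hterm : ∀ ξ ∈ Y, b ξ ^ 2 + (if ξ = ξ₀ then p - 1 else 0) ≤
      p * ∑ ζ ∈ Zall.filter (fun ζ => ζ ^ p = ξ), a ζ ^ 2 := by
    intro ξ _
    split_ifs with h
    · subst h
      have := sq_sum_add_le p hp.two_le (Zall.filter (fun ζ => ζ ^ p = ξ)) a (hcard ξ)
        (by rw [← hbsum]; exact hξ₀dvd)
      rw [← hbsum] at this
      exact this
    · rw [add_zero, hbsum ξ]
      calc (∑ ζ ∈ Zall.filter (fun ζ => ζ ^ p = ξ), a ζ) ^ 2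
          ≤ (Zall.filter (fun ζ => ζ ^ p = ξ)).card *
              ∑ ζ ∈ Zall.filter (fun ζ => ζ ^ p = ξ), a ζ ^ 2 := by
            exact_mod_cast sq_sum_le_card_mul_sum_sq (α := ℕ)
        _ ≤ p * ∑ ζ ∈ Zall.filter (fun ζ => ζ ^ p = ξ), a ζ ^ 2 :=
            Nat.mul_le_mul_right _ (hcard ξ)
  have htotal := Finset.sum_le_sum hterm
  rw [Finset.sum_add_distrib, Finset.sum_ite_eq' Y ξ₀, if_pos hξ₀, ← Finset.mul_sum] at htotal
  rw [hA, hB, hAsplit]
  exact htotal

theorem geom_sum_of_pow_eq_one (ζ : ℂ) (n : ℕ) (hζ : ζ ^ n = 1) :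
    ∑ k ∈ Finset.range n, ζ ^ k = if ζ = 1 then (n : ℂ) else 0 := by
  split_ifs with h
  · subst h; simp
  · have h1 := mul_geom_sum ζ n
    rw [hζ, sub_self] at h1
    rcases mul_eq_zero.mp h1 with h2 | h2
    · exact absurd (sub_eq_zero.mp h2) h
    · exact h2

/-- Sum over all exponents `k < n` of `‖∑ y_j^k‖²`, for `n`-th roots of unity `y_j`. -/
theorem sum_norm_sq_pow (n : ℕ) (hn : 0 < n) {ι : Type*} [DecidableEq ι] (T : Finset ι)
    (y : ι → ℂ) (hy : ∀ j ∈ T, y j ^ n = 1) :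
    ∑ k ∈ Finset.range n, ‖∑ j ∈ T, y j ^ k‖ ^ 2 =
      (n : ℝ) * ((T ×ˢ T).filter (fun x => y x.1 = y x.2)).card := by
  classical
  apply Complex.ofReal_injective
  push_cast
  have hnorm : ∀ j ∈ T, ‖y j‖ = 1 := fun j hj =>
    Complex.norm_eq_one_of_pow_eq_one (hy j hj) hn.ne'
  have h1 : ∀ k : ℕ, ((‖∑ j ∈ T, y j ^ k‖ : ℝ) : ℂ) ^ 2 =
      ∑ x ∈ T ×ˢ T, (y x.1 * conj (y x.2)) ^ k := by
    intro k
    rw [← Complex.ofReal_pow, ← Complex.normSq_eq_norm_sq, ← Complex.mul_conj, map_sum,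
      Finset.sum_mul_sum, Finset.sum_product]
    refine Finset.sum_congr rfl (fun j _ => Finset.sum_congr rfl (fun l _ => ?_))
    rw [map_pow, mul_pow]
  rw [Finset.sum_congr rfl (fun k _ => h1 k), Finset.sum_comm]
  have h2 : ∀ x ∈ T ×ˢ T, ∑ k ∈ Finset.range n, (y x.1 * conj (y x.2)) ^ k =
      if y x.1 = y x.2 then (n : ℂ) else 0 := by
    intro x hx
    rw [Finset.mem_product] at hx
    have hpow : (y x.1 * conj (y x.2)) ^ n = 1 := by
      rw [mul_pow, ← map_pow, hy _ hx.1, hy _ hx.2, map_one, mul_one]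
    rw [geom_sum_of_pow_eq_one _ n hpow]
    have hiff : y x.1 * conj (y x.2) = 1 ↔ y x.1 = y x.2 := by
      rw [← Complex.inv_eq_conj (hnorm _ hx.2)]
      have hne : y x.2 ≠ 0 := by
        intro h0
        have := hnorm _ hx.2
        rw [h0, norm_zero] at this
        exact zero_ne_one this
      rw [mul_inv_eq_one₀ hne]
    simp only [hiff]
  rw [Finset.sum_congr rfl h2, Finset.sum_ite, Finset.sum_const_zero, add_zero, Finset.sum_const,
    nsmul_eq_mul, mul_comm]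

/-- **Root-sum bound.** Let `z_j` (`j ∈ T`) be `p q'`-th roots of unity, with `p` prime not
dividing `#T`. Then the sum over the exponents `k < p q'` prime to `p` of `‖∑_j z_j^k‖²` is at
least `p q' - q'` (the number of such exponents). -/
theorem rootsum_lower (p : ℕ) (hp : p.Prime) (q' : ℕ) (hq' : 0 < q') {ι : Type*}
    (T : Finset ι) (z : ι → ℂ) (hz : ∀ j ∈ T, z j ^ (p * q') = 1) (hT : ¬ p ∣ T.card) :
    ((p * q' - q' : ℕ) : ℝ) ≤
      ∑ k ∈ (Finset.range (p * q')).filter (fun k => ¬ p ∣ k), ‖∑ j ∈ T, z j ^ k‖ ^ 2 := by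
  classical
  have hpos : 0 < p * q' := Nat.mul_pos hp.pos hq'
  have hall := sum_norm_sq_pow (p * q') hpos T z hz
  have hdiv : ∑ k ∈ (Finset.range (p * q')).filter (fun k => p ∣ k), ‖∑ j ∈ T, z j ^ k‖ ^ 2 =
      (q' : ℝ) * ((T ×ˢ T).filter (fun x => z x.1 ^ p = z x.2 ^ p)).card := by
    have himg : (Finset.range (p * q')).filter (fun k => p ∣ k) =
        (Finset.range q').image (fun i => p * i) := by
      ext k
      simp only [Finset.mem_filter, Finset.mem_range, Finset.mem_image]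
      constructor
      · rintro ⟨hk, i, rfl⟩
        exact ⟨i, lt_of_mul_lt_mul_left hk (Nat.zero_le p), rfl⟩
      · rintro ⟨i, hi, rfl⟩
        exact ⟨Nat.mul_lt_mul_of_pos_left hi hp.pos, dvd_mul_right p i⟩
    rw [himg, Finset.sum_image (fun i _ j _ h => Nat.eq_of_mul_eq_mul_left hp.pos h)]
    have := sum_norm_sq_pow q' hq' T (fun j => z j ^ p)
      (fun j hj => by rw [← pow_mul]; exact hz j hj)
    rw [← this]
    refine Finset.sum_congr rfl (fun i _ => ?_)
    congr 2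
    refine Finset.sum_congr rfl (fun j _ => ?_)
    rw [pow_mul]
  have hsplit := Finset.sum_filter_add_sum_filter_not (Finset.range (p * q'))
    (fun k => p ∣ k) (fun k => ‖∑ j ∈ T, z j ^ k‖ ^ 2)
  rw [hall, hdiv] at hsplit
  have hcount := fiber_count p hp T z hT
  have hcount' : (((T ×ˢ T).filter (fun x => z x.1 ^ p = z x.2 ^ p)).card : ℝ) + (p - 1) ≤
      p * ((T ×ˢ T).filter (fun x => z x.1 = z x.2)).card := by
    have h1 : ((p - 1 : ℕ) : ℝ) = (p : ℝ) - 1 := by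
      rw [Nat.cast_sub hp.one_lt.le]; simp
    rw [← h1]
    exact_mod_cast hcount
  have hq'' : (0 : ℝ) < q' := by exact_mod_cast hq'
  have hcast : ((p * q' - q' : ℕ) : ℝ) = (p : ℝ) * q' - q' := by
    rw [Nat.cast_sub (Nat.le_mul_of_pos_left q' hp.pos)]; push_cast; ring
  rw [hcast]
  push_cast at hsplit
  have h3 := mul_le_mul_of_nonneg_left hcount' hq''.le
  have h4 : (q' : ℝ) * ((((T ×ˢ T).filter (fun x => z x.1 ^ p = z x.2 ^ p)).card : ℝ) + (p - 1)) =
      q' * ((T ×ˢ T).filter (fun x => z x.1 ^ p = z x.2 ^ p)).card + (p * q' - q') := by ring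
  have h5 : (q' : ℝ) * (p * (((T ×ˢ T).filter (fun x => z x.1 = z x.2)).card : ℝ)) =
      p * q' * ((T ×ˢ T).filter (fun x => z x.1 = z x.2)).card := by ring
  rw [h4, h5] at h3
  linarith

theorem filter_dvd_range (p q' : ℕ) (hp : 0 < p) :
    (Finset.range (p * q')).filter (fun k => p ∣ k) = (Finset.range q').image (fun i => p * i) := by
  ext k
  simp only [Finset.mem_filter, Finset.mem_range, Finset.mem_image]
  constructor
  · rintro ⟨hk, i, rfl⟩
    exact ⟨i, lt_of_mul_lt_mul_left hk (Nat.zero_le p), rfl⟩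
  · rintro ⟨i, hi, rfl⟩
    exact ⟨Nat.mul_lt_mul_of_pos_left hi hp, dvd_mul_right p i⟩

theorem card_filter_not_dvd_range (p q' : ℕ) (hp : 0 < p) :
    ((Finset.range (p * q')).filter (fun k => ¬ p ∣ k)).card = p * q' - q' := by
  have h1 := Finset.card_filter_add_card_filter_not (s := Finset.range (p * q')) (fun k => p ∣ k)
  rw [filter_dvd_range p q' hp,
    Finset.card_image_of_injective _ (fun i j h => Nat.eq_of_mul_eq_mul_left hp h),
    Finset.card_range, Finset.card_range] at h1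
  omega

end Cfsg.Agent.H84
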