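/-
helper84 library: class counting in semidirect products `N ⋊[φ] G` with `N` commutative and
`(|N|, |G|) = 1`, via commuting pairs.
-/
import Mathlib

set_option autoImplicit false
set_option linter.style.haveILetI false
set_option linter.unusedSectionVars false
set_option linter.unusedVariables false

namespace Cfsg.Agent.H84

open scoped BigOperators

section Coprime

variable {N G : Type*} [CommGroup N] [Group G] [Finite N] [Finite G] (φ : G →* MulAut N)

/-- The "trace" (norm) map of a subgroup `H` of `G` acting on the commutative group `N`. -/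
noncomputable def normMap (H : Subgroup G) : N →* N :=
  haveI := Fintype.ofFinite H
  ∏ x : H, (φ (x : G)).toMonoidHom

theorem normMap_apply (H : Subgroup G) (n : N) :
    normMap φ H n = ∏ᶠ x : H, φ (x : G) n := by
  classical
  haveI := Fintype.ofFinite H
  rw [finprod_eq_prod_of_fintype]
  unfold normMap
  rw [MonoidHom.finsetProd_apply]
  exact Finset.prod_congr (by ext; simp) (fun x _ => rfl)

theorem normMap_apply' (H : Subgroup G) [Fintype H] (n : N) :
    normMap φ H n = ∏ x : H, φ (x : G) n := by
  rw [normMap_apply, finprod_eq_prod_of_fintype]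

theorem normMap_act (H : Subgroup G) (y : G) (hy : y ∈ H) (n : N) :
    normMap φ H (φ y n) = normMap φ H n := by
  classical
  haveI := Fintype.ofFinite H
  rw [normMap_apply', normMap_apply']
  refine Fintype.prod_equiv (Equiv.mulRight (⟨y, hy⟩ : H)) _ _ (fun x => ?_)
  simp [map_mul]

theorem act_normMap (H : Subgroup G) (y : G) (hy : y ∈ H) (n : N) :
    φ y (normMap φ H n) = normMap φ H n := by
  classical
  haveI := Fintype.ofFinite H
  rw [normMap_apply', map_prod]
  refine Fintype.prod_equiv (Equiv.mulLeft (⟨y, hy⟩ : H)) _ _ (fun x => ?_)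
  simp [map_mul]

theorem normMap_of_fixed (H : Subgroup G) (n : N) (hn : ∀ x ∈ H, φ x n = n) :
    normMap φ H n = n ^ Nat.card H := by
  classical
  haveI := Fintype.ofFinite H
  rw [normMap_apply', Nat.card_eq_fintype_card, ← Finset.card_univ, ← Finset.prod_const]
  exact Finset.prod_congr rfl (fun x _ => hn x x.2)

/-- The subgroup of points of `N` fixed by `g` and `h`. -/
def fixedBy2 (g h : G) : Subgroup N where
  carrier := {n | φ g n = n ∧ φ h n = n}
  mul_mem' := by
    rintro a b ⟨ha1, ha2⟩ ⟨hb1, hb2⟩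
    exact ⟨by rw [map_mul, ha1, hb1], by rw [map_mul, ha2, hb2]⟩
  one_mem' := ⟨map_one _, map_one _⟩
  inv_mem' := by
    rintro a ⟨ha1, ha2⟩
    exact ⟨by rw [map_inv, ha1], by rw [map_inv, ha2]⟩

theorem mem_fixedBy2 (g h : G) (n : N) : n ∈ fixedBy2 φ g h ↔ φ g n = n ∧ φ h n = n := Iff.rfl

/-- The homomorphism `(a, b) ↦ (φ h a / a) / (φ g b / b)`; its kernel is the set of
`(a, b)` with `a * φ g b = b * φ h a`. -/
def commHom (g h : G) : N × N →* N :=
  (((φ h).toMonoidHom / MonoidHom.id N).comp (MonoidHom.fst N N)) /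
    (((φ g).toMonoidHom / MonoidHom.id N).comp (MonoidHom.snd N N))

theorem commHom_apply (g h : G) (p : N × N) :
    commHom φ g h p = (φ h p.1 / p.1) / (φ g p.2 / p.2) := rfl

theorem mem_ker_commHom (g h : G) (p : N × N) :
    p ∈ (commHom φ g h).ker ↔ p.1 * φ g p.2 = p.2 * φ h p.1 := by
  rw [MonoidHom.mem_ker, commHom_apply, div_eq_one, div_eq_div_iff_mul_eq_mul]
  constructor
  · intro h1; rw [mul_comm, ← h1, mul_comm]
  · intro h1; rw [mul_comm, ← h1, mul_comm]

theorem card_ker_mul_card_range {A B : Type*} [Group A] [Group B] (f : A →* B) :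
    Nat.card f.ker * Nat.card f.range = Nat.card A := by
  rw [← Subgroup.index_ker, Subgroup.card_mul_index]

theorem act_div_mem_range (g h : G) (x : G) (hx : x ∈ Subgroup.closure ({g, h} : Set G))
    (n : N) : φ x n / n ∈ (commHom φ g h).range := by
  induction hx using Subgroup.closure_induction generalizing n with
  | mem y hy =>
    rcases hy with rfl | rfl
    · refine (Subgroup.inv_mem_iff _).mp ⟨(1, n), ?_⟩
      rw [commHom_apply]; simp
    · refine ⟨(n, 1), ?_⟩
      rw [commHom_apply]; simp
  | one => simp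
  | mul x y _ _ ihx ihy =>
    have : φ (x * y) n / n = (φ x (φ y n) / φ y n) * (φ y n / n) := by
      rw [map_mul, MulAut.mul_apply]; simp
    rw [this]
    exact mul_mem (ihx _) (ihy _)
  | inv x _ ih =>
    have : φ x⁻¹ n / n = (φ x (φ x⁻¹ n) / φ x⁻¹ n)⁻¹ := by
      rw [← MulAut.mul_apply, ← map_mul]; simp
    rw [this]
    exact inv_mem (ih _)

theorem fixed_of_mem_closure (g h : G) (x : G) (hx : x ∈ Subgroup.closure ({g, h} : Set G))
    (n : N) (hn : n ∈ fixedBy2 φ g h) : φ x n = n := by
  induction hx using Subgroup.closure_induction with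
  | mem y hy =>
    rcases hy with rfl | rfl
    · exact hn.1
    · exact hn.2
  | one => simp
  | mul x y _ _ ihx ihy => rw [map_mul, MulAut.mul_apply, ihy, ihx]
  | inv x _ ih =>
    rw [map_inv, MulAut.inv_apply, MulEquiv.symm_apply_eq, ih]

theorem mem_of_pow_mem (R : Subgroup N) (k : ℕ) (hk : (Nat.card N).Coprime k) (n : N)
    (h : n ^ k ∈ R) : n ∈ R := by
  have := (powCoprime hk).left_inv n
  rw [← this]
  exact Subgroup.zpow_mem R h _

theorem ker_normMap_closure (hcop : (Nat.card N).Coprime (Nat.card G)) (g h : G) :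
    (normMap φ (Subgroup.closure ({g, h} : Set G))).ker = (commHom φ g h).range := by
  classical
  set H := Subgroup.closure ({g, h} : Set G) with hH
  haveI := Fintype.ofFinite H
  have hg : g ∈ H := Subgroup.subset_closure (by simp)
  have hh : h ∈ H := Subgroup.subset_closure (by simp)
  have hcop' : (Nat.card N).Coprime (Nat.card H) :=
    Nat.Coprime.coprime_dvd_right (Subgroup.card_subgroup_dvd_card H) hcop
  ext n
  constructor
  · intro hn
    rw [MonoidHom.mem_ker, normMap_apply'] at hn
    have h1 : ∏ x : H, (φ (x : G) n / n) ∈ (commHom φ g h).range :=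
      Subgroup.prod_mem _ (fun x _ => act_div_mem_range φ g h x x.2 n)
    rw [Finset.prod_div_distrib, hn, Finset.prod_const, Finset.card_univ,
      ← Nat.card_eq_fintype_card, one_div, Subgroup.inv_mem_iff] at h1
    exact mem_of_pow_mem _ _ hcop' n h1
  · rintro ⟨p, rfl⟩
    rw [MonoidHom.mem_ker, commHom_apply, map_div, map_div, map_div, normMap_act φ H h hh,
      normMap_act φ H g hg]
    simp

theorem range_normMap_closure (hcop : (Nat.card N).Coprime (Nat.card G)) (g h : G) :
    (normMap φ (Subgroup.closure ({g, h} : Set G))).range = fixedBy2 φ g h := by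
  classical
  set H := Subgroup.closure ({g, h} : Set G) with hH
  have hg : g ∈ H := Subgroup.subset_closure (by simp)
  have hh : h ∈ H := Subgroup.subset_closure (by simp)
  have hcop' : (Nat.card N).Coprime (Nat.card H) :=
    Nat.Coprime.coprime_dvd_right (Subgroup.card_subgroup_dvd_card H) hcop
  ext n
  constructor
  · rintro ⟨m, rfl⟩
    exact ⟨act_normMap φ H g hg m, act_normMap φ H h hh m⟩
  · intro hn
    refine ⟨(powCoprime hcop').symm n, ?_⟩
    have hfix : ∀ x ∈ H, φ x ((powCoprime hcop').symm n) = (powCoprime hcop').symm n := by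
      intro x hx
      have hm : (powCoprime hcop').symm n ∈ fixedBy2 φ g h := Subgroup.zpow_mem _ hn _
      exact fixed_of_mem_closure φ g h x hx _ hm
    rw [normMap_of_fixed φ H _ hfix]
    exact (powCoprime hcop').right_inv n

/-- Coprime action: the number of pairs `(a, b)` with `a * φ g b = b * φ h a` is
`|N|` times the number of common fixed points of `g` and `h`. -/
theorem card_ker_commHom (hcop : (Nat.card N).Coprime (Nat.card G)) (g h : G) :
    Nat.card (commHom φ g h).ker = Nat.card N * Nat.card (fixedBy2 φ g h) := by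
  have h1 := card_ker_mul_card_range (commHom φ g h)
  have h2 := card_ker_mul_card_range (normMap φ (Subgroup.closure ({g, h} : Set G)))
  rw [ker_normMap_closure φ hcop, range_normMap_closure φ hcop] at h2
  rw [Nat.card_prod] at h1
  have hpos : 0 < Nat.card (commHom φ g h).range := Nat.card_pos
  apply Nat.eq_of_mul_eq_mul_right hpos
  rw [h1, ← h2]
  ring

end Coprime

section Sdp

variable {N G : Type*} [CommGroup N] [Group G] [Finite N] [Finite G] (φ : G →* MulAut N)

theorem sdp_commute_iff (x y : N ⋊[φ] G) :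
    Commute x y ↔ (Commute x.right y.right ∧
      x.left * φ x.right y.left = y.left * φ y.right x.left) := by
  rw [commute_iff_eq, SemidirectProduct.ext_iff, commute_iff_eq]
  simp only [SemidirectProduct.mul_left, SemidirectProduct.mul_right]
  exact and_comm

/-- The triples `(g, h, n)` with `g`, `h` commuting and both fixing `n`. -/
abbrev CommFix : Type _ :=
  {t : (G × G) × N // Commute t.1.1 t.1.2 ∧ φ t.1.1 t.2 = t.2 ∧ φ t.1.2 t.2 = t.2}

/-- Commuting pairs in `N ⋊[φ] G`, fibred over the commuting pairs of `G`. -/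
noncomputable def commSdpEquiv :
    {p : (N ⋊[φ] G) × (N ⋊[φ] G) // Commute p.1 p.2} ≃
      Σ q : {q : G × G // Commute q.1 q.2}, (commHom φ q.1.1 q.1.2).ker where
  toFun p := ⟨⟨(p.1.1.right, p.1.2.right), ((sdp_commute_iff φ _ _).mp p.2).1⟩,
    ⟨(p.1.1.left, p.1.2.left),
      (mem_ker_commHom φ _ _ _).mpr ((sdp_commute_iff φ _ _).mp p.2).2⟩⟩
  invFun s := ⟨(⟨s.2.1.1, s.1.1.1⟩, ⟨s.2.1.2, s.1.1.2⟩),
    (sdp_commute_iff φ _ _).mpr ⟨s.1.2, (mem_ker_commHom φ _ _ _).mp s.2.2⟩⟩
  left_inv p := rfl
  right_inv s := rfl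

/-- Triples fibred over commuting pairs. -/
noncomputable def commFixEquiv :
    CommFix φ ≃ Σ q : {q : G × G // Commute q.1 q.2}, fixedBy2 φ q.1.1 q.1.2 where
  toFun t := ⟨⟨t.1.1, t.2.1⟩, ⟨t.1.2, t.2.2⟩⟩
  invFun s := ⟨(s.1.1, s.2.1), s.1.2, s.2.2⟩
  left_inv t := rfl
  right_inv s := rfl

theorem card_commute_sdp (hcop : (Nat.card N).Coprime (Nat.card G)) :
    Nat.card {p : (N ⋊[φ] G) × (N ⋊[φ] G) // Commute p.1 p.2} =
      Nat.card N * Nat.card (CommFix φ) := by
  classical
  haveI := Fintype.ofFinite {q : G × G // Commute q.1 q.2}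
  rw [Nat.card_congr (commSdpEquiv φ), Nat.card_congr (commFixEquiv φ), Nat.card_sigma,
    Nat.card_sigma, Finset.mul_sum]
  exact Finset.sum_congr rfl (fun q _ => card_ker_commHom φ hcop _ _)

/-- `k(N ⋊ G) · |G|` is the number of triples `(g, h, n)` with `g, h` commuting and fixing `n`. -/
theorem card_conjClasses_sdp_mul (hcop : (Nat.card N).Coprime (Nat.card G)) :
    Nat.card (ConjClasses (N ⋊[φ] G)) * Nat.card G = Nat.card (CommFix φ) := by
  haveI : Finite (N ⋊[φ] G) := Finite.of_equiv _ SemidirectProduct.equivProd.symm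
  have h1 := card_comm_eq_card_conjClasses_mul_card (N ⋊[φ] G)
  rw [card_commute_sdp φ hcop, SemidirectProduct.card] at h1
  have hpos : 0 < Nat.card N := Nat.card_pos
  apply Nat.eq_of_mul_eq_mul_left hpos
  rw [h1]; ring

end Sdp

section Orbits

theorem card_conjClasses_congr {A B : Type*} [Group A] [Group B] (e : A ≃* B) :
    Nat.card (ConjClasses A) = Nat.card (ConjClasses B) := by
  refine Nat.card_congr ⟨ConjClasses.map e.toMonoidHom, ConjClasses.map e.symm.toMonoidHom, ?_, ?_⟩
  · intro c
    obtain ⟨a, rfl⟩ := ConjClasses.mk_surjective c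
    show ConjClasses.mk (e.symm (e a)) = ConjClasses.mk a
    rw [e.symm_apply_apply]
  · intro c
    obtain ⟨a, rfl⟩ := ConjClasses.mk_surjective c
    show ConjClasses.mk (e (e.symm a)) = ConjClasses.mk a
    rw [e.apply_symm_apply]

theorem card_subtype_prod {α β : Type*} [Finite α] [Finite β] (P : α → β → Prop) :
    Nat.card {x : α × β // P x.1 x.2} = ∑ᶠ a : α, Nat.card {b : β // P a b} := by
  classical
  haveI := Fintype.ofFinite α
  rw [Nat.card_congr (Equiv.subtypeProdEquivSigmaSubtype P), Nat.card_sigma,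
    finsum_eq_sum_of_fintype]

variable {N G : Type*} [CommGroup N] [Group G] [Finite N] [Finite G] (φ : G →* MulAut N)

/-- The stabilizer in `G` of a point of `N`. -/
def fixer (n : N) : Subgroup G where
  carrier := {g | φ g n = n}
  mul_mem' := by
    intro a b ha hb
    show φ (a * b) n = n
    rw [map_mul, MulAut.mul_apply, show φ b n = n from hb, show φ a n = n from ha]
  one_mem' := by simp
  inv_mem' := by
    intro a ha
    show φ a⁻¹ n = n
    rw [map_inv, MulAut.inv_apply, MulEquiv.symm_apply_eq, show φ a n = n from ha]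

theorem mem_fixer (n : N) (g : G) : g ∈ fixer φ n ↔ φ g n = n := Iff.rfl

/-- Conjugate points have isomorphic stabilizers. -/
noncomputable def fixerConjEquiv (n : N) (x : G) : fixer φ n ≃* fixer φ (φ x n) where
  toFun c := ⟨x * c * x⁻¹, by
    have hc : φ (c : G) n = n := c.2
    show φ (x * c * x⁻¹) (φ x n) = φ x n
    rw [← MulAut.mul_apply, ← map_mul, inv_mul_cancel_right, map_mul, MulAut.mul_apply, hc]⟩
  invFun c := ⟨x⁻¹ * c * x, by
    have hc : φ (c : G) (φ x n) = φ x n := c.2
    show φ (x⁻¹ * c * x) n = n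
    rw [map_mul, map_mul, MulAut.mul_apply, MulAut.mul_apply, hc, ← MulAut.mul_apply, ← map_mul,
      inv_mul_cancel, map_one, MulAut.one_apply]⟩
  left_inv c := by ext; simp [mul_assoc]
  right_inv c := by ext; simp [mul_assoc]
  map_mul' a b := by ext; simp [mul_assoc]

/-- Commuting pairs of `G` fixing `n` are the commuting pairs of the stabilizer. -/
noncomputable def commFixerEquiv (n : N) :
    {q : G × G // Commute q.1 q.2 ∧ φ q.1 n = n ∧ φ q.2 n = n} ≃
      {p : fixer φ n × fixer φ n // Commute p.1 p.2} where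
  toFun q := ⟨(⟨q.1.1, q.2.2.1⟩, ⟨q.1.2, q.2.2.2⟩), by
    have := q.2.1
    rw [commute_iff_eq] at this ⊢
    exact Subtype.ext this⟩
  invFun p := ⟨(p.1.1, p.1.2), by
    have := p.2
    rw [commute_iff_eq] at this ⊢
    exact congrArg Subtype.val this, p.1.1.2, p.1.2.2⟩
  left_inv q := rfl
  right_inv p := rfl

theorem card_commFix_eq_sum :
    Nat.card (CommFix φ) =
      ∑ᶠ n : N, Nat.card (ConjClasses (fixer φ n)) * Nat.card (fixer φ n) := by
  have e : CommFix φ ≃ {x : N × (G × G) //
      Commute x.2.1 x.2.2 ∧ φ x.2.1 x.1 = x.1 ∧ φ x.2.2 x.1 = x.1} :=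
    { toFun := fun t => ⟨(t.1.2, t.1.1), t.2⟩
      invFun := fun x => ⟨(x.1.2, x.1.1), x.2⟩
      left_inv := fun t => rfl
      right_inv := fun x => rfl }
  rw [Nat.card_congr e,
    card_subtype_prod (fun (n : N) (q : G × G) => Commute q.1 q.2 ∧ φ q.1 n = n ∧ φ q.2 n = n)]
  refine finsum_congr (fun n => ?_)
  rw [Nat.card_congr (commFixerEquiv φ n), card_comm_eq_card_conjClasses_mul_card]

/-- Orbit–stabilizer, in the form used below. -/
theorem card_orbit_mul_card_fixer (s : N) :
    Nat.card {n : N // ∃ g : G, φ g n = s} * Nat.card (fixer φ s) = Nat.card G := by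
  classical
  have e : {x : N × G // φ x.2 x.1 = s} ≃ G :=
    { toFun := fun x => x.1.2
      invFun := fun g => ⟨(φ g⁻¹ s, g), by
        show φ g (φ g⁻¹ s) = s
        rw [← MulAut.mul_apply, ← map_mul, mul_inv_cancel, map_one, MulAut.one_apply]⟩
      left_inv := by
        rintro ⟨⟨n, g⟩, h⟩
        simp only at h
        simp only [Subtype.mk.injEq, Prod.mk.injEq, and_true]
        rw [← h, ← MulAut.mul_apply, ← map_mul, inv_mul_cancel, map_one, MulAut.one_apply]
      right_inv := fun g => rfl }
  rw [← Nat.card_congr e, card_subtype_prod (fun (n : N) (g : G) => φ g n = s)]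
  haveI := Fintype.ofFinite N
  rw [finsum_eq_sum_of_fintype]
  have hterm : ∀ n : N, Nat.card {g : G // φ g n = s} =
      if ∃ g : G, φ g n = s then Nat.card (fixer φ s) else 0 := by
    intro n
    split_ifs with hn
    · obtain ⟨g₀, hg₀⟩ := hn
      refine Nat.card_congr
        { toFun := fun g => ⟨g * g₀⁻¹, ?_⟩
          invFun := fun c => ⟨c * g₀, ?_⟩
          left_inv := fun g => by simp
          right_inv := fun c => by simp }
      · show φ (g * g₀⁻¹) s = s
        have h1 : φ g₀⁻¹ s = n := by
          rw [← hg₀, ← MulAut.mul_apply, ← map_mul, inv_mul_cancel, map_one, MulAut.one_apply]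
        rw [map_mul, MulAut.mul_apply, h1]
        exact g.2
      · show φ (c * g₀) n = s
        rw [map_mul, MulAut.mul_apply, hg₀]
        exact c.2
    · rw [Nat.card_eq_zero]
      left
      exact ⟨fun g => hn ⟨g.1, g.2⟩⟩
  simp_rw [hterm]
  rw [Finset.sum_ite, Finset.sum_const_zero, add_zero, Finset.sum_const, smul_eq_mul,
    Nat.card_eq_fintype_card (α := {n : N // ∃ g : G, φ g n = s}), Fintype.card_subtype]

end Orbits

section Main

variable {N G : Type*} [CommGroup N] [Group G] [Finite N] [Finite G] (φ : G →* MulAut N)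

/-- Class number of a coprime semidirect product `N ⋊ G` with `N` commutative: the sum over
orbit representatives `s` of `G` on `N` of the class numbers of the stabilizers. -/
theorem card_conjClasses_sdp (hcop : (Nat.card N).Coprime (Nat.card G)) (S : Finset N)
    (hS : ∀ n : N, ∃! s, s ∈ S ∧ ∃ g : G, φ g n = s) :
    Nat.card (ConjClasses (N ⋊[φ] G)) = ∑ s ∈ S, Nat.card (ConjClasses (fixer φ s)) := by
  classical
  haveI := Fintype.ofFinite N
  have h1 := card_conjClasses_sdp_mul φ hcop
  rw [card_commFix_eq_sum, finsum_eq_sum_of_fintype] at h1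
  choose r hr using hS
  have hf : ∀ n : N, Nat.card (ConjClasses (fixer φ n)) * Nat.card (fixer φ n) =
      Nat.card (ConjClasses (fixer φ (r n))) * Nat.card (fixer φ (r n)) := by
    intro n
    obtain ⟨g, hg⟩ := (hr n).1.2
    rw [← hg, card_conjClasses_congr (fixerConjEquiv φ n g),
      Nat.card_congr (fixerConjEquiv φ n g).toEquiv]
  have hsum : ∑ n : N, Nat.card (ConjClasses (fixer φ n)) * Nat.card (fixer φ n) =
      ∑ s ∈ S, ∑ n ∈ Finset.univ.filter (fun n => r n = s),
        Nat.card (ConjClasses (fixer φ n)) * Nat.card (fixer φ n) :=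
    (Finset.sum_fiberwise_of_maps_to (fun n _ => (hr n).1.1) _).symm
  have hinner : ∀ s ∈ S, ∑ n ∈ Finset.univ.filter (fun n => r n = s),
      Nat.card (ConjClasses (fixer φ n)) * Nat.card (fixer φ n) =
      Nat.card (ConjClasses (fixer φ s)) * Nat.card G := by
    intro s hs
    have hc : ∀ n ∈ Finset.univ.filter (fun n => r n = s),
        Nat.card (ConjClasses (fixer φ n)) * Nat.card (fixer φ n) =
        Nat.card (ConjClasses (fixer φ s)) * Nat.card (fixer φ s) := by
      intro n hn
      rw [Finset.mem_filter] at hn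
      rw [hf n, hn.2]
    rw [Finset.sum_congr rfl hc, Finset.sum_const, smul_eq_mul]
    have hcard : (Finset.univ.filter (fun n => r n = s)).card =
        Nat.card {n : N // ∃ g : G, φ g n = s} := by
      rw [Nat.card_eq_fintype_card, Fintype.card_subtype]
      congr 1
      ext n
      simp only [Finset.mem_filter, Finset.mem_univ, true_and]
      constructor
      · intro h
        rw [← h]
        exact (hr n).1.2
      · intro h
        exact ((hr n).2 s ⟨hs, h⟩).symm
    rw [hcard, ← card_orbit_mul_card_fixer φ s]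
    ring
  rw [hsum, Finset.sum_congr rfl hinner, ← Finset.sum_mul] at h1
  exact Nat.eq_of_mul_eq_mul_right Nat.card_pos h1

end Main

end Cfsg.Agent.H84
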