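/-
helper84 library: the bound `k(N ⋊ G) + |G| ≤ |C_G(v)| |N| + k(G)` for a `p'`-group `G` acting on
an abelian `p`-group `N` (statement S4955), by Fourier analysis on `N` and the root-sum bound.
-/
import Mathlib
import Cfsg.Agent.H84.SdpClasses
import Cfsg.Agent.H84.RootSum

set_option autoImplicit false
set_option linter.style.haveILetI false
set_option linter.unusedSectionVars false
set_option linter.unusedVariables false

namespace Cfsg.Agent.H84

open scoped BigOperators ComplexConjugate Classical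

noncomputable section

section Dual

variable {N G : Type*} [CommGroup N] [Group G] [Finite N] [Finite G] (φ : G →* MulAut N)

/-- The action of `G` on the dual group `N →* ℂˣ`. -/
noncomputable def dualAct : G →* MulAut (N →* ℂˣ) where
  toFun g :=
    { toFun := fun μ => μ.comp (φ g⁻¹ : MulAut N).toMonoidHom
      invFun := fun μ => μ.comp (φ g : MulAut N).toMonoidHom
      left_inv := by
        intro μ; ext n
        simp only [MonoidHom.comp_apply, MulEquiv.coe_toMonoidHom]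
        rw [← MulAut.mul_apply, ← map_mul, inv_mul_cancel, map_one, MulAut.one_apply]
      right_inv := by
        intro μ; ext n
        simp only [MonoidHom.comp_apply, MulEquiv.coe_toMonoidHom]
        rw [← MulAut.mul_apply, ← map_mul, mul_inv_cancel, map_one, MulAut.one_apply]
      map_mul' := by intro μ μ'; rfl }
  map_one' := by
    ext μ n
    simp
  map_mul' := by
    intro g h
    ext μ n
    simp only [MulEquiv.coe_mk, Equiv.coe_fn_mk, MonoidHom.comp_apply, MulEquiv.coe_toMonoidHom,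
      MulAut.mul_apply]
    rw [mul_inv_rev, map_mul, MulAut.mul_apply]

theorem dualAct_apply (g : G) (μ : N →* ℂˣ) (n : N) :
    dualAct φ g μ n = μ (φ g⁻¹ n) := rfl

theorem dualAct_inv_apply (g : G) (μ : N →* ℂˣ) (n : N) :
    dualAct φ g⁻¹ μ n = μ (φ g n) := by
  rw [dualAct_apply, inv_inv]

theorem dual_pow_card (μ : N →* ℂˣ) (x : N) : ((μ x : ℂˣ) : ℂ) ^ Nat.card N = 1 := by
  rw [← Units.val_pow_eq_pow_val, ← map_pow, pow_card_eq_one', map_one, Units.val_one]

theorem norm_dual_apply (μ : N →* ℂˣ) (x : N) : ‖((μ x : ℂˣ) : ℂ)‖ = 1 :=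
  Complex.norm_eq_one_of_pow_eq_one (dual_pow_card μ x) Nat.card_pos.ne'

theorem conj_dual_apply (μ : N →* ℂˣ) (x : N) :
    conj ((μ x : ℂˣ) : ℂ) = ((μ x⁻¹ : ℂˣ) : ℂ) := by
  rw [← Complex.inv_eq_conj (norm_dual_apply μ x), map_inv, Units.val_inv_eq_inv_val]

/-- Orthogonality for the dual of a finite abelian group. -/
theorem sum_dual_apply [Fintype (N →* ℂˣ)] (x : N) :
    ∑ μ : N →* ℂˣ, ((μ x : ℂˣ) : ℂ) = if x = 1 then (Nat.card N : ℂ) else 0 := by
  split_ifs with h
  · subst h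
    simp only [map_one, Units.val_one, Finset.sum_const, Finset.card_univ, nsmul_eq_mul, mul_one]
    rw [← Nat.card_eq_fintype_card, CommGroup.card_monoidHom_of_hasEnoughRootsOfUnity N ℂ]
  · obtain ⟨μ₀, hμ₀⟩ := CommGroup.exists_apply_ne_one_of_hasEnoughRootsOfUnity N ℂ h
    have h1 : ∑ μ : N →* ℂˣ, ((μ x : ℂˣ) : ℂ) =
        ((μ₀ x : ℂˣ) : ℂ) * ∑ μ : N →* ℂˣ, ((μ x : ℂˣ) : ℂ) := by
      rw [Finset.mul_sum]
      refine (Fintype.sum_equiv (Equiv.mulLeft μ₀) _ _ (fun μ => ?_)).symm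
      simp
    have h2 : (((μ₀ x : ℂˣ) : ℂ) - 1) * ∑ μ : N →* ℂˣ, ((μ x : ℂˣ) : ℂ) = 0 := by
      rw [sub_mul, one_mul, ← h1, sub_self]
    rcases mul_eq_zero.mp h2 with h3 | h3
    · exfalso
      apply hμ₀
      apply Units.ext
      rw [Units.val_one]
      exact sub_eq_zero.mp h3
    · exact h3

end Dual

section Fourier

variable {N G : Type*} [CommGroup N] [Group G] [Finite N] [Finite G] (φ : G →* MulAut N)

theorem card_pairs_eq [Fintype G] (v : N) :
    ((Finset.univ : Finset (G × G)).filter (fun x => φ x.1 v = φ x.2 v)).card =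
      Nat.card G * Nat.card (fixer φ v) := by
  rw [← Fintype.card_subtype, ← Nat.card_eq_fintype_card, ← Nat.card_prod]
  refine Nat.card_congr
    { toFun := fun x => (x.1.2, ⟨x.1.2⁻¹ * x.1.1, ?_⟩)
      invFun := fun y => ⟨(y.1 * y.2, y.1), ?_⟩
      left_inv := ?_
      right_inv := ?_ }
  · show φ (x.1.2⁻¹ * x.1.1) v = v
    rw [map_mul, MulAut.mul_apply, x.2, ← MulAut.mul_apply, ← map_mul, inv_mul_cancel, map_one,
      MulAut.one_apply]
  · show φ (y.1 * y.2) v = φ y.1 v
    rw [map_mul, MulAut.mul_apply]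
    congr 1
    exact y.2.2
  · rintro ⟨⟨g, h⟩, hx⟩
    simp
  · rintro ⟨h, c⟩
    simp

/-- Parseval-type identity: `∑_μ |∑_g μ(g·v)|² = |N| |G| |C_G(v)|`. -/
theorem sum_Zsq [Fintype G] [Fintype (N →* ℂˣ)] (v : N) :
    ∑ μ : N →* ℂˣ, ‖∑ g : G, ((μ (φ g v) : ℂˣ) : ℂ)‖ ^ 2 =
      (Nat.card N : ℝ) * (Nat.card G * Nat.card (fixer φ v)) := by
  apply Complex.ofReal_injective
  push_cast
  have h1 : ∀ μ : N →* ℂˣ, ((‖∑ g : G, ((μ (φ g v) : ℂˣ) : ℂ)‖ : ℝ) : ℂ) ^ 2 =
      ∑ x : G × G, ((μ (φ x.1 v * (φ x.2 v)⁻¹) : ℂˣ) : ℂ) := by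
    intro μ
    rw [← Complex.ofReal_pow, ← Complex.normSq_eq_norm_sq, ← Complex.mul_conj, map_sum,
      Finset.sum_mul_sum, Fintype.sum_prod_type]
    refine Finset.sum_congr rfl (fun g _ => Finset.sum_congr rfl (fun h _ => ?_))
    rw [conj_dual_apply, map_mul, Units.val_mul]
  rw [Finset.sum_congr rfl (fun μ _ => h1 μ), Finset.sum_comm,
    Finset.sum_congr rfl (fun x _ => sum_dual_apply (φ x.1 v * (φ x.2 v)⁻¹)),
    Finset.sum_ite, Finset.sum_const_zero, add_zero, Finset.sum_const, nsmul_eq_mul]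
  have hfilter : (Finset.univ : Finset (G × G)).filter (fun x => φ x.1 v * (φ x.2 v)⁻¹ = 1) =
      (Finset.univ : Finset (G × G)).filter (fun x => φ x.1 v = φ x.2 v) := by
    ext x
    simp only [Finset.mem_filter, Finset.mem_univ, true_and, mul_inv_eq_one]
  rw [hfilter, card_pairs_eq]
  push_cast
  ring

end Fourier

section FixedCount

variable {N G : Type*} [CommGroup N] [Group G] [Finite N] [Finite G] (φ : G →* MulAut N)

/-- Triples `(n, g, h)` with `g`, `h` fixing `n`. -/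
abbrev Fix2 : Type _ := {x : N × (G × G) // φ x.2.1 x.1 = x.1 ∧ φ x.2.2 x.1 = x.1}

theorem card_fix2_eq_sum_sq : Nat.card (Fix2 φ) = ∑ᶠ n : N, Nat.card (fixer φ n) ^ 2 := by
  rw [card_subtype_prod (fun (n : N) (q : G × G) => φ q.1 n = n ∧ φ q.2 n = n)]
  refine finsum_congr (fun n => ?_)
  rw [sq, ← Nat.card_prod]
  exact Nat.card_congr
    { toFun := fun q => (⟨q.1.1, q.2.1⟩, ⟨q.1.2, q.2.2⟩)
      invFun := fun y => ⟨(y.1.1, y.2.1), y.1.2, y.2.2⟩
      left_inv := fun q => rfl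
      right_inv := fun y => rfl }

theorem card_fix2_eq_sum_fixedBy2 :
    Nat.card (Fix2 φ) = ∑ᶠ q : G × G, Nat.card (fixedBy2 φ q.1 q.2) := by
  have e : Fix2 φ ≃ {x : (G × G) × N // φ x.1.1 x.2 = x.2 ∧ φ x.1.2 x.2 = x.2} :=
    { toFun := fun t => ⟨(t.1.2, t.1.1), t.2⟩
      invFun := fun x => ⟨(x.1.2, x.1.1), x.2⟩
      left_inv := fun _ => rfl
      right_inv := fun _ => rfl }
  rw [Nat.card_congr e,
    card_subtype_prod (fun (q : G × G) (n : N) => φ q.1 n = n ∧ φ q.2 n = n)]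
  exact finsum_congr (fun q => rfl)

theorem card_range_commHom_mul (hcop : (Nat.card N).Coprime (Nat.card G)) (g h : G) :
    Nat.card (commHom φ g h).range * Nat.card (fixedBy2 φ g h) = Nat.card N := by
  have h2 := card_ker_mul_card_range (normMap φ (Subgroup.closure ({g, h} : Set G)))
  rwa [ker_normMap_closure φ hcop, range_normMap_closure φ hcop] at h2

theorem fixedBy2_dual_eq (g h : G) :
    fixedBy2 (N := N →* ℂˣ) (dualAct φ) g h = (MonoidHom.domRestrictHom (commHom φ g h).range ℂˣ).ker := by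
  ext μ
  rw [mem_fixedBy2, MonoidHom.mem_ker]
  constructor
  · rintro ⟨h1, h2⟩
    have hg : ∀ b : N, μ (φ g b) = μ b := by
      intro b
      have := DFunLike.congr_fun h1 (φ g b)
      rw [dualAct_apply, ← MulAut.mul_apply, ← map_mul, inv_mul_cancel, map_one,
        MulAut.one_apply] at this
      exact this.symm
    have hh : ∀ a : N, μ (φ h a) = μ a := by
      intro a
      have := DFunLike.congr_fun h2 (φ h a)
      rw [dualAct_apply, ← MulAut.mul_apply, ← map_mul, inv_mul_cancel, map_one,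
        MulAut.one_apply] at this
      exact this.symm
    refine MonoidHom.ext (fun r => ?_)
    obtain ⟨r, p, rfl⟩ := r
    show μ (commHom φ g h p) = 1
    rw [commHom_apply, map_div, map_div, map_div, hg, hh, div_self', div_self', div_one]
  · intro hμ
    have key : ∀ r ∈ (commHom φ g h).range, μ r = 1 := by
      intro r hr
      exact DFunLike.congr_fun hμ ⟨r, hr⟩
    have hgen : ∀ x ∈ Subgroup.closure ({g, h} : Set G), dualAct φ x μ = μ := by
      intro x hx
      refine MonoidHom.ext (fun n => ?_)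
      rw [dualAct_apply]
      have hb := act_div_mem_range φ g h x hx (φ x⁻¹ n)
      have := key _ hb
      rw [map_div, ← MulAut.mul_apply, ← map_mul, mul_inv_cancel, map_one, MulAut.one_apply,
        div_eq_one] at this
      exact this.symm
    exact ⟨hgen g (Subgroup.subset_closure (by simp)), hgen h (Subgroup.subset_closure (by simp))⟩

theorem card_fixedBy2_dual (hcop : (Nat.card N).Coprime (Nat.card G)) (g h : G) :
    Nat.card (fixedBy2 (N := N →* ℂˣ) (dualAct φ) g h) = Nat.card (fixedBy2 φ g h) := by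
  rw [fixedBy2_dual_eq, CommGroup.card_domRestrictHom_ker ℂ, ← Subgroup.index_eq_card]
  have h1 := card_range_commHom_mul φ hcop g h
  have h2 := Subgroup.index_mul_card (commHom φ g h).range
  have hpos : 0 < Nat.card (commHom φ g h).range := Nat.card_pos
  apply Nat.eq_of_mul_eq_mul_right hpos
  rw [h2, ← h1, mul_comm]

/-- The sum of the squares of the stabilizer orders is the same on `N` and on its dual. -/
theorem sum_sq_fixer_dual (hcop : (Nat.card N).Coprime (Nat.card G)) :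
    ∑ᶠ μ : N →* ℂˣ, Nat.card (fixer (N := N →* ℂˣ) (dualAct φ) μ) ^ 2 = ∑ᶠ n : N, Nat.card (fixer φ n) ^ 2 := by
  rw [← card_fix2_eq_sum_sq, ← card_fix2_eq_sum_sq, card_fix2_eq_sum_fixedBy2,
    card_fix2_eq_sum_fixedBy2]
  exact finsum_congr (fun q => card_fixedBy2_dual φ hcop q.1 q.2)

end FixedCount

section OrbitSum

variable {N G : Type*} [CommGroup N] [Group G] [Finite N] [Finite G] (φ : G →* MulAut N)

theorem card_transporter (n s : N) (hn : ∃ g : G, φ g n = s) :
    Nat.card {g : G // φ g n = s} = Nat.card (fixer φ s) := by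
  obtain ⟨g₀, hg₀⟩ := hn
  refine Nat.card_congr
    { toFun := fun g => ⟨g * g₀⁻¹, ?_⟩
      invFun := fun c => ⟨c * g₀, ?_⟩
      left_inv := fun g => by simp
      right_inv := fun c => by simp }
  · show φ (g * g₀⁻¹) s = s
    have h1 : φ g₀⁻¹ s = n := by
      rw [← hg₀, ← MulAut.mul_apply, ← map_mul, inv_mul_cancel, map_one, MulAut.one_apply]
    rw [map_mul, MulAut.mul_apply, h1]
    exact g.2
  · show φ (c * g₀) n = s
    rw [map_mul, MulAut.mul_apply, hg₀]
    exact c.2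

/-- A sum over the group is the stabilizer order times the sum over the orbit. -/
theorem sum_act_inv [Fintype G] [Fintype N] (F : N → ℂ) (s : N) :
    ∑ g : G, F (φ g⁻¹ s) = (Nat.card (fixer φ s) : ℂ) *
      ∑ n ∈ Finset.univ.filter (fun n : N => ∃ g : G, φ g n = s), F n := by
  have h1 : ∀ g : G, F (φ g⁻¹ s) = ∑ n : N, if φ g n = s then F n else 0 := by
    intro g
    rw [Finset.sum_eq_single (φ g⁻¹ s)]
    · rw [if_pos]
      rw [← MulAut.mul_apply, ← map_mul, mul_inv_cancel, map_one, MulAut.one_apply]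
    · intro n _ hne
      rw [if_neg]
      intro h
      apply hne
      rw [← h, ← MulAut.mul_apply, ← map_mul, inv_mul_cancel, map_one, MulAut.one_apply]
    · intro h
      exact absurd (Finset.mem_univ _) h
  rw [Finset.sum_congr rfl (fun g _ => h1 g), Finset.sum_comm]
  have h2 : ∀ n : N, ∑ g : G, (if φ g n = s then F n else 0) =
      if ∃ g : G, φ g n = s then (Nat.card (fixer φ s) : ℂ) * F n else 0 := by
    intro n
    rw [Finset.sum_ite, Finset.sum_const_zero, add_zero, Finset.sum_const, nsmul_eq_mul]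
    split_ifs with hn
    · rw [← card_transporter φ n s hn, Nat.card_eq_fintype_card, Fintype.card_subtype]
    · have : Finset.univ.filter (fun g : G => φ g n = s) = ∅ := by
        rw [Finset.filter_eq_empty_iff]
        intro g _ hg
        exact hn ⟨g, hg⟩
      rw [this]
      simp
  rw [Finset.sum_congr rfl (fun n _ => h2 n), Finset.mul_sum, Finset.sum_filter]

end OrbitSum

section Star

variable {N G : Type*} [CommGroup N] [Group G] [Finite N] [Finite G] (φ : G →* MulAut N)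

theorem twist_sum_lower (p : ℕ) (hp : p.Prime) (hG : ¬ p ∣ Nat.card G) [Fintype G]
    [Fintype (N →* ℂˣ)] (v : N) (μ : N →* ℂˣ) :
    ((p * Nat.card N - Nat.card N : ℕ) : ℝ) *
        (Nat.card (fixer (N := N →* ℂˣ) (dualAct φ) μ) : ℝ) ^ 2 ≤
      ∑ k ∈ (Finset.range (p * Nat.card N)).filter (fun k => ¬ p ∣ k),
        ‖∑ g : G, (((μ ^ k) (φ g v) : ℂˣ) : ℂ)‖ ^ 2 := by
  set T := Finset.univ.filter (fun μ' : N →* ℂˣ => ∃ g : G, dualAct φ g μ' = μ) with hTdef
  have hk : ∀ k : ℕ, ∑ g : G, (((μ ^ k) (φ g v) : ℂˣ) : ℂ) =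
      (Nat.card (fixer (N := N →* ℂˣ) (dualAct φ) μ) : ℂ) *
        ∑ μ' ∈ T, ((μ' v : ℂˣ) : ℂ) ^ k := by
    intro k
    have := sum_act_inv (N := N →* ℂˣ) (dualAct φ) (fun μ' => ((μ' v : ℂˣ) : ℂ) ^ k) μ
    rw [← this]
    refine Finset.sum_congr rfl (fun g _ => ?_)
    rw [dualAct_inv_apply, MonoidHom.pow_apply, Units.val_pow_eq_pow_val]
  have hT : ¬ p ∣ T.card := by
    intro hdvd
    apply hG
    have h1 := card_orbit_mul_card_fixer (N := N →* ℂˣ) (dualAct φ) μ
    rw [Nat.card_eq_fintype_card, Fintype.card_subtype] at h1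
    rw [← h1]
    exact Dvd.dvd.mul_right hdvd _
  have hz : ∀ μ' ∈ T, ((μ' v : ℂˣ) : ℂ) ^ (p * Nat.card N) = 1 := by
    intro μ' _
    rw [mul_comm, pow_mul, dual_pow_card, one_pow]
  have hroot := rootsum_lower p hp (Nat.card N) Nat.card_pos T
    (fun μ' => ((μ' v : ℂˣ) : ℂ)) hz hT
  have hterm : ∀ k : ℕ, ‖∑ g : G, (((μ ^ k) (φ g v) : ℂˣ) : ℂ)‖ ^ 2 =
      (Nat.card (fixer (N := N →* ℂˣ) (dualAct φ) μ) : ℝ) ^ 2 *
        ‖∑ μ' ∈ T, ((μ' v : ℂˣ) : ℂ) ^ k‖ ^ 2 := by
    intro k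
    rw [hk k, norm_mul, mul_pow, Complex.norm_natCast]
  rw [Finset.sum_congr rfl (fun k _ => hterm k), ← Finset.mul_sum, mul_comm]
  exact mul_le_mul_of_nonneg_left hroot (by positivity)

/-- The key inequality `∑_n |C_G(n)|² ≤ |N| |G| |C_G(v)|`. -/
theorem star (p : ℕ) (hp : p.Prime) (a : ℕ) (hN : Nat.card N = p ^ a)
    (hG : ¬ p ∣ Nat.card G) (v : N) :
    ∑ᶠ n : N, Nat.card (fixer φ n) ^ 2 ≤ Nat.card N * (Nat.card G * Nat.card (fixer φ v)) := by
  haveI := Fintype.ofFinite G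
  haveI := Fintype.ofFinite (N →* ℂˣ)
  have hcop : (Nat.card N).Coprime (Nat.card G) := by
    rw [hN]
    exact Nat.Coprime.pow_left a ((Nat.Prime.coprime_iff_not_dvd hp).mpr hG)
  rw [← sum_sq_fixer_dual φ hcop, finsum_eq_sum_of_fintype]
  set K := (Finset.range (p * Nat.card N)).filter (fun k => ¬ p ∣ k) with hK
  have hKcard : K.card = p * Nat.card N - Nat.card N :=
    card_filter_not_dvd_range p (Nat.card N) hp.pos
  have hKpos : 0 < p * Nat.card N - Nat.card N := by
    have h1 : 0 < Nat.card N := Nat.card_pos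
    have h2 : 2 * Nat.card N ≤ p * Nat.card N := Nat.mul_le_mul_right _ hp.two_le
    omega
  have h1 : ∀ μ : N →* ℂˣ, ((p * Nat.card N - Nat.card N : ℕ) : ℝ) *
        (Nat.card (fixer (N := N →* ℂˣ) (dualAct φ) μ) : ℝ) ^ 2 ≤
      ∑ k ∈ K, ‖∑ g : G, (((μ ^ k) (φ g v) : ℂˣ) : ℂ)‖ ^ 2 :=
    fun μ => twist_sum_lower φ p hp hG v μ
  have h2 : ∑ μ : N →* ℂˣ, ∑ k ∈ K, ‖∑ g : G, (((μ ^ k) (φ g v) : ℂˣ) : ℂ)‖ ^ 2 =
      (K.card : ℝ) * ((Nat.card N : ℝ) * (Nat.card G * Nat.card (fixer φ v))) := by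
    rw [Finset.sum_comm]
    have h3 : ∀ k ∈ K, ∑ μ : N →* ℂˣ, ‖∑ g : G, (((μ ^ k) (φ g v) : ℂˣ) : ℂ)‖ ^ 2 =
        (Nat.card N : ℝ) * (Nat.card G * Nat.card (fixer φ v)) := by
      intro k hk
      rw [hK, Finset.mem_filter] at hk
      have hcopk : (Nat.card (N →* ℂˣ)).Coprime k := by
        rw [CommGroup.card_monoidHom_of_hasEnoughRootsOfUnity N ℂ, hN]
        exact Nat.Coprime.pow_left a ((Nat.Prime.coprime_iff_not_dvd hp).mpr hk.2)
      rw [← sum_Zsq φ v]
      exact Fintype.sum_equiv (powCoprime hcopk) _ _ (fun μ => rfl)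
    rw [Finset.sum_congr rfl h3, Finset.sum_const, nsmul_eq_mul]
  have h4 := Finset.sum_le_sum (fun μ (_ : μ ∈ Finset.univ) => h1 μ)
  rw [h2, ← Finset.mul_sum, hKcard] at h4
  have hpos' : (0 : ℝ) < ((p * Nat.card N - Nat.card N : ℕ) : ℝ) := by exact_mod_cast hKpos
  have h5 := le_of_mul_le_mul_left h4 hpos'
  exact_mod_cast h5

/-- `k(H) ≤ |H|`. -/
theorem card_conjClasses_le_card (H : Type*) [Group H] [Finite H] :
    Nat.card (ConjClasses H) ≤ Nat.card H :=
  Nat.card_le_card_of_surjective _ ConjClasses.mk_surjective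

theorem fixer_one : fixer φ (1 : N) = ⊤ := by
  ext g
  simp [mem_fixer]

/-- The bound `k(N ⋊ G) + |G| ≤ |C_G(v)| |N| + k(G)` for a `p'`-group `G` acting on an abelian
`p`-group `N`. -/
theorem knoerr_bound (p : ℕ) (hp : p.Prime) (a : ℕ) (hN : Nat.card N = p ^ a)
    (hG : ¬ p ∣ Nat.card G) (v : N) :
    Nat.card (ConjClasses (N ⋊[φ] G)) + Nat.card G ≤
      Nat.card (fixer φ v) * Nat.card N + Nat.card (ConjClasses G) := by
  haveI := Fintype.ofFinite N
  have hcop : (Nat.card N).Coprime (Nat.card G) := by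
    rw [hN]
    exact Nat.Coprime.pow_left a ((Nat.Prime.coprime_iff_not_dvd hp).mpr hG)
  have h1 := card_conjClasses_sdp_mul φ hcop
  rw [card_commFix_eq_sum, finsum_eq_sum_of_fintype] at h1
  have h2 := star φ p hp a hN hG v
  rw [finsum_eq_sum_of_fintype] at h2
  -- the term at `1`
  have htop : Nat.card (fixer φ (1 : N)) = Nat.card G := by
    rw [fixer_one]; exact Nat.card_congr Subgroup.topEquiv.toEquiv
  have hktop : Nat.card (ConjClasses (fixer φ (1 : N))) = Nat.card (ConjClasses G) := by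
    refine card_conjClasses_congr ((MulEquiv.subgroupCongr (fixer_one φ)).trans Subgroup.topEquiv)
  have hle : ∀ n : N, Nat.card (ConjClasses (fixer φ n)) * Nat.card (fixer φ n) ≤
      Nat.card (fixer φ n) ^ 2 := by
    intro n
    rw [sq]
    exact Nat.mul_le_mul_right _ (card_conjClasses_le_card _)
  have h3 : ∑ n : N, Nat.card (ConjClasses (fixer φ n)) * Nat.card (fixer φ n) + Nat.card G ^ 2 ≤
      Nat.card (ConjClasses G) * Nat.card G + ∑ n : N, Nat.card (fixer φ n) ^ 2 := by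
    rw [← Finset.add_sum_erase Finset.univ _ (Finset.mem_univ (1 : N)),
      ← Finset.add_sum_erase Finset.univ (fun n : N => Nat.card (fixer φ n) ^ 2)
        (Finset.mem_univ (1 : N))]
    have h4 : ∑ n ∈ Finset.univ.erase (1 : N),
        Nat.card (ConjClasses (fixer φ n)) * Nat.card (fixer φ n) ≤
        ∑ n ∈ Finset.univ.erase (1 : N), Nat.card (fixer φ n) ^ 2 :=
      Finset.sum_le_sum (fun n _ => hle n)
    rw [htop, hktop]
    omega
  have hGpos : 0 < Nat.card G := Nat.card_pos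
  have h5 : (Nat.card (ConjClasses (N ⋊[φ] G)) + Nat.card G) * Nat.card G ≤
      (Nat.card (fixer φ v) * Nat.card N + Nat.card (ConjClasses G)) * Nat.card G := by
    calc (Nat.card (ConjClasses (N ⋊[φ] G)) + Nat.card G) * Nat.card G
        = ∑ n : N, Nat.card (ConjClasses (fixer φ n)) * Nat.card (fixer φ n) + Nat.card G ^ 2 := by
          rw [← h1]; ring
      _ ≤ Nat.card (ConjClasses G) * Nat.card G + ∑ n : N, Nat.card (fixer φ n) ^ 2 := h3
      _ ≤ Nat.card (ConjClasses G) * Nat.card G +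
            Nat.card N * (Nat.card G * Nat.card (fixer φ v)) := Nat.add_le_add_left h2 _
      _ = (Nat.card (fixer φ v) * Nat.card N + Nat.card (ConjClasses G)) * Nat.card G := by ring
  exact Nat.le_of_mul_le_mul_right h5 hGpos

end Star

end

end Cfsg.Agent.H84
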