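/-
helper84 library: Külshammer's formula for the principal block idempotent.

* `regSumK p G`: the sum of the `p`-regular elements in the group algebra.
* `sum_reg_eq_zero`: `∑_{y p-regular} θ(y) = 0` for `θ` outside the principal block.
* `regSum_pow`: `(regSumK) ^ (p ^ m) ≡ |G_{p'}| ^ (p ^ m) • e₀` modulo the local ideal, for large `m`.
* `kuelshammer`: the coefficient of `e₀` at a `p`-regular `g` is congruent to `N(g) / |G_{p'}|`.
-/
import Mathlib
import Cfsg.Prelude.Def_Blocks
import Cfsg.Agent.H84.FrobCount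
import Cfsg.Agent.H84.SectionOrth
import Cfsg.Agent.H84.PRegCount
import Cfsg.Agent.H80.MaxPair
import Cfsg.Agent.H20.SecondMain

set_option autoImplicit false
set_option linter.style.haveILetI false
set_option linter.unusedSectionVars false
set_option linter.unusedVariables false

namespace Cfsg.Agent.H84

open Cfsg Cfsg.Agent.H4 Cfsg.Agent.H20 Cfsg.Agent.H80
open scoped ComplexConjugate

universe u

section Kuel

variable {G : Type u} [Group G] [Fintype G]

open scoped Classical in
/-- The sum of the `p`-regular elements of `G` in the group algebra. -/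
noncomputable def regSumK (p : ℕ) (G : Type u) [Group G] [Fintype G] : MonoidAlgebra ℂ G :=
  ∑ y ∈ Finset.univ.filter (fun y : G => ¬ p ∣ orderOf y), MonoidAlgebra.single y (1 : ℂ)

theorem coeff_regSum (p : ℕ) (y : G) :
    (regSumK p G).coeff y = if p ∣ orderOf y then 0 else 1 := by
  classical
  unfold regSumK
  rw [MonoidAlgebra.coeff_sum, Finsupp.finsetSum_apply]
  simp only [MonoidAlgebra.coeff_single, Finsupp.single_apply]
  rw [Finset.sum_ite_eq' (Finset.univ.filter (fun y : G => ¬ p ∣ orderOf y)) y (fun _ => (1 : ℂ))]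
  by_cases h : p ∣ orderOf y
  · rw [if_pos h, if_neg]
    simp [h]
  · rw [if_neg h, if_pos]
    simp [h]

theorem orderOf_conj' (h g : G) : orderOf (h * g * h⁻¹) = orderOf g :=
  orderOf_injective (MulAut.conj h).toMonoidHom (MulAut.conj h).injective g

theorem regSum_mem (p : ℕ) {M : Ideal AlgInt} (hMp : M.IsPrime) :
    regSumK p G ∈ cfSubring G (localRing M hMp) := by
  refine ⟨fun g h => ?_, fun g => ?_⟩
  · rw [coeff_regSum, coeff_regSum, orderOf_conj']
  · rw [coeff_regSum]
    split_ifs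
    · exact (localRing M hMp).zero_mem
    · exact (localRing M hMp).one_mem

theorem omega_regSum (p : ℕ) (χ : G → ℂ) :
    omega χ (regSumK p G) = (∑ y : G, if p ∣ orderOf y then 0 else χ y) / χ 1 := by
  unfold omega
  congr 1
  apply Finset.sum_congr rfl
  intro y _
  rw [coeff_regSum]
  split_ifs <;> simp

/-- Weak block orthogonality against the trivial character: the sum of the values of an
irreducible character outside the principal block over the `p`-regular elements vanishes. -/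
theorem sum_reg_eq_zero {p : ℕ} {M : Ideal AlgInt} (hM : IsPModular p M) (θ : IrrCharacter G)
    (hθ : θ ∉ principalBlock M G) :
    ∑ y : G, (if p ∣ orderOf y then 0 else (θ : G → ℂ) y) = 0 := by
  classical
  letI := fintypeIrr G
  have hMp := isPrime_of_isPModular hM
  have hcard : (Nat.card G : ℂ) ≠ 0 := by
    have : 0 < Nat.card G := Nat.card_pos
    exact_mod_cast this.ne'
  obtain ⟨F, hFdef⟩ : ∃ F : G → ℂ, F = fun c => if p ∣ orderOf c then (1 : ℂ) else 0 := ⟨_, rfl⟩
  have hF : ∀ c : G, ¬ p ∣ orderOf c → F c = 0 := by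
    intro c hc
    rw [hFdef]
    exact if_neg hc
  obtain ⟨r, hrdef⟩ : ∃ r : IrrCharacter G → ℂ, r = fun ψ : IrrCharacter G =>
      (Nat.card G : ℂ)⁻¹ * ∑ c : G, (if p ∣ orderOf c then 0 else (ψ : G → ℂ) c) := ⟨_, rfl⟩
  have hne : ∀ ψ : IrrCharacter G, ψ ∈ blockOf M (θ : G → ℂ) → ψ ≠ trivChar G := by
    rintro ψ hψ rfl
    apply hθ
    have h1 := blockOf_eq_of_mem hMp hψ
    rw [principalBlock_eq, h1]
    exact mem_blockOf_self hMp θ
  have hcl : ∀ ψ : IrrCharacter G, ψ ∈ blockOf M (θ : G → ℂ) →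
      classInner F (ψ : G → ℂ) = - conj (r ψ) := by
    intro ψ hψ
    have h0 := irr_inner_ne (hne ψ hψ).symm
    unfold classInner at h0
    have h0' : ∑ g : G, conj ((ψ : G → ℂ) g) = 0 := by
      have h2 : ∑ g : G, ((trivChar G : IrrCharacter G) : G → ℂ) g * conj ((ψ : G → ℂ) g) = 0 := by
        rcases mul_eq_zero.mp h0 with h3 | h3
        · exact absurd (inv_eq_zero.mp h3) hcard
        · exact h3
      rw [← h2]
      apply Finset.sum_congr rfl
      intro g _
      rw [trivChar_apply, one_mul]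
    unfold classInner
    rw [hrdef]
    simp only [map_mul, map_inv₀, map_natCast, map_sum]
    rw [← mul_neg, ← Finset.sum_neg_distrib]
    congr 1
    have h4 : ∑ g : G, F g * conj ((ψ : G → ℂ) g) =
        ∑ g : G, (conj ((ψ : G → ℂ) g) - (if p ∣ orderOf g then 0 else conj ((ψ : G → ℂ) g))) := by
      apply Finset.sum_congr rfl
      intro g _
      rw [hFdef]
      by_cases hg : p ∣ orderOf g
      · simp [hg]
      · simp [hg]
    rw [h4, Finset.sum_sub_distrib, h0', zero_sub, ← Finset.sum_neg_distrib]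
    apply Finset.sum_congr rfl
    intro g _
    by_cases hg : p ∣ orderOf g
    · simp [hg]
    · simp [hg]
  have hkey : ∀ s : G, ¬ p ∣ orderOf s →
      ∑ ψ : IrrCharacter G, (if ψ ∈ blockOf M (θ : G → ℂ) then
        classInner F (ψ : G → ℂ) * (ψ : G → ℂ) s else 0) = 0 := by
    intro s hs
    rw [← finsum_mem_irr]
    exact finsum_block_inner_mul_eq_zero hM F hF θ s hs
  have hsum : ∑ s : G, (if p ∣ orderOf s then (0 : ℂ) else
      ∑ ψ : IrrCharacter G, (if ψ ∈ blockOf M (θ : G → ℂ) then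
        classInner F (ψ : G → ℂ) * (ψ : G → ℂ) s else 0)) = 0 := by
    apply Finset.sum_eq_zero
    intro s _
    by_cases hs : p ∣ orderOf s
    · rw [if_pos hs]
    · rw [if_neg hs, hkey s hs]
  have hsum2 : ∑ s : G, (if p ∣ orderOf s then (0 : ℂ) else
      ∑ ψ : IrrCharacter G, (if ψ ∈ blockOf M (θ : G → ℂ) then
        classInner F (ψ : G → ℂ) * (ψ : G → ℂ) s else 0)) =
      ∑ ψ : IrrCharacter G, (if ψ ∈ blockOf M (θ : G → ℂ) then
        - ((Nat.card G : ℂ) * (conj (r ψ) * r ψ)) else 0) := by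
    have e1 : ∀ s : G, (if p ∣ orderOf s then (0 : ℂ) else
        ∑ ψ : IrrCharacter G, (if ψ ∈ blockOf M (θ : G → ℂ) then
          classInner F (ψ : G → ℂ) * (ψ : G → ℂ) s else 0)) =
        ∑ ψ : IrrCharacter G, (if ψ ∈ blockOf M (θ : G → ℂ) then
          classInner F (ψ : G → ℂ) * (if p ∣ orderOf s then 0 else (ψ : G → ℂ) s) else 0) := by
      intro s
      by_cases hs : p ∣ orderOf s
      · simp [hs]
      · simp [hs]
    rw [Finset.sum_congr rfl (fun s _ => e1 s), Finset.sum_comm]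
    apply Finset.sum_congr rfl
    intro ψ _
    by_cases hψ : ψ ∈ blockOf M (θ : G → ℂ)
    · simp only [if_pos hψ]
      rw [← Finset.mul_sum, hcl ψ hψ]
      have e2 : ∑ s : G, (if p ∣ orderOf s then 0 else (ψ : G → ℂ) s) = (Nat.card G : ℂ) * r ψ := by
        rw [hrdef]
        field_simp
      rw [e2]
      ring
    · simp [hψ]
  rw [hsum] at hsum2
  have hre : ∑ ψ : IrrCharacter G, (if ψ ∈ blockOf M (θ : G → ℂ) then
      Complex.normSq (r ψ) else 0) = 0 := by
    have h5 : ((∑ ψ : IrrCharacter G, (if ψ ∈ blockOf M (θ : G → ℂ) then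
        Complex.normSq (r ψ) else 0) : ℝ) : ℂ) * (- (Nat.card G : ℂ)) = 0 := by
      rw [hsum2, Complex.ofReal_sum, Finset.sum_mul]
      apply Finset.sum_congr rfl
      intro ψ _
      by_cases hψ : ψ ∈ blockOf M (θ : G → ℂ)
      · rw [if_pos hψ, if_pos hψ, Complex.normSq_eq_conj_mul_self]
        ring
      · rw [if_neg hψ, if_neg hψ]
        simp
    rcases mul_eq_zero.mp h5 with h6 | h6
    · exact_mod_cast h6
    · exact absurd (neg_eq_zero.mp h6) hcard
  have hθ0 := (Finset.sum_eq_zero_iff_of_nonneg (fun ψ _ => by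
    split_ifs
    · exact Complex.normSq_nonneg _
    · exact le_refl _)).mp hre θ (Finset.mem_univ θ)
  rw [if_pos (mem_blockOf_self hMp θ)] at hθ0
  have hrθ : r θ = 0 := Complex.normSq_eq_zero.mp hθ0
  rw [hrdef] at hrθ
  rcases mul_eq_zero.mp hrθ with h7 | h7
  · exact absurd (inv_eq_zero.mp h7) hcard
  · exact h7

theorem omega_regSum_triv (p : ℕ) :
    omega (fun _ : G => (1 : ℂ)) (regSumK p G) = (Nat.card {y : G // ¬ p ∣ orderOf y} : ℂ) := by
  classical
  rw [omega_regSum, div_one, Nat.card_eq_fintype_card, Fintype.card_subtype, Finset.card_filter]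
  push_cast
  apply Finset.sum_congr rfl
  intro y _
  by_cases h : p ∣ orderOf y <;> simp [h]

/-- For large `m`, the `p ^ m`-th power of the sum of the `p`-regular elements is congruent,
coefficientwise modulo the local ideal, to `|G_{p'}| ^ (p ^ m)` times the principal block
idempotent. -/
theorem regSum_pow {p : ℕ} [Fact p.Prime] {M : Ideal AlgInt} (hM : IsPModular p M) :
    ∃ n₀ : ℕ, ∀ m : ℕ, n₀ ≤ m → ∀ g : G, MemLocalIdeal M
      (((regSumK p G) ^ (p ^ m)).coeff g -
        (Nat.card {y : G // ¬ p ∣ orderOf y} : ℂ) ^ (p ^ m) *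
          blockCoeff (principalBlock M G) g) := by
  classical
  have hp : p.Prime := Fact.out
  have hMp := isPrime_of_isPModular hM
  obtain ⟨c, hcdef⟩ : ∃ c : ℕ, c = Nat.card {y : G // ¬ p ∣ orderOf y} := ⟨_, rfl⟩
  rw [← hcdef]
  have hE : blockElt (principalBlock M G) ∈ cfSubring G (localRing M hMp) := by
    rw [principalBlock_eq]
    exact blockElt_mem hMp (trivChar G)
  have hcE : (c : ℂ) • blockElt (principalBlock M G) ∈ cfSubring G (localRing M hMp) :=
    Cfsg.Agent.H20.smul_mem_cfSubring (memLocalRing_natCast hMp c) hE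
  have hS := regSum_mem (G := G) p hMp
  obtain ⟨j, hjdef⟩ : ∃ j : MonoidAlgebra ℂ G,
      j = regSumK p G - (c : ℂ) • blockElt (principalBlock M G) := ⟨_, rfl⟩
  have hj : j ∈ cfSubring G (localRing M hMp) := by
    rw [hjdef]
    exact (cfSubring _ _).sub_mem hS hcE
  have hω : ∀ θ : IrrCharacter G, MemLocalIdeal M (omega (θ : G → ℂ) j) := by
    intro θ
    rw [hjdef, omega_sub, omega_smul, omega_blockElt]
    by_cases hθ : θ ∈ principalBlock M G
    · rw [if_pos hθ, mul_one]
      have h1 := omega_sub_omega_memLocalIdeal hMp (θ : G → ℂ) (fun _ => 1)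
        (irr_isClassFunction θ) (irr_isClassFunction (trivChar G)) (sameBlock_symm hθ) hS
      rw [omega_regSum_triv, ← hcdef] at h1
      exact h1
    · rw [if_neg hθ, mul_zero, sub_zero, omega_regSum, sum_reg_eq_zero hM θ hθ, zero_div]
      exact memLocalIdeal_zero hMp
  obtain ⟨n, hn, hpow⟩ := exists_pow_coeff_memLocalIdeal hMp hj hω
  refine ⟨n, fun m hm g => ?_⟩
  have hq : n ≤ p ^ m := hm.trans (Nat.lt_pow_self hp.one_lt).le
  have hcomm : Commute (⟨(c : ℂ) • blockElt (principalBlock M G), hcE⟩ :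
      cfSubring G (localRing M hMp)) ⟨j, hj⟩ := by
    apply Subtype.ext
    exact Cfsg.Agent.H20.isCF_mul_comm hcE.1 j
  obtain ⟨r, hr⟩ := hcomm.exists_add_pow_prime_pow_eq hp m
  have hr' := congrArg Subtype.val hr
  simp only [Subring.coe_add, Subring.coe_pow, Subring.coe_mul, Subring.coe_natCast] at hr'
  have hsum : (c : ℂ) • blockElt (principalBlock M G) + j = regSumK p G := by
    rw [hjdef]
    abel
  rw [hsum] at hr'
  have hidem : ∀ k : ℕ, 0 < k →
      blockElt (principalBlock M G) ^ k = blockElt (principalBlock M G) := by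
    intro k hk
    induction k with
    | zero => omega
    | succ k ih =>
      rcases Nat.eq_zero_or_pos k with rfl | hk'
      · rw [zero_add, pow_one]
      · rw [pow_succ, ih hk', blockElt_mul_self]
  have hce : ((c : ℂ) • blockElt (principalBlock M G)) ^ (p ^ m) =
      ((c : ℂ) ^ (p ^ m)) • blockElt (principalBlock M G) := by
    rw [smul_pow, hidem _ (pow_pos hp.pos m)]
  rw [hce] at hr'
  have hT : ((p : MonoidAlgebra ℂ G) * (c : ℂ) • blockElt (principalBlock M G) * j * r.1) =
      p • ((c : ℂ) • blockElt (principalBlock M G) * j * r.1) := by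
    rw [nsmul_eq_mul, mul_assoc, mul_assoc, mul_assoc]
  rw [hr', hT, MonoidAlgebra.coeff_add, MonoidAlgebra.coeff_add, Finsupp.add_apply,
    Finsupp.add_apply, MonoidAlgebra.coeff_smul, Finsupp.smul_apply, smul_eq_mul, coeff_blockElt,
    MonoidAlgebra.coeff_smul, Finsupp.smul_apply, nsmul_eq_mul]
  have e : (c : ℂ) ^ p ^ m * blockCoeff (principalBlock M G) g + (j ^ p ^ m).coeff g +
      (p : ℂ) * ((c : ℂ) • blockElt (principalBlock M G) * j * r.1).coeff g -
      (c : ℂ) ^ p ^ m * blockCoeff (principalBlock M G) g =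
      (j ^ p ^ m).coeff g +
      (p : ℂ) * ((c : ℂ) • blockElt (principalBlock M G) * j * r.1).coeff g := by ring
  rw [e]
  apply memLocalIdeal_add hMp
  · have e2 : j ^ p ^ m = j ^ (p ^ m - n) * j ^ n := by
      rw [← pow_add, Nat.sub_add_cancel hq]
    rw [e2]
    have hjp : j ^ (p ^ m - n) ∈ cfSubring G (localRing M hMp) := pow_mem hj _
    exact coeff_mul_memLocalIdeal hMp hjp.2 hpow g
  · apply memLocalIdeal_mul_right hMp (memLocalIdeal_natCast_self hM)
    have hmem : (c : ℂ) • blockElt (principalBlock M G) * j * r.1 ∈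
        cfSubring G (localRing M hMp) := mul_mem (mul_mem hcE hj) r.2
    exact hmem.2 g

/-- **Külshammer's formula** for the principal block idempotent: for `p`-regular `g`, the
coefficient of the principal block idempotent at `g` is congruent modulo the local ideal to
`N / R`, `N` the number of pairs `(x, y)` with `x` a `p`-element, `y` `p`-regular and `x * y = g`,
and `R` the number of `p`-regular elements. -/
theorem kuelshammer {p : ℕ} [Fact p.Prime] {M : Ideal AlgInt} (hM : IsPModular p M) (g : G)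
    (hg : ¬ p ∣ orderOf g) :
    MemLocalIdeal M (blockCoeff (principalBlock M G) g -
      (Nat.card {xy : G × G // (∃ k : ℕ, orderOf xy.1 = p ^ k) ∧ ¬ p ∣ orderOf xy.2 ∧
        xy.1 * xy.2 = g} : ℂ) / (Nat.card {y : G // ¬ p ∣ orderOf y} : ℂ)) := by
  classical
  have hp : p.Prime := Fact.out
  have hMp := isPrime_of_isPModular hM
  obtain ⟨n₀, hn₀⟩ := regSum_pow (G := G) hM
  obtain ⟨c, hcdef⟩ : ∃ c : ℕ, c = Nat.card {y : G // ¬ p ∣ orderOf y} := ⟨_, rfl⟩
  obtain ⟨N, hNdef⟩ : ∃ N : ℕ, N = Nat.card {xy : G × G // (∃ k : ℕ, orderOf xy.1 = p ^ k) ∧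
      ¬ p ∣ orderOf xy.2 ∧ xy.1 * xy.2 = g} := ⟨_, rfl⟩
  rw [← hcdef, ← hNdef]
  rw [← hcdef] at hn₀
  have hc : ¬ p ∣ c := by
    rw [hcdef]
    exact not_dvd_card_pRegular p G
  have ho : 0 < orderOf g := orderOf_pos g
  obtain ⟨m, hmdef⟩ : ∃ m : ℕ, m = Nat.totient (orderOf g) * (n₀ + Nat.card G) := ⟨_, rfl⟩
  have htot : 0 < Nat.totient (orderOf g) := Nat.totient_pos.mpr ho
  have hm1 : n₀ + Nat.card G ≤ m := by
    rw [hmdef]
    exact Nat.le_mul_of_pos_left _ htot
  have hmod : p ^ m ≡ 1 [MOD orderOf g] := by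
    rw [hmdef, pow_mul]
    have h1 := Nat.ModEq.pow_totient ((Nat.Prime.coprime_iff_not_dvd hp).mpr hg)
    have h2 := h1.pow (n₀ + Nat.card G)
    rwa [one_pow] at h2
  have hgq : g ^ (p ^ m) = g := by
    have := (pow_eq_pow_iff_modEq (x := g)).mpr hmod
    rwa [pow_one] at this
  have hiv : ∀ x : G, x ^ (p ^ m) = 1 ↔ ∃ k : ℕ, orderOf x = p ^ k := by
    intro x
    constructor
    · intro hx
      obtain ⟨k, _, hk⟩ := (Nat.dvd_prime_pow hp).mp (orderOf_dvd_of_pow_eq_one hx)
      exact ⟨k, hk⟩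
    · rintro ⟨k, hk⟩
      apply orderOf_dvd_iff_pow_eq_one.mp
      rw [hk]
      apply pow_dvd_pow
      have h1 : p ^ k ≤ Nat.card G := Nat.le_of_dvd Nat.card_pos (hk ▸ orderOf_dvd_natCard x)
      have h2 : k < p ^ k := Nat.lt_pow_self hp.one_lt
      omega
  obtain ⟨W, hWdef⟩ : ∃ W : Finset G,
      W = (Finset.univ.filter (fun y : G => ¬ p ∣ orderOf y)).image (fun y => y * g⁻¹) :=
    ⟨_, rfl⟩
  have hWsum : regSumK p G * MonoidAlgebra.single g⁻¹ (1 : ℂ) =
      ∑ s ∈ W, MonoidAlgebra.single s (1 : ℂ) := by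
    rw [hWdef, Finset.sum_image (fun a _ b _ h => mul_right_cancel h)]
    unfold regSumK
    rw [Finset.sum_mul]
    apply Finset.sum_congr
    · ext y
      simp
    · intro y _
      rw [MonoidAlgebra.single_mul_single, one_mul]
  have hpow : (regSumK p G * MonoidAlgebra.single g⁻¹ (1 : ℂ)) ^ (p ^ m) =
      regSumK p G ^ (p ^ m) * MonoidAlgebra.single g⁻¹ (1 : ℂ) := by
    have hcomm : Commute (regSumK p G) (MonoidAlgebra.single g⁻¹ (1 : ℂ)) :=
      Cfsg.Agent.H20.isCF_mul_comm (regSum_mem p hMp).1 _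
    rw [hcomm.mul_pow, MonoidAlgebra.single_pow, one_pow, inv_pow, hgq]
  obtain ⟨k, hk1, hk2⟩ := frob_count p m W
  rw [← hWsum, hpow, MonoidAlgebra.coeff_mul_single_apply, mul_one, one_mul, inv_inv] at hk1
  have hWmem : ∀ t : G, t ∈ W ↔ ¬ p ∣ orderOf (t * g) := by
    intro t
    rw [hWdef, Finset.mem_image]
    constructor
    · rintro ⟨y, hy, rfl⟩
      rw [inv_mul_cancel_right]
      exact (Finset.mem_filter.mp hy).2
    · intro ht
      exact ⟨t * g, Finset.mem_filter.mpr ⟨Finset.mem_univ _, ht⟩, mul_inv_cancel_right _ _⟩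
  have hcount : (W.filter (fun s => s ^ (p ^ m) = 1)).card = N := by
    rw [hNdef, ← Fintype.card_coe, ← Nat.card_eq_fintype_card]
    refine Nat.card_eq_of_bijective (fun s => ⟨(s.1⁻¹, s.1 * g), ?_⟩) ⟨?_, ?_⟩
    · have hs := Finset.mem_filter.mp s.2
      refine ⟨?_, ?_, ?_⟩
      · obtain ⟨k, hk⟩ := (hiv s.1).mp hs.2
        exact ⟨k, by rw [orderOf_inv]; exact hk⟩
      · exact (hWmem s.1).mp hs.1
      · exact inv_mul_cancel_left _ _
    · intro s s' hss
      have h1 : s.1⁻¹ = s'.1⁻¹ := congrArg (fun x => x.1.1) hss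
      exact Subtype.ext (inv_injective h1)
    · rintro ⟨⟨x, y⟩, hx, hy, hxy⟩
      have hxy' : x * y = g := hxy
      refine ⟨⟨x⁻¹, Finset.mem_filter.mpr ⟨?_, ?_⟩⟩, ?_⟩
      · rw [hWmem, ← hxy', inv_mul_cancel_left]
        exact hy
      · obtain ⟨k, hk⟩ := hx
        exact (hiv x⁻¹).mpr ⟨k, by rw [orderOf_inv]; exact hk⟩
      · apply Subtype.ext
        show (x⁻¹⁻¹, x⁻¹ * g) = (x, y)
        rw [inv_inv, ← hxy', inv_mul_cancel_left]
  rw [hcount] at hk2
  have h1 := hn₀ m (le_trans (Nat.le_add_right _ _) hm1) g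
  rw [hk1] at h1
  have h2 : MemLocalIdeal M ((N : ℂ) - (k : ℂ)) := by
    have hd : (p : ℤ) ∣ (N : ℤ) - (k : ℤ) := Nat.modEq_iff_dvd.mp hk2
    have h := (memLocalIdeal_intCast_iff hM ((N : ℤ) - (k : ℤ))).mpr hd
    push_cast at h
    exact h
  have h3 : MemLocalIdeal M ((c : ℂ) ^ (p ^ m) - (c : ℂ)) := by
    have hmodc : c ^ (p ^ m) ≡ c [MOD p] := by
      rw [← ZMod.natCast_eq_natCast_iff]
      push_cast
      exact ZMod.pow_card_pow _
    have hd : (p : ℤ) ∣ ((c ^ (p ^ m) : ℕ) : ℤ) - (c : ℤ) := Nat.modEq_iff_dvd.mp hmodc.symm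
    have h := (memLocalIdeal_intCast_iff hM _).mpr hd
    push_cast at h
    exact h
  have ha : MemLocalRing M (blockCoeff (principalBlock M G) g) := by
    rw [principalBlock_eq]
    exact blockCoeff_memLocalRing hMp (trivChar G) g
  have h4 : MemLocalIdeal M ((N : ℂ) - (c : ℂ) * blockCoeff (principalBlock M G) g) := by
    have e : (N : ℂ) - (c : ℂ) * blockCoeff (principalBlock M G) g =
        ((N : ℂ) - k) + ((k : ℂ) - (c : ℂ) ^ (p ^ m) * blockCoeff (principalBlock M G) g) +
        ((c : ℂ) ^ (p ^ m) - c) * blockCoeff (principalBlock M G) g := by ring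
    rw [e]
    exact memLocalIdeal_add hMp (memLocalIdeal_add hMp h2 h1) (memLocalIdeal_mul_right hMp h3 ha)
  have hcI : ¬ MemLocalIdeal M (c : ℂ) := fun h => hc ((memLocalIdeal_natCast_iff hM c).mp h)
  have hc0 : (c : ℂ) ≠ 0 := by
    intro h0
    apply hcI
    rw [h0]
    exact memLocalIdeal_zero hMp
  have h5 := memLocalIdeal_neg (memLocalIdeal_div hMp h4 (memLocalRing_natCast hMp c) hcI)
  have e : blockCoeff (principalBlock M G) g - (N : ℂ) / (c : ℂ) =
      -(((N : ℂ) - (c : ℂ) * blockCoeff (principalBlock M G) g) / (c : ℂ)) := by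
    field_simp
    ring
  rw [e]
  exact h5

end Kuel

end Cfsg.Agent.H84
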