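import Cfsg.Agent.H46.OSDefs

/-!
# OS-ABSI (helper84, for helper46's S2159 project)

Pure group theory: the index of a normal subgroup `N` all of whose cosets are represented by a set `Gr`
which is `{1, a}` with `a * a` in `N`, or `{1, a, b, ab, ba, aba}` with `a * a = b * b = (a * b) ^ 3 = 1`,
is `1`, `2`, or `6` with a non-commutative quotient.
-/

set_option autoImplicit false

universe u

namespace Cfsg.Agent.H84.OS

open scoped commutatorElement

theorem absI_card_le_two {Q : Type u} [Group Q] (N : Subgroup Q) [N.Normal] (c : Q ⧸ N)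
    (h : ∀ q : Q ⧸ N, q = 1 ∨ q = c) : N.index = 1 ∨ N.index = 2 := by
  classical
  rw [Subgroup.index_eq_card]
  let S : Finset (Q ⧸ N) := {1, c}
  have hS : ∀ q : Q ⧸ N, q ∈ S := by
    intro q
    rcases h q with h1 | h1
    · simp [S, h1]
    · simp [S, h1]
  have hcard : Nat.card (Q ⧸ N) = S.card := by
    rw [← Nat.card_eq_finsetCard]
    exact (Nat.card_congr (Equiv.subtypeUnivEquiv hS)).symm
  have h2 : S.card ≤ 2 := Finset.card_le_two
  have h1 : 0 < S.card := Finset.card_pos.mpr ⟨1, hS 1⟩
  omega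

theorem absI_aux (Q : Type u) [Group Q] (N : Subgroup Q) [N.Normal] (Gr : Set Q)
    (hrep : ∀ q : Q, ∃ g ∈ Gr, q * g⁻¹ ∈ N)
    (hcase : (∃ a : Q, a * a ∈ N ∧ ∀ g ∈ Gr, g = 1 ∨ g = a) ∨
     (∃ a b : Q, a * a = 1 ∧ b * b = 1 ∧ (a * b) ^ 3 = 1 ∧
        ∀ g ∈ Gr, g = 1 ∨ g = a ∨ g = b ∨ g = a * b ∨ g = b * a ∨ g = a * b * a)) :
    N.index = 1 ∨ N.index = 2 ∨ (N.index = 6 ∧ ¬ commutator Q ≤ N) := by
  classical
  -- every class is the class of an element of `Gr`
  have hmk : ∀ q : Q ⧸ N, ∃ g ∈ Gr, q = QuotientGroup.mk g := by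
    intro q
    obtain ⟨x, rfl⟩ := QuotientGroup.mk_surjective q
    obtain ⟨g, hg, hx⟩ := hrep x
    refine ⟨g, hg, ?_⟩
    have : (QuotientGroup.mk (x * g⁻¹) : Q ⧸ N) = 1 := (QuotientGroup.eq_one_iff _).mpr hx
    rw [QuotientGroup.mk_mul, QuotientGroup.mk_inv] at this
    exact mul_inv_eq_one.mp this
  rcases hcase with ⟨a, haa, hGr⟩ | ⟨a, b, haa, hbb, hab, hGr⟩
  · have := absI_card_le_two N (QuotientGroup.mk a) (fun q => by
      obtain ⟨g, hg, rfl⟩ := hmk q
      rcases hGr g hg with rfl | rfl
      · left; rfl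
      · right; rfl)
    rcases this with h | h
    · exact Or.inl h
    · exact Or.inr (Or.inl h)
  · set A : Q ⧸ N := QuotientGroup.mk a with hA
    set B : Q ⧸ N := QuotientGroup.mk b with hB
    have hAA : A * A = 1 := by
      rw [hA, ← QuotientGroup.mk_mul, haa]; rfl
    have hBB : B * B = 1 := by
      rw [hB, ← QuotientGroup.mk_mul, hbb]; rfl
    have hAB : (A * B) ^ 3 = 1 := by
      rw [hA, hB, ← QuotientGroup.mk_mul, ← QuotientGroup.mk_pow, hab]; rfl
    have hall : ∀ q : Q ⧸ N, q = 1 ∨ q = A ∨ q = B ∨ q = A * B ∨ q = B * A ∨ q = A * B * A := by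
      intro q
      obtain ⟨g, hg, rfl⟩ := hmk q
      rcases hGr g hg with rfl | rfl | rfl | rfl | rfl | rfl
      · exact Or.inl rfl
      · exact Or.inr (Or.inl rfl)
      · exact Or.inr (Or.inr (Or.inl rfl))
      · exact Or.inr (Or.inr (Or.inr (Or.inl rfl)))
      · exact Or.inr (Or.inr (Or.inr (Or.inr (Or.inl rfl))))
      · exact Or.inr (Or.inr (Or.inr (Or.inr (Or.inr rfl))))
    have hAinv : A⁻¹ = A := inv_eq_of_mul_eq_one_left hAA
    have hBinv : B⁻¹ = B := inv_eq_of_mul_eq_one_left hBB
    by_cases hA1 : A = 1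
    · have := absI_card_le_two N B (fun q => by
        rcases hall q with h | h | h | h | h | h
        · exact Or.inl h
        · exact Or.inl (h.trans hA1)
        · exact Or.inr h
        · right; rw [h, hA1, one_mul]
        · right; rw [h, hA1, mul_one]
        · right; rw [h, hA1, one_mul, mul_one])
      rcases this with h | h
      · exact Or.inl h
      · exact Or.inr (Or.inl h)
    by_cases hB1 : B = 1
    · have := absI_card_le_two N A (fun q => by
        rcases hall q with h | h | h | h | h | h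
        · exact Or.inl h
        · exact Or.inr h
        · exact Or.inl (h.trans hB1)
        · right; rw [h, hB1, mul_one]
        · right; rw [h, hB1, one_mul]
        · left; rw [h, hB1, mul_one, hAA])
      rcases this with h | h
      · exact Or.inl h
      · exact Or.inr (Or.inl h)
    by_cases hABeq : A = B
    · have := absI_card_le_two N A (fun q => by
        rcases hall q with h | h | h | h | h | h
        · exact Or.inl h
        · exact Or.inr h
        · exact Or.inr (h.trans hABeq.symm)
        · left; rw [h, ← hABeq, hAA]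
        · left; rw [h, ← hABeq, hAA]
        · right; rw [h, ← hABeq, hAA, one_mul])
      rcases this with h | h
      · exact Or.inl h
      · exact Or.inr (Or.inl h)
    -- the generic case: six distinct classes
    right; right
    have hABne1 : A * B ≠ 1 := by
      intro h
      apply hABeq
      have : A = B⁻¹ := eq_inv_of_mul_eq_one_left h
      rw [this, hBinv]
    have hBAne1 : B * A ≠ 1 := by
      intro h
      apply hABeq
      have : B = A⁻¹ := eq_inv_of_mul_eq_one_left h
      rw [hAinv] at this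
      exact this.symm
    have hcomm : A * B ≠ B * A := by
      intro h
      apply hABne1
      have h2 : (A * B) ^ 2 = 1 := by
        rw [pow_two]
        calc A * B * (A * B) = A * B * (B * A) := by rw [h]
          _ = A * (B * B) * A := by group
          _ = 1 := by rw [hBB, mul_one, hAA]
      have h3 : (A * B) ^ 3 = (A * B) ^ 2 * (A * B) := pow_succ _ _
      rw [hAB, h2, one_mul] at h3
      exact h3.symm
    have hABAne1 : A * B * A ≠ 1 := by
      intro h
      apply hB1
      have : B = A⁻¹ * (A * B * A) * A⁻¹ := by group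
      rw [this, h, mul_one, hAinv, hAA]
    have hBneABA : B ≠ A * B * A := by
      intro h
      apply hcomm
      calc A * B = A * B * (A * A) := by rw [hAA, mul_one]
        _ = (A * B * A) * A := by group
        _ = B * A := by rw [← h]
    have d1 : (1 : Q ⧸ N) ≠ A := fun h => hA1 h.symm
    have d2 : (1 : Q ⧸ N) ≠ B := fun h => hB1 h.symm
    have d3 : (1 : Q ⧸ N) ≠ A * B := fun h => hABne1 h.symm
    have d4 : (1 : Q ⧸ N) ≠ B * A := fun h => hBAne1 h.symm
    have d5 : (1 : Q ⧸ N) ≠ A * B * A := fun h => hABAne1 h.symm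
    have d6 : A ≠ A * B := fun h => hB1 (by simpa using h.symm)
    have d7 : A ≠ B * A := fun h => hB1 (by simpa using h.symm)
    have d8 : A ≠ A * B * A := fun h => hBAne1 (by
      have : A * 1 = A * (B * A) := by rw [mul_one, ← mul_assoc]; exact h
      exact (mul_left_cancel this).symm)
    have d9 : B ≠ A * B := fun h => hA1 (by simpa using h.symm)
    have d10 : B ≠ B * A := fun h => hA1 (by simpa using h.symm)
    have d11 : A * B ≠ A * B * A := fun h => hA1 (by simpa using h.symm)
    have d12 : B * A ≠ A * B * A := fun h => hABne1 (by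
      have : 1 * (B * A) = (A * B) * A := by rw [one_mul]; exact h
      rw [mul_assoc] at this
      have h2 := mul_right_cancel this
      -- h2 : 1 = A ... 
      exact absurd h2.symm hA1)
    refine ⟨?_, ?_⟩
    · rw [Subgroup.index_eq_card]
      let S : Finset (Q ⧸ N) := {1, A, B, A * B, B * A, A * B * A}
      have hS : ∀ q : Q ⧸ N, q ∈ S := by
        intro q
        rcases hall q with h | h | h | h | h | h <;> simp [S, h]
      have hcard : Nat.card (Q ⧸ N) = S.card := by
        rw [← Nat.card_eq_finsetCard]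
        exact (Nat.card_congr (Equiv.subtypeUnivEquiv hS)).symm
      rw [hcard]
      have e5 : ({A * B * A} : Finset (Q ⧸ N)).card = 1 := Finset.card_singleton _
      have e4 : ({B * A, A * B * A} : Finset (Q ⧸ N)).card = 2 := by
        rw [Finset.card_insert_of_notMem (by simp [d12]), e5]
      have e3 : ({A * B, B * A, A * B * A} : Finset (Q ⧸ N)).card = 3 := by
        rw [Finset.card_insert_of_notMem (by simp [hcomm, d11]), e4]
      have e2 : ({B, A * B, B * A, A * B * A} : Finset (Q ⧸ N)).card = 4 := by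
        rw [Finset.card_insert_of_notMem (by simp [d9, d10, hBneABA]), e3]
      have e1 : ({A, B, A * B, B * A, A * B * A} : Finset (Q ⧸ N)).card = 5 := by
        rw [Finset.card_insert_of_notMem (by simp [hABeq, d6, d7, d8]), e2]
      show ({1, A, B, A * B, B * A, A * B * A} : Finset (Q ⧸ N)).card = 6
      rw [Finset.card_insert_of_notMem (by simp [d1, d2, d3, d4, d5]), e1]
    · intro hle
      apply hcomm
      have hmem : ⁅a, b⁆ ∈ N := hle (by
        rw [commutator_def]
        exact Subgroup.commutator_mem_commutator (Subgroup.mem_top a) (Subgroup.mem_top b))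
      have h1 : (QuotientGroup.mk ⁅a, b⁆ : Q ⧸ N) = 1 := (QuotientGroup.eq_one_iff _).mpr hmem
      rw [commutatorElement_def] at h1
      have h2 : A * B * A⁻¹ * B⁻¹ = 1 := h1
      calc A * B = (A * B * A⁻¹ * B⁻¹) * (B * A) := by group
        _ = B * A := by rw [h2, one_mul]


/-- **OS-ABSI**. -/
theorem absI : Cfsg.Agent.H46.OS.StAbsI.{u} := by
  intro Q _ N _ Gr hrep hcase
  exact absI_aux Q N Gr hrep hcase

example : Cfsg.Agent.H46.OS.StAbsI.{u} =
    (∀ (Q : Type u) [Group Q] (N : Subgroup Q) [N.Normal] (Gr : Set Q),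
    (∀ q : Q, ∃ g ∈ Gr, q * g⁻¹ ∈ N) →
    ((∃ a : Q, a * a ∈ N ∧ ∀ g ∈ Gr, g = 1 ∨ g = a) ∨
     (∃ a b : Q, a * a = 1 ∧ b * b = 1 ∧ (a * b) ^ 3 = 1 ∧
        ∀ g ∈ Gr, g = 1 ∨ g = a ∨ g = b ∨ g = a * b ∨ g = b * a ∨ g = a * b * a)) →
    N.index = 1 ∨ N.index = 2 ∨ (N.index = 6 ∧ ¬ commutator Q ≤ N)) := rfl

end Cfsg.Agent.H84.OS
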