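import Cfsg.Agent.H46.OSDefs

/-!
# OS-ABSN (helper84, for helper46's S2159 project)

Pure group theory in `A ⧸ I`: the image `Dbar` of the closure of a commuting set `Dg` normalised by `Fd` and
`Gr` is normal and commutative, the image `Fbar` of the closure of a set `Fd` inside a cyclic subgroup is
cyclic, `Dbar ⊔ Fbar` is normal, and every class is represented by an element of `Gr` modulo `Dbar ⊔ Fbar`.
-/

set_option autoImplicit false

universe u

namespace Cfsg.Agent.H84.OS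

theorem absN_aux (A : Type u) [Group A] (I : Subgroup A) [I.Normal] (Dg Fd Gr : Set A)
    (hD : ∀ d ∈ Dg, ∀ d' ∈ Dg, d * d' = d' * d)
    (hF : ∃ φ0 : A, ∀ f ∈ Fd, f ∈ Subgroup.zpowers φ0)
    (hFD : ∀ f ∈ Fd, ∀ d ∈ Dg, f * d * f⁻¹ ∈ Dg)
    (hGD : ∀ g ∈ Gr, ∀ d ∈ Dg, g * d * g⁻¹ ∈ Dg)
    (hGF : ∀ g ∈ Gr, ∀ f ∈ Fd, g * f = f * g)
    (hdec : ∀ θ : A, ∃ i ∈ I, ∃ d ∈ Dg, ∃ g ∈ Gr, ∃ f ∈ Fd, θ = i * d * g * f)
    (Dbar Fbar : Subgroup (A ⧸ I))
    (hDbar : Dbar = (Subgroup.closure Dg).map (QuotientGroup.mk' I))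
    (hFbar : Fbar = (Subgroup.closure Fd).map (QuotientGroup.mk' I)) :
    Dbar.Normal ∧ IsMulCommutative ↥Dbar ∧ IsCyclic ↥Fbar ∧ (Dbar ⊔ Fbar).Normal ∧
        ∀ q : A ⧸ I, ∃ g ∈ Gr, q * (QuotientGroup.mk' I g)⁻¹ ∈ Dbar ⊔ Fbar := by
  subst hDbar hFbar
  -- conjugation by an element normalising `Dg` preserves `closure Dg`
  have hconj : ∀ c : A, (∀ d ∈ Dg, c * d * c⁻¹ ∈ Dg) →
      ∀ y ∈ Subgroup.closure Dg, c * y * c⁻¹ ∈ Subgroup.closure Dg := by
    intro c hc y hy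
    have hle : Subgroup.closure Dg ≤ (Subgroup.closure Dg).comap (MulAut.conj c).toMonoidHom := by
      rw [Subgroup.closure_le]
      intro d hd
      exact Subgroup.subset_closure (hc d hd)
    exact hle hy
  have hDcl : ∀ d ∈ Dg, ∀ y ∈ Subgroup.closure Dg, d * y * d⁻¹ ∈ Subgroup.closure Dg := by
    intro d hd y hy
    exact mul_mem (mul_mem (Subgroup.subset_closure hd) hy) (inv_mem (Subgroup.subset_closure hd))
  have hmkI : ∀ i ∈ I, (QuotientGroup.mk' I i : A ⧸ I) = 1 := fun i hi =>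
    (QuotientGroup.eq_one_iff i).mpr hi
  -- the class of `θ = i * d * g * f`
  have hq : ∀ q : A ⧸ I, ∃ d ∈ Dg, ∃ g ∈ Gr, ∃ f ∈ Fd,
      q = QuotientGroup.mk' I d * QuotientGroup.mk' I g * QuotientGroup.mk' I f := by
    intro q
    obtain ⟨θ, rfl⟩ := QuotientGroup.mk'_surjective I q
    obtain ⟨i, hi, d, hd, g, hg, f, hf, rfl⟩ := hdec θ
    refine ⟨d, hd, g, hg, f, hf, ?_⟩
    rw [map_mul, map_mul, map_mul, hmkI i hi, one_mul]
  -- `Dbar` is normal
  have hDn : ((Subgroup.closure Dg).map (QuotientGroup.mk' I)).Normal := by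
    constructor
    intro x hx q
    obtain ⟨y, hy, rfl⟩ := Subgroup.mem_map.mp hx
    obtain ⟨d, hd, g, hg, f, hf, rfl⟩ := hq q
    refine Subgroup.mem_map.mpr ⟨d * (g * (f * y * f⁻¹) * g⁻¹) * d⁻¹, ?_, ?_⟩
    · exact hDcl d hd _ (hconj g (hGD g hg) _ (hconj f (hFD f hf) y hy))
    · simp only [map_mul, map_inv]
      group
  -- `g ∈ Gr` centralises `closure Fd`
  have hcent : ∀ g ∈ Gr, ∀ y ∈ Subgroup.closure Fd, g * y * g⁻¹ = y := by
    intro g hg y hy
    have hle : Subgroup.closure Fd ≤ Subgroup.centralizer {g} := by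
      rw [Subgroup.closure_le]
      intro f hf
      rw [SetLike.mem_coe, Subgroup.mem_centralizer_iff]
      intro h hh
      rw [Set.mem_singleton_iff] at hh
      subst hh
      exact hGF h hg f hf
    have := Subgroup.mem_centralizer_iff.mp (hle hy) g (Set.mem_singleton g)
    rw [this]
    group
  refine ⟨hDn, ?_, ?_, ?_, ?_⟩
  · -- commutativity
    have hcomm : ∀ y ∈ Subgroup.closure Dg, ∀ y' ∈ Subgroup.closure Dg, y * y' = y' * y := by
      intro y hy y' hy'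
      have hle : Subgroup.closure Dg ≤ Subgroup.centralizer (Subgroup.closure Dg : Set A) := by
        rw [Subgroup.closure_le]
        intro d hd
        rw [SetLike.mem_coe, Subgroup.mem_centralizer_iff]
        intro z hz
        have hle2 : Subgroup.closure Dg ≤ Subgroup.centralizer {d} := by
          rw [Subgroup.closure_le]
          intro d' hd'
          rw [SetLike.mem_coe, Subgroup.mem_centralizer_iff]
          intro h hh
          rw [Set.mem_singleton_iff] at hh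
          subst hh
          exact hD h hd d' hd'
        exact (Subgroup.mem_centralizer_iff.mp (hle2 hz) d (Set.mem_singleton d)).symm
      exact (Subgroup.mem_centralizer_iff.mp (hle hy') y hy)
    refine ⟨⟨?_⟩⟩
    rintro ⟨x, hx⟩ ⟨x', hx'⟩
    obtain ⟨y, hy, rfl⟩ := Subgroup.mem_map.mp hx
    obtain ⟨y', hy', rfl⟩ := Subgroup.mem_map.mp hx'
    apply Subtype.ext
    show QuotientGroup.mk' I y * QuotientGroup.mk' I y' = QuotientGroup.mk' I y' * QuotientGroup.mk' I y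
    rw [← map_mul, ← map_mul, hcomm y hy y' hy']
  · -- cyclicity
    obtain ⟨φ0, hφ⟩ := hF
    have hle : (Subgroup.closure Fd).map (QuotientGroup.mk' I) ≤
        Subgroup.zpowers (QuotientGroup.mk' I φ0) := by
      rw [← MonoidHom.map_zpowers]
      apply Subgroup.map_mono
      rw [Subgroup.closure_le]
      exact hφ
    exact Subgroup.isCyclic_of_le hle
  · -- normality of the join
    set Db : Subgroup (A ⧸ I) := (Subgroup.closure Dg).map (QuotientGroup.mk' I) with hDb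
    set Fb : Subgroup (A ⧸ I) := (Subgroup.closure Fd).map (QuotientGroup.mk' I) with hFb
    have hdmem : ∀ d ∈ Dg, QuotientGroup.mk' I d ∈ Db ⊔ Fb := fun d hd =>
      (le_sup_left : Db ≤ Db ⊔ Fb) (Subgroup.mem_map_of_mem _ (Subgroup.subset_closure hd))
    have hfmem : ∀ f ∈ Fd, QuotientGroup.mk' I f ∈ Db ⊔ Fb := fun f hf =>
      (le_sup_right : Fb ≤ Db ⊔ Fb) (Subgroup.mem_map_of_mem _ (Subgroup.subset_closure hf))
    have hgconj : ∀ g ∈ Gr, ∀ x ∈ Db ⊔ Fb,
        QuotientGroup.mk' I g * x * (QuotientGroup.mk' I g)⁻¹ ∈ Db ⊔ Fb := by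
      intro g hg x hx
      have hle : Db ⊔ Fb ≤ (Db ⊔ Fb).comap (MulAut.conj (QuotientGroup.mk' I g)).toMonoidHom := by
        apply sup_le
        · intro z hz
          exact (le_sup_left : Db ≤ Db ⊔ Fb) (hDn.conj_mem z hz _)
        · intro z hz
          obtain ⟨y, hy, rfl⟩ := Subgroup.mem_map.mp hz
          apply (le_sup_right : Fb ≤ Db ⊔ Fb)
          show QuotientGroup.mk' I g * QuotientGroup.mk' I y * (QuotientGroup.mk' I g)⁻¹ ∈ Fb
          rw [← map_inv, ← map_mul, ← map_mul, hcent g hg y hy]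
          exact Subgroup.mem_map_of_mem _ hy
      exact hle hx
    constructor
    intro x hx q
    obtain ⟨d, hd, g, hg, f, hf, rfl⟩ := hq q
    have h1 : QuotientGroup.mk' I f * x * (QuotientGroup.mk' I f)⁻¹ ∈ Db ⊔ Fb :=
      mul_mem (mul_mem (hfmem f hf) hx) (inv_mem (hfmem f hf))
    have h2 := hgconj g hg _ h1
    have h3 := mul_mem (mul_mem (hdmem d hd) h2) (inv_mem (hdmem d hd))
    have e : QuotientGroup.mk' I d * QuotientGroup.mk' I g * QuotientGroup.mk' I f * x *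
        (QuotientGroup.mk' I d * QuotientGroup.mk' I g * QuotientGroup.mk' I f)⁻¹ =
        QuotientGroup.mk' I d * (QuotientGroup.mk' I g *
          (QuotientGroup.mk' I f * x * (QuotientGroup.mk' I f)⁻¹) * (QuotientGroup.mk' I g)⁻¹) *
          (QuotientGroup.mk' I d)⁻¹ := by group
    rw [e]
    exact h3
  · -- representatives
    intro q
    obtain ⟨d, hd, g, hg, f, hf, rfl⟩ := hq q
    refine ⟨g, hg, ?_⟩
    have e : QuotientGroup.mk' I d * QuotientGroup.mk' I g * QuotientGroup.mk' I f *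
        (QuotientGroup.mk' I g)⁻¹ = QuotientGroup.mk' I d * QuotientGroup.mk' I f := by
      rw [mul_assoc, mul_assoc, ← map_inv, ← map_mul, ← map_mul, ← mul_assoc,
        hcent g hg f (Subgroup.subset_closure hf)]
    rw [e]
    exact mul_mem
      ((le_sup_left : (Subgroup.closure Dg).map (QuotientGroup.mk' I) ≤ _)
        (Subgroup.mem_map_of_mem _ (Subgroup.subset_closure hd)))
      ((le_sup_right : (Subgroup.closure Fd).map (QuotientGroup.mk' I) ≤ _)
        (Subgroup.mem_map_of_mem _ (Subgroup.subset_closure hf)))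


/-- **OS-ABSN**. -/
theorem absN : Cfsg.Agent.H46.OS.StAbsN.{u} := by
  intro A _ I _ Dg Fd Gr hD hF hFD hGD hGF hdec Dbar Fbar hDbar hFbar
  exact absN_aux A I Dg Fd Gr hD hF hFD hGD hGF hdec Dbar Fbar hDbar hFbar

example : Cfsg.Agent.H46.OS.StAbsN.{u} =
    (∀ (A : Type u) [Group A] (I : Subgroup A) [I.Normal] (Dg Fd Gr : Set A),
    (∀ d ∈ Dg, ∀ d' ∈ Dg, d * d' = d' * d) →
    (∃ φ0 : A, ∀ f ∈ Fd, f ∈ Subgroup.zpowers φ0) →
    (∀ f ∈ Fd, ∀ d ∈ Dg, f * d * f⁻¹ ∈ Dg) →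
    (∀ g ∈ Gr, ∀ d ∈ Dg, g * d * g⁻¹ ∈ Dg) →
    (∀ g ∈ Gr, ∀ f ∈ Fd, g * f = f * g) →
    (∀ θ : A, ∃ i ∈ I, ∃ d ∈ Dg, ∃ g ∈ Gr, ∃ f ∈ Fd, θ = i * d * g * f) →
    ∀ Dbar Fbar : Subgroup (A ⧸ I),
      Dbar = (Subgroup.closure Dg).map (QuotientGroup.mk' I) →
      Fbar = (Subgroup.closure Fd).map (QuotientGroup.mk' I) →
      Dbar.Normal ∧ IsMulCommutative ↥Dbar ∧ IsCyclic ↥Fbar ∧ (Dbar ⊔ Fbar).Normal ∧
        ∀ q : A ⧸ I, ∃ g ∈ Gr, q * (QuotientGroup.mk' I g)⁻¹ ∈ Dbar ⊔ Fbar) := rfl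

end Cfsg.Agent.H84.OS
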