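import Cfsg.Agent.H48.SpUDefs

/-!
# S2316 piece CAY (helper84): the Cayley-type bijection `X ↦ 1 + X⁻¹`
between invertible elements of the affine space `ASet M` and the elements `g` of `SpSet M`
with `g - 1` invertible.
-/

set_option autoImplicit false

open Matrix Cfsg.Agent.H48.SpU

namespace Cfsg.Agent.H84.SpU

universe u

section

variable {F : Type*} [Field F] {ι : Type*} [Fintype ι] [DecidableEq ι]

theorem cay_fwd (M X Y : Matrix ι ι F) (hXY : X * Y = 1) (hYX : Y * X = 1)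
    (hX : M * X + Xᵀ * M = -M) : (1 + Y)ᵀ * M * (1 + Y) = M := by
  have hYtXt : Yᵀ * Xᵀ = 1 := by rw [← transpose_mul, hXY, transpose_one]
  have h1 : Yᵀ * (M * X) * Y = Yᵀ * M := by
    rw [Matrix.mul_assoc, Matrix.mul_assoc, hXY, Matrix.mul_one]
  have h2 : Yᵀ * (Xᵀ * M) * Y = M * Y := by
    rw [← Matrix.mul_assoc Yᵀ, hYtXt, Matrix.one_mul]
  have key : Yᵀ * (M * X + Xᵀ * M) * Y = Yᵀ * (-M) * Y := by rw [hX]
  rw [Matrix.mul_add, Matrix.add_mul, h1, h2, Matrix.mul_neg, Matrix.neg_mul] at key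
  have key' : Yᵀ * M * Y = -(Yᵀ * M + M * Y) := by rw [key, neg_neg]
  simp only [transpose_add, transpose_one, Matrix.add_mul, Matrix.mul_add, Matrix.one_mul,
    Matrix.mul_one]
  rw [key']; abel

theorem cay_bwd (M g Y : Matrix ι ι F) (hgY : (g - 1) * Y = 1)
    (hg : gᵀ * M * g = M) : M * Y + Yᵀ * M = -M := by
  have hYtgt : Yᵀ * (g - 1)ᵀ = 1 := by rw [← transpose_mul, hgY, transpose_one]
  have e1 : (g - 1)ᵀ * M * (g - 1) + (g - 1)ᵀ * M + M * (g - 1) = 0 := by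
    rw [transpose_sub, transpose_one]
    simp only [Matrix.sub_mul, Matrix.mul_sub, Matrix.one_mul, Matrix.mul_one]
    rw [hg]; abel
  have e2 : Yᵀ * ((g - 1)ᵀ * M * (g - 1) + (g - 1)ᵀ * M + M * (g - 1)) * Y = 0 := by
    rw [e1, Matrix.mul_zero, Matrix.zero_mul]
  have h1 : Yᵀ * ((g - 1)ᵀ * M * (g - 1)) * Y = M := by
    rw [← Matrix.mul_assoc, ← Matrix.mul_assoc, hYtgt, Matrix.one_mul, Matrix.mul_assoc, hgY,
      Matrix.mul_one]
  have h2 : Yᵀ * ((g - 1)ᵀ * M) * Y = M * Y := by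
    rw [← Matrix.mul_assoc, hYtgt, Matrix.one_mul]
  have h3 : Yᵀ * (M * (g - 1)) * Y = Yᵀ * M := by
    rw [Matrix.mul_assoc, Matrix.mul_assoc, hgY, Matrix.mul_one]
  rw [Matrix.mul_add, Matrix.mul_add, Matrix.add_mul, Matrix.add_mul, h1, h2, h3] at e2
  rw [eq_neg_iff_add_eq_zero]
  rw [← e2]; abel

end

theorem cay : CayStmt.{u} := by
  intro F _ _ ι _ _ M
  refine Nat.card_congr
    { toFun := fun X => ⟨1 + (X.1)⁻¹, ?_⟩
      invFun := fun g => ⟨(g.1 - 1)⁻¹, ?_⟩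
      left_inv := ?_
      right_inv := ?_ }
  · obtain ⟨X, hX, hu⟩ := X
    have hd : IsUnit X.det := (Matrix.isUnit_iff_isUnit_det X).mp hu
    refine ⟨cay_fwd M X X⁻¹ (Matrix.mul_nonsing_inv X hd) (Matrix.nonsing_inv_mul X hd) hX, ?_⟩
    show IsUnit ((1 + X⁻¹) - 1)
    rw [add_sub_cancel_left]
    exact (Matrix.isUnit_iff_isUnit_det _).mpr (Matrix.isUnit_nonsing_inv_det X hd)
  · obtain ⟨g, hg, hu⟩ := g
    have hd : IsUnit (g - 1).det := (Matrix.isUnit_iff_isUnit_det _).mp hu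
    refine ⟨cay_bwd M g (g - 1)⁻¹ (Matrix.mul_nonsing_inv _ hd) hg,
      ?_⟩
    exact (Matrix.isUnit_iff_isUnit_det _).mpr (Matrix.isUnit_nonsing_inv_det _ hd)
  · rintro ⟨X, hX, hu⟩
    have hd : IsUnit X.det := (Matrix.isUnit_iff_isUnit_det X).mp hu
    apply Subtype.ext
    show ((1 + X⁻¹) - 1)⁻¹ = X
    rw [add_sub_cancel_left, Matrix.nonsing_inv_nonsing_inv X hd]
  · rintro ⟨g, hg, hu⟩
    have hd : IsUnit (g - 1).det := (Matrix.isUnit_iff_isUnit_det _).mp hu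
    apply Subtype.ext
    show 1 + ((g - 1)⁻¹)⁻¹ = g
    rw [Matrix.nonsing_inv_nonsing_inv _ hd]; abel

example : CayStmt.{u} := cay

end Cfsg.Agent.H84.SpU
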