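import Mathlib
import Cfsg.Agent.H84.SpnBase

/-! S5956 piece SPN-INV2PIECE (helper42's project): in characteristic 2 an involutory isometry
has, inside every nonzero invariant nondegenerate subspace, an invariant nondegenerate subspace
of dimension 2 or 4. -/

set_option autoImplicit false

namespace Cfsg.Agent.H84.Spn

open Cfsg.Agent.H45 Cfsg.Agent.H42.Spd Cfsg.Agent.H42.Spn Module

universe u v

theorem inv2Piece (hH : StIsoHyp.{u,v}) : StInv2Piece.{u,v} := by
  intro F _ _ V _ _ _ B T h2 hI hTT W hW hW0
  obtain ⟨hWinv, hWnd⟩ := hW
  have hWT : ∀ w ∈ W, T w ∈ W := fun w hw => (Module.End.mem_invtSubmodule T).mp hWinv hw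
  have hTTv : ∀ v, T (T v) = v := by
    intro v
    have := congrArg (fun f : Module.End F V => f v) hTT
    simpa [Module.End.mul_apply] using this
  by_cases hq : ∃ v ∈ W, B v (T v) ≠ 0
  · obtain ⟨v, hv, hne⟩ := hq
    obtain ⟨P, hPW, hP, hfr⟩ := plane_of_ne hI.alt W hWinv v hv hne 1 (by rw [hTTv, one_smul])
    exact ⟨P, hPW, hP, Or.inl hfr⟩
  · push Not at hq
    by_cases hfix : ∀ v ∈ W, T v = v
    · obtain ⟨U, hUW, hUnd, hfr⟩ := hH F V B T hI W hWnd hW0
      refine ⟨U, hUW, ⟨?_, hUnd⟩, Or.inl hfr⟩
      rw [Module.End.mem_invtSubmodule]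
      intro u hu
      change T u ∈ U
      rw [hfix u (hUW hu)]
      exact hu
    · push Not at hfix
      obtain ⟨v, hv, hTv⟩ := hfix
      have hvv : v + v = 0 := by
        have : (2 : F) • v = 0 := by rw [h2, zero_smul]
        rwa [two_smul] at this
      have hu0 : T v + v ≠ 0 := by
        intro h
        apply hTv
        have h1 : T v = -v := eq_neg_of_add_eq_zero_left h
        rw [h1]
        exact neg_eq_of_add_eq_zero_left hvv
      have hu0W : T v + v ∈ W := W.add_mem (hWT v hv) hv
      obtain ⟨w, hw, hwne⟩ : ∃ w ∈ W, B w (T v + v) ≠ 0 := by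
        by_contra hcon
        push Not at hcon
        have : T v + v ∈ W ⊓ perp B W := ⟨hu0W, hcon⟩
        rw [hWnd] at this
        exact hu0 ((Submodule.mem_bot F).mp this)
      -- Gram entries
      have e1 : B (T v) w = B v (T w) := by
        rw [← hI.isom (T v) w, hTTv]
      have e2 : B (T v) (T w) = B v w := hI.isom v w
      have e3 : B w v = -B v w := alt_skew hI.alt w v
      have e4 : B w (T v) = -B v (T w) := by rw [alt_skew hI.alt w (T v), e1]
      have e5 : B (T w) v = -B v (T w) := alt_skew hI.alt (T w) v
      have e6 : B (T w) (T v) = -B v w := by rw [hI.isom, e3]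
      have e7 : B (T v) v = 0 := by rw [alt_skew hI.alt, hq v hv, neg_zero]
      have e8 : B (T w) w = 0 := by rw [alt_skew hI.alt, hq w hw, neg_zero]
      have hab : B v w + B v (T w) ≠ 0 := by
        intro h
        apply hwne
        rw [map_add, e4, e3, ← neg_add, add_comm, h, neg_zero]
      obtain ⟨P, hPW, hP, hfr⟩ := nd_span B T W ![v, T v, w, T w] (by
        intro a ha
        have h0 := ha 0
        have h1 := ha 1
        have h2' := ha 2
        have h3 := ha 3
        simp [Fin.sum_univ_four, hI.alt, hq v hv, hq w hw, e1, e2, e3, e4, e5, e6, e7, e8]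
          at h0 h1 h2' h3
        have s23 : (a 2 + a 3) * (B v w + B v (T w)) = 0 := by linear_combination h0 + h1
        have s23' : a 2 + a 3 = 0 := by
          rcases mul_eq_zero.mp s23 with h | h
          · exact h
          · exact absurd h hab
        have t2 : a 2 * (B v w + B v (T w)) = 0 := by
          linear_combination h0 - B v (T w) * s23' + (a 2 * B v (T w)) * h2
        have a2 : a 2 = 0 := by
          rcases mul_eq_zero.mp t2 with h | h
          · exact h
          · exact absurd h hab
        have a3 : a 3 = 0 := by rw [a2, zero_add] at s23'; exact s23'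
        have s01 : (a 0 + a 1) * (B v w + B v (T w)) = 0 := by linear_combination -h2' - h3
        have s01' : a 0 + a 1 = 0 := by
          rcases mul_eq_zero.mp s01 with h | h
          · exact h
          · exact absurd h hab
        have t0 : a 0 * (B v w + B v (T w)) = 0 := by
          linear_combination -h2' - B v (T w) * s01' + (a 0 * B v (T w)) * h2
        have a0 : a 0 = 0 := by
          rcases mul_eq_zero.mp t0 with h | h
          · exact h
          · exact absurd h hab
        have a1 : a 1 = 0 := by rw [a0, zero_add] at s01'; exact s01'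
        ext i
        fin_cases i
        · exact a0
        · exact a1
        · exact a2
        · exact a3) (by
        intro i
        fin_cases i
        · exact hv
        · exact hWT v hv
        · exact hw
        · exact hWT w hw) (by
        intro i
        fin_cases i
        · exact Submodule.subset_span ⟨1, rfl⟩
        · change T (T v) ∈ _
          rw [hTTv]
          exact Submodule.subset_span ⟨0, rfl⟩
        · exact Submodule.subset_span ⟨3, rfl⟩
        · change T (T w) ∈ _
          rw [hTTv]
          exact Submodule.subset_span ⟨2, rfl⟩)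
      exact ⟨P, hPW, hP, Or.inr hfr⟩

example : Cfsg.Agent.H42.Spn.StIsoHyp.{u,v} → Cfsg.Agent.H42.Spn.StInv2Piece.{u,v} := inv2Piece

end Cfsg.Agent.H84.Spn
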