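import Mathlib
import Cfsg.Agent.H93.U33Defs

/-!
# S3670 piece U-RKM (helper84): the spectrum of the orthogonality graph on the 63 points

By invariance (RK-I) and transitivity (RK-T) the polynomial identity and the traces reduce to
row `0` of `A`, `A²`, `A³`, `A⁴`, which are tabulated and checked in the kernel with helper6's
coded arithmetic of the field with nine elements.
-/

set_option autoImplicit false

namespace Cfsg.Agent.H84.U33

open Cfsg Cfsg.Agent.H6.G22 Cfsg.Agent.H6.L29 Cfsg.Agent.H93.U33
open Cfsg.Agent.H6.Ree3 (forceN allN sumN allN_spec sumN_eq)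

/-- Orthogonality of two points, in codes. -/
def orthN (i j : ℕ) : Bool :=
  gadd (gadd (gmul (ptN i 0) (gcube (ptN j 0))) (gmul (ptN i 1) (gcube (ptN j 1))))
    (gmul (ptN i 2) (gcube (ptN j 2))) == 0

/-- Adjacency, in codes. -/
def adjN (i j : ℕ) : ℕ := if orthN i j then 1 else 0

def r2T : ℕ := 361479302451078400254020758847260796553937994115935491411016476928711526351640309639676672852223835330713320699853475635463024291165222904261458994095739394713450506732936807753879717191009040716428827279304677941988884486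
def r3T : ℕ := 125569330940574243150742418200668557337477515127771390938704554553815458497588856812415921536302664239092630414468967710025648871502871992226689569405306328674776209663493932892156180001829351993264664643652587180376237124626357759454009633972769287628057999846702916328063311253876251806023428014086
def r4T : ℕ := 627846654702871215753712091003342786687387575638856954693522772769077292487949706251616373857516249707849942662654497006967731094756711206566506584048784233219365260744316042946531005694058963303105893834392516865297358688007811249553996315595076702966581209231364151959251730914832836898514567495746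

def r2N (j : ℕ) : ℕ := (r2T >>> (16 * j)) &&& 65535
def r3N (j : ℕ) : ℕ := (r3T >>> (16 * j)) &&& 65535
def r4N (j : ℕ) : ℕ := (r4T >>> (16 * j)) &&& 65535

def chk2 : Bool := allN 63 fun j => r2N j == sumN 63 fun l => adjN 0 l * adjN l j
def chk3 : Bool := allN 63 fun j => r3N j == sumN 63 fun l => r2N l * adjN l j
def chk4 : Bool := allN 63 fun j => r4N j == sumN 63 fun l => r3N l * adjN l j
def chkP : Bool := allN 63 fun j =>
  r4N j + 45 * adjN 0 j + (if j = 0 then 54 else 0) == 5 * r3N j + 15 * r2N j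
def chkD : Bool := adjN 0 0 == 0 && r2N 0 == 6 && r3N 0 == 6

set_option maxRecDepth 100000 in
theorem chk2_true : chk2 = true := by decide +kernel
set_option maxRecDepth 100000 in
theorem chk3_true : chk3 = true := by decide +kernel
set_option maxRecDepth 100000 in
theorem chk4_true : chk4 = true := by decide +kernel
set_option maxRecDepth 100000 in
theorem chkP_true : chkP = true := by decide +kernel
theorem chkD_true : chkD = true := by decide +kernel

theorem orth_iff (i j : Fin 63) : orth i j ↔ orthN i.val j.val = true := by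
  have hp : ∀ (n : Fin 63) (y : Fin 3), encE (ptn n.val y) = ptN n.val y.val :=
    fun n y => enc_dE ⟨ptN n.val y.val, ptN_lt n y⟩
  have hp0 := fun n : Fin 63 => hp n 0
  have hp1 := fun n : Fin 63 => hp n 1
  have hp2 := fun n : Fin 63 => hp n 2
  simp only [Fin.val_zero, Fin.val_one, Fin.val_two] at hp0 hp1 hp2
  have key : encE (Cfsg.hermForm 3 GF9 3 (ptn i.val) (ptn j.val)) =
      gadd (gadd (gmul (ptN i.val 0) (gcube (ptN j.val 0)))
        (gmul (ptN i.val 1) (gcube (ptN j.val 1)))) (gmul (ptN i.val 2) (gcube (ptN j.val 2))) := by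
    unfold Cfsg.hermForm
    rw [Fin.sum_univ_three, enc_add, enc_add, enc_mul, enc_mul, enc_mul, enc_cube, enc_cube,
      enc_cube, hp0, hp0, hp1, hp1, hp2, hp2]
  unfold orth orthN
  rw [← key, beq_iff_eq]
  constructor
  · intro h; rw [h]; exact enc_zero
  · intro h; exact enc_inj _ _ (h.trans enc_zero.symm)

theorem adjM_apply (i j : Fin 63) : adjM i j = ((adjN i.val j.val : ℕ) : ℤ) := by
  unfold adjM adjN
  rw [Matrix.of_apply]
  by_cases h : orth i j
  · rw [if_pos h, if_pos ((orth_iff i j).mp h), Nat.cast_one]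
  · rw [if_neg h, if_neg (fun h' => h ((orth_iff i j).mpr h')), Nat.cast_zero]

/-- Products of matrices invariant under a permutation are invariant. -/
theorem inv_mul (σ : Equiv.Perm (Fin 63)) (M N : Matrix (Fin 63) (Fin 63) ℤ)
    (hM : ∀ i j, M (σ i) (σ j) = M i j) (hN : ∀ i j, N (σ i) (σ j) = N i j) (i j : Fin 63) :
    (M * N) (σ i) (σ j) = (M * N) i j := by
  rw [Matrix.mul_apply, Matrix.mul_apply, ← Equiv.sum_comp σ]
  exact Finset.sum_congr rfl fun l _ => by rw [hM, hN]

theorem inv_pow (σ : Equiv.Perm (Fin 63)) (M : Matrix (Fin 63) (Fin 63) ℤ)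
    (hM : ∀ i j, M (σ i) (σ j) = M i j) (k : ℕ) (i j : Fin 63) :
    (M ^ k) (σ i) (σ j) = (M ^ k) i j := by
  induction k generalizing i j with
  | zero =>
    rw [pow_zero, Matrix.one_apply, Matrix.one_apply]
    simp only [σ.injective.eq_iff]
  | succ k ih =>
    rw [pow_succ]
    exact inv_mul σ _ _ ih hM i j

/-- One step of the row recursion. -/
theorem row_succ (k : ℕ) (f g : ℕ → ℕ)
    (hf : ∀ l : Fin 63, (adjM ^ k) 0 l = ((f l.val : ℕ) : ℤ))
    (hg : ∀ j, j < 63 → g j = sumN 63 fun l => f l * adjN l j) (j : Fin 63) :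
    (adjM ^ (k + 1)) 0 j = ((g j.val : ℕ) : ℤ) := by
  rw [pow_succ, Matrix.mul_apply, hg j.val j.2, sumN_eq, Nat.cast_sum,
    ← Fin.sum_univ_eq_sum_range (fun l => (((f l * adjN l j.val : ℕ)) : ℤ)) 63]
  refine Finset.sum_congr rfl fun l _ => ?_
  rw [hf l, adjM_apply, Nat.cast_mul]

theorem rkM : Cfsg.Agent.H93.U33.StmtRkM := by
  intro hT hI
  have hinv : ∀ (X : SU9) (i j : Fin 63), adjM (rho X i) (rho X j) = adjM i j := by
    intro X i j
    unfold adjM
    rw [Matrix.of_apply, Matrix.of_apply]
    exact if_congr (hI X i j) rfl rfl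
  have hpinv : ∀ (k : ℕ) (X : SU9) (i j : Fin 63),
      (adjM ^ k) (rho X i) (rho X j) = (adjM ^ k) i j :=
    fun k X i j => inv_pow (rho X) adjM (hinv X) k i j
  -- reduction to row 0
  have hred : ∀ (k : ℕ) (i j : Fin 63), ∃ j' : Fin 63,
      ((adjM ^ k) i j = (adjM ^ k) 0 j') ∧ ((i = j) ↔ ((0 : Fin 63) = j')) ∧
      ∀ k' : ℕ, (adjM ^ k') i j = (adjM ^ k') 0 j' := by
    intro k i j
    obtain ⟨X, hX⟩ := hT i
    refine ⟨(rho X).symm j, ?_, ?_, ?_⟩
    · have h := hpinv k X 0 ((rho X).symm j)
      rw [hX, Equiv.apply_symm_apply] at h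
      exact h
    · rw [← hX]
      constructor
      · intro h; rw [← h, Equiv.symm_apply_apply]
      · intro h; rw [h, Equiv.apply_symm_apply]
    · intro k'
      have h := hpinv k' X 0 ((rho X).symm j)
      rw [hX, Equiv.apply_symm_apply] at h
      exact h
  -- the rows
  have h1 : ∀ l : Fin 63, (adjM ^ 1) 0 l = ((adjN 0 l.val : ℕ) : ℤ) := by
    intro l; rw [pow_one, adjM_apply]; rfl
  have h2 : ∀ l : Fin 63, (adjM ^ 2) 0 l = ((r2N l.val : ℕ) : ℤ) :=
    row_succ 1 (adjN 0) r2N h1 (fun j hj => by
      have := allN_spec chk2_true j hj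
      exact beq_iff_eq.mp this)
  have h3 : ∀ l : Fin 63, (adjM ^ 3) 0 l = ((r3N l.val : ℕ) : ℤ) :=
    row_succ 2 r2N r3N h2 (fun j hj => by
      have := allN_spec chk3_true j hj
      exact beq_iff_eq.mp this)
  have h4 : ∀ l : Fin 63, (adjM ^ 4) 0 l = ((r4N l.val : ℕ) : ℤ) :=
    row_succ 3 r3N r4N h3 (fun j hj => by
      have := allN_spec chk4_true j hj
      exact beq_iff_eq.mp this)
  have hD : adjN 0 0 = 0 ∧ r2N 0 = 6 ∧ r3N 0 = 6 := by
    have h := chkD_true
    unfold chkD at h
    rw [Bool.and_eq_true, Bool.and_eq_true, beq_iff_eq, beq_iff_eq, beq_iff_eq] at h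
    exact ⟨h.1.1, h.1.2, h.2⟩
  have htrace : ∀ k : ℕ, (adjM ^ k).trace = 63 * (adjM ^ k) 0 0 := by
    intro k
    rw [Matrix.trace]
    have hdiag : ∀ i : Fin 63, Matrix.diag (adjM ^ k) i = (adjM ^ k) 0 0 := by
      intro i
      obtain ⟨j', h1', h2', -⟩ := hred k i i
      rw [Matrix.diag_apply, h1', ← h2'.mp rfl]
    rw [Finset.sum_congr rfl (fun i _ => hdiag i), Finset.sum_const, Finset.card_univ,
      Fintype.card_fin, nsmul_eq_mul]
    norm_num
  have hz : ((0 : Fin 63) : ℕ) = 0 := rfl
  refine ⟨?_, ?_, ?_, ?_⟩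
  · ext i j
    obtain ⟨j', -, hij, hk⟩ := hred 1 i j
    have hP := allN_spec chkP_true j'.val j'.2
    rw [beq_iff_eq] at hP
    have hPz : ((r4N j'.val : ℕ) : ℤ) + 45 * ((adjN 0 j'.val : ℕ) : ℤ)
        + (if (0 : Fin 63) = j' then 54 else 0)
        = 5 * ((r3N j'.val : ℕ) : ℤ) + 15 * ((r2N j'.val : ℕ) : ℤ) := by
      have h5 : (if (0 : Fin 63) = j' then (54 : ℤ) else 0)
          = (((if j'.val = 0 then 54 else 0 : ℕ)) : ℤ) := by
        by_cases h0 : (0 : Fin 63) = j'
        · rw [if_pos h0, ← h0]; simp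
        · have h0' : ¬ (j'.val = 0) := fun h => h0 (Fin.ext h.symm)
          rw [if_neg h0, if_neg h0']; simp
      rw [h5]
      exact_mod_cast hP
    simp only [Matrix.add_apply, Matrix.sub_apply, Matrix.smul_apply, Matrix.zero_apply,
      Matrix.one_apply]
    simp only [nsmul_eq_mul]
    have e4 := hk 4
    have e3 := hk 3
    have e2 := hk 2
    have e1 := hk 1
    rw [h4] at e4
    rw [h3] at e3
    rw [h2] at e2
    rw [h1] at e1
    rw [pow_one] at e1
    rw [e4, e3, e2, e1]
    by_cases h0 : i = j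
    · rw [if_pos h0]
      rw [if_pos (hij.mp h0)] at hPz
      push_cast
      linarith
    · rw [if_neg h0]
      rw [if_neg (fun h => h0 (hij.mpr h))] at hPz
      push_cast
      linarith
  · have h := htrace 1
    rw [pow_one] at h
    rw [h, adjM_apply, hz, hD.1]
    simp
  · rw [htrace 2, h2, hz, hD.2.1]
    norm_num
  · rw [htrace 3, h3, hz, hD.2.2]
    norm_num

example : Cfsg.Agent.H93.U33.StmtRkM := rkM

end Cfsg.Agent.H84.U33
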