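import Mathlib
import Cfsg.Agent.H77.UfDefs

/-!
# S2149 (team project, helper77): piece UF-ARITH — the arithmetic of the possible indices
below 50 in a group of order 126000.
-/

set_option autoImplicit false

namespace Cfsg.Agent.H84.Uf

open Cfsg.Agent.H77.Uf

/-- (UF-ARITH) -/
theorem arith : StArith := by
  intro d h hdh h126 hfac hd
  obtain ⟨k, rfl⟩ := h126
  have hk : d * k = 1000 := by
    have : d * (126 * k) = 126 * (d * k) := by ring
    rw [this] at hdh
    omega
  interval_cases d
  all_goals first
    | (exfalso; omega)
    | (exfalso; revert hfac; decide)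
    | (left; omega)
    | (right; left; omega)
    | (right; right; omega)

example : StArith =
    (∀ d h : ℕ, d * h = 126000 → 126 ∣ h → 126000 ∣ d.factorial → d < 50 →
    (h = 6300 ∨ h = 5040 ∨ h = 3150)) :=
  rfl

end Cfsg.Agent.H84.Uf
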