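import Mathlib
import Cfsg.Agent.H77.UfDefs
import Cfsg.Agent.H54.PmFisher

/-!
# S2149 (team project, helper77): piece UF-TRANSDVD — a subgroup `H` of `S / Z(S)`, for `S`
2-transitive on at least 3 points `Ω`, has index at least `|Ω|` or order divisible by `|Ω|`.

The preimage `Ht` of `H` in `S` is either intransitive (Fisher's inequality, helper54) or
transitive; the centre acts trivially, so it lies in the point stabilizer and
`|Ω| = [Ht : Ht_p] = [H : image of S_p]` divides `|H|`.
-/

set_option autoImplicit false

universe u v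

namespace Cfsg.Agent.H84.Uf

open Cfsg.Agent.H77.Uf

/-- the centre of a 2-transitive group on at least 3 points acts trivially -/
theorem center_smul_of_twoTrans {S : Type u} [Group S] {Ω : Type v} [Finite Ω] [MulAction S Ω]
    (h2 : TwoTrans S Ω) (h3 : 3 ≤ Nat.card Ω) (z : S) (hz : z ∈ Subgroup.center S) (q : Ω) :
    z • q = q := by
  by_contra hne
  obtain ⟨r, hr1, hr2⟩ : ∃ r : Ω, r ≠ q ∧ r ≠ z • q := by
    by_contra hcon
    push Not at hcon
    have hsub : (Set.univ : Set Ω) ⊆ {q, z • q} := by
      intro r _
      by_cases hrq : r = q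
      · left; exact hrq
      · right; exact hcon r hrq
    have h4 := Set.ncard_le_ncard hsub (Set.toFinite _)
    rw [Set.ncard_univ] at h4
    have h5 : ({q, z • q} : Set Ω).ncard ≤ 2 := by
      have := Set.ncard_insert_le q ({z • q} : Set Ω)
      rw [Set.ncard_singleton] at this
      exact this
    omega
  obtain ⟨g, hg1, hg2⟩ := h2 q (z • q) q r (fun h => hne h.symm) (fun h => hr1 h.symm)
  have hzc : g * z = z * g := Subgroup.mem_center_iff.mp hz g
  apply hr2
  rw [← hg2, ← mul_smul, hzc, mul_smul, hg1]

/-- (UF-TRANSDVD) -/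
theorem transDvd : StTransDvd.{u, v} := by
  intro S _ _ Ω _ _ h2 h3 H
  classical
  set f : S →* S ⧸ Subgroup.center S := QuotientGroup.mk' (Subgroup.center S) with hf
  have hfs : Function.Surjective f := QuotientGroup.mk'_surjective _
  set Ht : Subgroup S := H.comap f with hHt
  have hne : Nonempty Ω := by
    by_contra hemp
    rw [not_nonempty_iff] at hemp
    rw [Nat.card_of_isEmpty] at h3
    omega
  obtain ⟨p⟩ := hne
  by_cases hO : MulAction.orbit ↥Ht p = Set.univ
  · right
    set St := MulAction.stabilizer S p with hSt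
    have hker : f.ker ≤ St := by
      intro z hz
      rw [hf, QuotientGroup.ker_mk'] at hz
      exact center_smul_of_twoTrans h2 h3 z hz p
    have h1 : St.relIndex Ht = Nat.card Ω := by
      have e1 : St.subgroupOf Ht = MulAction.stabilizer ↥Ht p := by
        ext x
        rfl
      rw [Subgroup.relIndex, e1, MulAction.index_stabilizer, hO, Set.ncard_univ]
    have h2' : St.relIndex Ht = (St.map f).relIndex H := by
      have e2 : (St.map f).comap f = St := Subgroup.comap_map_eq_self hker
      have e3 : Ht.map f = H := Subgroup.map_comap_eq_self_of_surjective hfs H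
      conv_lhs => rw [← e2]
      rw [Subgroup.relIndex_comap, e3]
    rw [← h1, h2']
    exact Subgroup.relIndex_dvd_card _ _
  · left
    have h := Cfsg.Agent.H54.Pm.fisher_index h2 Ht (MulAction.orbit ↥Ht p)
      ⟨p, MulAction.mem_orbit_self p⟩ hO (by
        intro h hh q hq
        exact MulAction.mem_orbit_of_mem_orbit (⟨h, hh⟩ : ↥Ht) hq)
    rw [hHt, Subgroup.index_comap_of_surjective H hfs] at h
    exact h

example : StTransDvd.{u, v} =
    (∀ {S : Type u} [Group S] [Finite S] {Ω : Type v} [Finite Ω] [MulAction S Ω],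
    TwoTrans S Ω → 3 ≤ Nat.card Ω →
    ∀ H : Subgroup (S ⧸ Subgroup.center S), Nat.card Ω ≤ H.index ∨ Nat.card Ω ∣ Nat.card H) :=
  rfl

end Cfsg.Agent.H84.Uf
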