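import Mathlib
import Cfsg.Agent.H42.UtDefs
import Cfsg.Agent.H42.UnBase

/-!
# S5953 team project, piece UT-EXTWO (helper84)

For an odd prime `r ∣ q + 1` the field `F` with `q ^ 2` elements has an element `ζ` of
multiplicative order `r`, with `ζ ^ (q + 1) = 1`.  The diagonal matrix with entries
`ζ, ζ⁻¹, ζ², ζ⁻², …, ζᵃ, ζ⁻ᵃ, 1, …, 1` (`a = min ((r - 1) / 2) (n / 2)`) lies in `SU_n(q)`, has
order `r`, is not scalar, its eigenvalues `≠ 1` are simple and its fixed space has dimension
`n - 2 a`, which is `≤ 1` or `n + 1 - r`.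
-/

set_option autoImplicit false

namespace Cfsg.Agent.H84.Ut

open Cfsg.Agent.H45 Cfsg.Agent.H42.Spd Cfsg.Agent.H42.Un Cfsg.Agent.H42.Ti Cfsg.Agent.H42.Ut Module
  Polynomial

universe u

/-- The exponent pattern `1, -1, 2, -2, …, a, -a, 0, 0, …`. -/
def exq (a : ℕ) (j : ℕ) : ℤ :=
  if j < 2 * a then (if j % 2 = 0 then ((j / 2 + 1 : ℕ) : ℤ) else -((j / 2 + 1 : ℕ) : ℤ)) else 0

theorem exq_bounds (a j : ℕ) : -(a : ℤ) ≤ exq a j ∧ exq a j ≤ a := by
  unfold exq
  split_ifs <;> constructor <;> omega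

theorem exq_eq_zero_iff (a j : ℕ) : exq a j = 0 ↔ 2 * a ≤ j := by
  unfold exq
  split_ifs <;> constructor <;> intro h <;> omega

theorem exq_inj (a j j' : ℕ) (h : exq a j = exq a j') (h0 : exq a j ≠ 0) : j = j' := by
  unfold exq at h h0
  split_ifs at h h0 <;> omega

theorem exq_zero_one (a : ℕ) (ha : 0 < a) : exq a 0 ≠ exq a 1 := by
  have e0 : exq a 0 = 1 := by
    unfold exq
    rw [if_pos (by omega), if_pos (by norm_num)]
    norm_num
  have e1 : exq a 1 = -1 := by
    unfold exq
    rw [if_pos (by omega), if_neg (by norm_num)]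
    norm_num
  rw [e0, e1]
  norm_num

theorem prod_exq {G : Type*} [CommGroup G] (ζ : G) (a : ℕ) (m : ℕ) (hm : 2 * a ≤ m) :
    ∏ j ∈ Finset.range m, ζ ^ exq a j = 1 := by
  have h1 : ∀ k, k ≤ a → ∏ j ∈ Finset.range (2 * k), ζ ^ exq a j = 1 := by
    intro k
    induction k with
    | zero => intro _; simp
    | succ k ih =>
      intro hk
      have e : 2 * (k + 1) = 2 * k + 1 + 1 := by ring
      have e1 : exq a (2 * k) = ((k + 1 : ℕ) : ℤ) := by
        unfold exq
        split_ifs <;> omega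
      have e2 : exq a (2 * k + 1) = -((k + 1 : ℕ) : ℤ) := by
        unfold exq
        split_ifs <;> omega
      rw [e, Finset.prod_range_succ, Finset.prod_range_succ, ih (by omega), e1, e2, one_mul,
        ← zpow_add, add_neg_cancel, zpow_zero]
  have h2 : ∀ t, ∏ j ∈ Finset.range (2 * a + t), ζ ^ exq a j = 1 := by
    intro t
    induction t with
    | zero => exact h1 a le_rfl
    | succ t ih =>
      have e : exq a (2 * a + t) = 0 := by
        unfold exq
        split_ifs <;> omega
      rw [← add_assoc, Finset.prod_range_succ, ih, e, zpow_zero, one_mul]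
  obtain ⟨t, rfl⟩ := Nat.exists_eq_add_of_le hm
  exact h2 t

section Diag

variable {F : Type u} [Field F] [DecidableEq F]

/-- The nullity of a diagonal matrix. -/
theorem finrank_ker_diagonal {n : ℕ} (w : Fin n → F) :
    Module.finrank F (LinearMap.ker (Matrix.toLin' (Matrix.diagonal w))) =
      (Finset.univ.filter fun j => w j = 0).card := by
  classical
  have h1 := LinearMap.finrank_range_add_finrank_ker (Matrix.toLin' (Matrix.diagonal w))
  rw [Module.finrank_fintype_fun_eq_card, Fintype.card_fin] at h1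
  have h2 : Module.finrank F (LinearMap.range (Matrix.toLin' (Matrix.diagonal w))) =
      Fintype.card {i // w i ≠ 0} := by
    rw [← Matrix.rank_diagonal w, Matrix.rank, Matrix.toLin'_apply']
  have h3 : (Finset.univ.filter fun j => w j = 0).card + Fintype.card {i // w i ≠ 0} = n := by
    rw [Fintype.card_subtype]
    have h := Finset.card_filter_add_card_filter_not
      (s := (Finset.univ : Finset (Fin n))) (fun j => w j = 0)
    rw [Finset.card_univ, Fintype.card_fin] at h
    exact h
  omega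

/-- The eigenspaces of a diagonal matrix. -/
theorem finrank_ker_diagonal_sub {n : ℕ} (d : Fin n → F) (c : F) :
    Module.finrank F (LinearMap.ker (Matrix.toLin' (Matrix.diagonal d) -
        c • (1 : Module.End F (Fin n → F)))) =
      (Finset.univ.filter fun j => d j = c).card := by
  have e : Matrix.toLin' (Matrix.diagonal d) - c • (1 : Module.End F (Fin n → F)) =
      Matrix.toLin' (Matrix.diagonal fun j => d j - c) := by
    apply LinearMap.ext
    intro v
    ext i
    simp only [LinearMap.sub_apply, LinearMap.smul_apply, Module.End.one_apply, Pi.sub_apply,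
      Pi.smul_apply, Matrix.toLin'_apply, Matrix.mulVec_diagonal, smul_eq_mul, sub_mul]
  rw [e, finrank_ker_diagonal]
  congr 1
  exact Finset.filter_congr fun j _ => sub_eq_zero

end Diag

/-- Counting the indices `≥ b` below `n`. -/
theorem card_filter_le_val (n b : ℕ) :
    (Finset.univ.filter fun j : Fin n => b ≤ j.val).card = n - b := by
  rw [Finset.card_filter, Fin.sum_univ_eq_sum_range (fun j => if b ≤ j then 1 else 0) n,
    ← Finset.card_filter]
  have e : (Finset.range n).filter (fun j => b ≤ j) = Finset.Ico b n := by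
    ext j
    rw [Finset.mem_filter, Finset.mem_range, Finset.mem_Ico]
    exact and_comm
  rw [e, Nat.card_Ico]

/-- UT-EXTWO. -/
theorem utExTwo : StUtExTwo.{u} := by
  intro F _ _ q hF r hr hr2 hrq Φs hΦ n hn
  classical
  haveI : Fact r.Prime := ⟨hr⟩
  -- an element of order `r`
  have hfac : q ^ 2 - 1 = (q + 1) * (q - 1) := by
    rcases q with _ | m
    · rfl
    · rw [Nat.add_sub_cancel]
      exact Nat.sub_eq_of_eq_add (by ring)
  have hdvd : r ∣ Fintype.card Fˣ := by
    rw [Fintype.card_units, hF, hfac]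
    exact Dvd.dvd.mul_right hrq _
  obtain ⟨ζ, hζ⟩ := exists_prime_orderOf_dvd_card r hdvd
  have hζr : ζ ^ r = 1 := by rw [← hζ]; exact pow_orderOf_eq_one ζ
  have hζq : ζ ^ (q + 1) = 1 := by
    obtain ⟨k, hk⟩ := hrq
    rw [hk, pow_mul, hζr, one_pow]
  obtain ⟨h, hh⟩ : ∃ h, r = 2 * h + 1 := by
    rcases hr.eq_two_or_odd' with h | h
    · exact absurd h hr2
    · exact h
  have hh0 : 0 < h := by
    have := hr.two_le
    omega
  obtain ⟨a, ha⟩ : ∃ a, a = min h (n / 2) := ⟨_, rfl⟩
  have hah : a ≤ h := by rw [ha]; exact min_le_left _ _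
  have han : a ≤ n / 2 := by rw [ha]; exact min_le_right _ _
  have hach : a = h ∨ a = n / 2 := by rw [ha]; exact min_choice _ _
  have ha0 : 0 < a := by
    rcases hach with h1 | h1 <;> omega
  -- injectivity of `e ↦ ζ ^ e` on `[-h, h]`
  have hzinj : ∀ e e' : ℤ, -(h : ℤ) ≤ e → e ≤ h → -(h : ℤ) ≤ e' → e' ≤ h → ζ ^ e = ζ ^ e' →
      e = e' := by
    intro e e' h1 h2 h3 h4 h5
    rw [zpow_eq_zpow_iff_modEq, hζ, Int.modEq_iff_dvd] at h5
    have h6 : e' - e = 0 := by
      apply Int.eq_zero_of_abs_lt_dvd h5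
      rw [abs_lt, hh]
      push_cast
      constructor <;> omega
    omega
  obtain ⟨d, hd⟩ : ∃ d : Fin n → Fˣ, d = fun j => ζ ^ exq a j.val := ⟨_, rfl⟩
  have hdj : ∀ j, d j = ζ ^ exq a j.val := fun j => by rw [hd]
  have hdr : ∀ j, ((d j : Fˣ) : F) ^ r = 1 := by
    intro j
    rw [← Units.val_pow_eq_pow_val, hdj, ← zpow_natCast, ← zpow_mul, mul_comm, zpow_mul,
      zpow_natCast, hζr, one_zpow, Units.val_one]
  have hdq : ∀ j, ((d j : Fˣ) : F) ^ (q + 1) = 1 := by
    intro j
    rw [← Units.val_pow_eq_pow_val, hdj, ← zpow_natCast, ← zpow_mul, mul_comm, zpow_mul,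
      zpow_natCast, hζq, one_zpow, Units.val_one]
  have hprod : ∏ j, ((d j : Fˣ) : F) = 1 := by
    rw [← Units.coe_prod, hd, Fin.prod_univ_eq_prod_range (fun j => ζ ^ exq a j) n,
      prod_exq ζ a n (by omega), Units.val_one]
  have hdinj : ∀ j j' : Fin n, ((d j : Fˣ) : F) = d j' → exq a j.val = exq a j'.val := by
    intro j j' hjj
    have h1 : d j = d j' := Units.ext hjj
    rw [hdj, hdj] at h1
    have b1 := exq_bounds a j.val
    have b2 := exq_bounds a j'.val
    exact hzinj _ _ (by omega) (by omega) (by omega) (by omega) h1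
  have hdone : ∀ j : Fin n, ((d j : Fˣ) : F) = 1 ↔ 2 * a ≤ j.val := by
    intro j
    rw [← exq_eq_zero_iff]
    constructor
    · intro h1
      have h2 : d j = 1 := Units.ext h1
      rw [hdj] at h2
      have b1 := exq_bounds a j.val
      exact hzinj _ _ (by omega) (by omega) (by omega) (by omega) (h2.trans (zpow_zero ζ).symm)
    · intro h1
      rw [hdj, h1, zpow_zero, Units.val_one]
  obtain ⟨D, hD⟩ : ∃ D : Fin n → F, D = fun j => ((d j : Fˣ) : F) := ⟨_, rfl⟩
  have hDj : ∀ j, D j = ((d j : Fˣ) : F) := fun j => by rw [hD]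
  have hdet : (Matrix.diagonal D).det = 1 := by
    rw [Matrix.det_diagonal, hD]
    exact hprod
  -- the eigenspaces
  have hfix : (Finset.univ.filter fun j => D j = 1).card = n - 2 * a := by
    rw [← card_filter_le_val n (2 * a)]
    congr 1
    exact Finset.filter_congr fun j _ => by rw [hDj]; exact hdone j
  have hsimple : ∀ c : F, c ≠ 1 → (Finset.univ.filter fun j => D j = c).card ≤ 1 := by
    intro c hc
    rw [Finset.card_le_one]
    intro j hj j' hj'
    rw [Finset.mem_filter] at hj hj'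
    have h1 : ((d j : Fˣ) : F) = d j' := by rw [← hDj, ← hDj, hj.2, hj'.2]
    have h2 := hdinj j j' h1
    have h3 : exq a j.val ≠ 0 := by
      intro h0
      apply hc
      rw [← hj.2, hDj, hdj, h0, zpow_zero, Units.val_one]
    exact Fin.ext (exq_inj a j.val j'.val h2 h3)
  -- the cyclotomic factors are linear
  have hprim : IsPrimitiveRoot ((ζ : Fˣ) : F) r := by
    rw [IsPrimitiveRoot.coe_units_iff, ← hζ]
    exact IsPrimitiveRoot.orderOf ζ
  have hr0 : (r : F) ≠ 0 := by
    haveI : NeZero r := ⟨hr.ne_zero⟩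
    exact (hprim.neZero').out
  have hlin : ∀ φ ∈ Φs, ∃ c : F, c ≠ 1 ∧ φ = X - C c := by
    intro φ hφ
    obtain ⟨hmon, hirr, hdiv⟩ := (hΦ φ).mp hφ
    have h1 : φ ∣ ∏ c ∈ nthRootsFinset r (1 : F), (X - C c) := by
      rw [← X_pow_sub_one_eq_prod hr.pos hprim]
      exact hdiv.trans (cyclotomic.dvd_X_pow_sub_one r F)
    obtain ⟨c, -, hc⟩ := (hirr.prime.dvd_finsetProd_iff _).mp h1
    have h2 : φ = X - C c :=
      eq_of_monic_of_associated hmon (monic_X_sub_C c)
        (hirr.associated_of_dvd (irreducible_X_sub_C c) hc)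
    refine ⟨c, ?_, h2⟩
    intro hc1
    rw [h2, hc1] at hdiv
    have h3 : (cyclotomic r F).IsRoot 1 := by
      rw [← dvd_iff_isRoot]
      exact hdiv
    rw [IsRoot.def, eval_one_cyclotomic_prime] at h3
    exact hr0 h3
  -- the element
  obtain ⟨x, hx⟩ : ∃ x : Matrix.SpecialLinearGroup (Fin n) F,
      (x : Matrix (Fin n) (Fin n) F) = Matrix.diagonal D := ⟨⟨Matrix.diagonal D, hdet⟩, rfl⟩
  refine ⟨x, ?_, ?_, ?_, ?_, ?_⟩
  · refine (mem_SU_iff n x).mpr ?_
    intro u v
    unfold Cfsg.hermForm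
    refine Finset.sum_congr rfl fun i _ => ?_
    rw [hx, Matrix.mulVec_diagonal, Matrix.mulVec_diagonal, mul_pow]
    have h1 : D i * D i ^ q = 1 := by
      rw [← pow_succ', hDj]
      exact hdq i
    calc D i * u i * (D i ^ q * v i ^ q) = (D i * D i ^ q) * (u i * v i ^ q) := by ring
      _ = u i * v i ^ q := by rw [h1, one_mul]
  · apply Subtype.ext
    rw [Matrix.SpecialLinearGroup.coe_pow, Matrix.SpecialLinearGroup.coe_one, hx,
      Matrix.diagonal_pow]
    have h1 : D ^ r = fun _ => (1 : F) := by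
      funext j
      rw [Pi.pow_apply, hDj]
      exact hdr j
    rw [h1, Matrix.diagonal_one]
  · intro z hz
    have hz' : Matrix.diagonal D = z • (1 : Matrix (Fin n) (Fin n) F) := by rw [← hx]; exact hz
    have h00 := congrFun (congrFun hz' ⟨0, by omega⟩) ⟨0, by omega⟩
    have h11 := congrFun (congrFun hz' ⟨1, by omega⟩) ⟨1, by omega⟩
    rw [Matrix.diagonal_apply_eq, Matrix.smul_apply, Matrix.one_apply_eq, smul_eq_mul,
      mul_one] at h00 h11
    have h1 : ((d ⟨0, by omega⟩ : Fˣ) : F) = d ⟨1, by omega⟩ := by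
      rw [← hDj, ← hDj, h00, h11]
    exact exq_zero_one a ha0 (hdinj _ _ h1)
  · have h1 := finrank_ker_diagonal_sub D 1
    rw [one_smul] at h1
    rw [hx, h1, hfix]
    rcases hach with h2 | h2
    · right
      omega
    · left
      omega
  · intro φ hφ
    obtain ⟨c, hc1, rfl⟩ := hlin φ hφ
    rw [hx, map_sub, aeval_X, aeval_C, Algebra.algebraMap_eq_smul_one, finrank_ker_diagonal_sub]
    exact hsimple c hc1

example : StUtExTwo.{u} := utExTwo

end Cfsg.Agent.H84.Ut
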