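import Mathlib
import Cfsg.Agent.H42.UtDefs
import Cfsg.Agent.H25.UnInvNec

/-!
# S5953 team project, piece UT-INVNEC (helper84)

An element `x` of `SL_n(F)` (`|F| = q ^ 2`, `q` odd) with `x * x = ν ^ 2`, `ν ^ (q + 1) = 1`, whose
`(-ν)`-eigenspace has odd dimension: `1 = det x = ν ^ n₊ * (-ν) ^ n₋ = -ν ^ n`, so the order of `ν`
divides `2 n` and `q + 1` but not `n`, whence `(n)_2 < (q + 1)_2`.
-/

set_option autoImplicit false

namespace Cfsg.Agent.H84.Ut

open Cfsg.Agent.H45 Cfsg.Agent.H42.Spd Cfsg.Agent.H42.Un Cfsg.Agent.H42.Ti Cfsg.Agent.H42.Ut Module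
  Polynomial
open Cfsg.Agent.H25.Un

universe u

/-- The arithmetic: `ν ^ (q + 1) = 1` and `ν ^ n = -1 ≠ 1` force `(n)_2 < (q + 1)_2`. -/
theorem inv_arith_neg {F : Type u} [Field F] (h2 : (2 : F) ≠ 0) (q n : ℕ) (ν : F)
    (hν : ν ^ (q + 1) = 1) (hνn : ν ^ n = -1) :
    padicValNat 2 n < padicValNat 2 (q + 1) := by
  have hfact : Fact (Nat.Prime 2) := ⟨Nat.prime_two⟩
  obtain ⟨a, ha⟩ : ∃ a, a = padicValNat 2 n := ⟨_, rfl⟩
  obtain ⟨m, hm⟩ : 2 ^ a ∣ n := by rw [ha]; exact pow_padicValNat_dvd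
  rw [← ha]
  obtain ⟨μ, hμ⟩ : ∃ μ : F, μ = ν ^ m := ⟨_, rfl⟩
  have h1 : μ ^ 2 ^ a = -1 := by
    rw [hμ, ← pow_mul, mul_comm, ← hm, hνn]
  have h3 : μ ^ 2 ^ (a + 1) = 1 := by
    rw [pow_succ 2 a, pow_mul, h1]
    norm_num
  have hord : orderOf μ = 2 ^ (a + 1) :=
    orderOf_eq_prime_pow (by rw [h1]; exact neg_one_ne_one_of h2) h3
  have hμq : μ ^ (q + 1) = 1 := by
    rw [hμ, ← pow_mul, mul_comm, pow_mul, hν, one_pow]
  have hdvd : 2 ^ (a + 1) ∣ q + 1 := by
    rw [← hord]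
    exact orderOf_dvd_of_pow_eq_one hμq
  have hle : a + 1 ≤ padicValNat 2 (q + 1) :=
    (padicValNat_dvd_iff_le (by omega)).mp hdvd
  omega

theorem eig_neg_eq {F : Type u} [Field F] {V : Type*} [AddCommGroup V] [Module F V]
    (T : Module.End F V) (ν : F) :
    eig T (-ν) = LinearMap.ker (T + ν • (1 : Module.End F V)) := by
  unfold eig
  rw [neg_smul, sub_neg_eq_add]

/-- UT-INVNEC. -/
theorem utInvNec : StUtInvNec.{u} := by
  intro F _ _ q hF hq n x ν _ _ hν hxx hodd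
  have h2 : (2 : F) ≠ 0 := by
    intro h20
    have h3 : ((Fintype.card F : ℕ) : F) = 0 := Nat.cast_card_eq_zero F
    rw [hF] at h3
    obtain ⟨k, hk⟩ := hq.pow (n := 2)
    rw [hk] at h3
    push_cast at h3
    rw [h20, zero_mul, zero_add] at h3
    exact one_ne_zero h3
  have hν0 : ν ≠ 0 := by
    intro h0
    rw [h0, zero_pow (by omega)] at hν
    exact zero_ne_one hν
  have hTT : Matrix.toLin' (x : Matrix (Fin n) (Fin n) F) *
      Matrix.toLin' (x : Matrix (Fin n) (Fin n) F) =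
      (ν * ν) • (1 : Module.End F (Fin n → F)) := by
    apply LinearMap.ext
    intro v
    rw [Module.End.mul_apply, Matrix.toLin'_apply, Matrix.toLin'_apply, Matrix.mulVec_mulVec,
      ← Matrix.SpecialLinearGroup.coe_mul, hxx, LinearMap.smul_apply, Module.End.one_apply,
      Matrix.smul_mulVec, Matrix.one_mulVec]
  have hcompl := eig_isCompl (T := Matrix.toLin' (x : Matrix (Fin n) (Fin n) F)) h2 ν hν0 hTT
  have hsum := Submodule.finrank_add_eq_of_isCompl hcompl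
  rw [Module.finrank_fintype_fun_eq_card, Fintype.card_fin] at hsum
  have hdet := det_eq_of_eig_isCompl (Matrix.toLin' (x : Matrix (Fin n) (Fin n) F)) ν (-ν) hcompl
  rw [LinearMap.det_toLin', Matrix.SpecialLinearGroup.det_coe] at hdet
  have hker : eig (Matrix.toLin' (x : Matrix (Fin n) (Fin n) F)) (-ν) =
      LinearMap.ker (Matrix.toLin' (x : Matrix (Fin n) (Fin n) F) +
        ν • (1 : Module.End F (Fin n → F))) := eig_neg_eq _ ν
  rw [hker] at hdet hsum
  rw [hodd.neg_pow, mul_neg, ← pow_add, hsum] at hdet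
  have hνn : ν ^ n = -1 := by
    rw [hdet, neg_neg]
  exact inv_arith_neg h2 q n ν hν hνn

example : StUtInvNec.{u} := utInvNec

end Cfsg.Agent.H84.Ut
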